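import Mathlib

set_option autoImplicit false

namespace Cfsg.Agent.Lib.Helper26

open MulAction

/-- Point stabilisers in one orbit are maximal together. -/
theorem isCoatom_stabilizer_smul {G α : Type*} [Group G] [MulAction G α] (g : G) (x : α)
    (h : IsCoatom (stabilizer G x)) : IsCoatom (stabilizer G (g • x)) := by
  rw [MulAction.stabilizer_smul_eq_stabilizer_map_conj]
  exact ((MulAut.conj g).mapSubgroup.isCoatom_iff _).mpr h

theorem ncard_eq_sum_fiber {α : Type*} (B : Set α) (hB : B.Finite) (c : α → ℕ) (J : Finset ℕ)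
    (hJ : ∀ y ∈ B, c y ∈ J) : B.ncard = ∑ i ∈ J, {y | y ∈ B ∧ c y = i}.ncard := by
  classical
  rw [Set.ncard_eq_toFinset_card B hB, Finset.card_eq_sum_card_fiberwise (f := c) (t := J)]
  · refine Finset.sum_congr rfl fun i _ => ?_
    rw [← Set.ncard_coe_finset]
    congr 1
    ext y
    simp
  · intro y hy
    exact hJ y (by simpa using hy)

/-- Maximality of a point stabiliser from the sizes of its orbits: if the orbits of the
stabiliser of `x` on the orbit `Ω` of `x` are the level sets of `c`, of sizes `n i`, and no union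
of them containing `x`, other than `{x}` and `Ω`, has size dividing that of `Ω`, then the
stabiliser is maximal. -/
theorem isCoatom_stabilizer_of_suborbits {G α : Type*} [Group G] [Finite G] [MulAction G α]
    (x : α) (Ω : Set α) (hΩ : orbit G x = Ω) (c : α → ℕ) (J : Finset ℕ) (n : ℕ → ℕ)
    (htrans : ∀ y ∈ Ω, ∀ z ∈ Ω, c y = c z → ∃ h ∈ stabilizer G x, h • y = z)
    (hJ : ∀ y ∈ Ω, c y ∈ J)
    (hn : ∀ i ∈ J, {y | y ∈ Ω ∧ c y = i}.ncard = n i)
    (hdiv : ∀ I ⊆ J, c x ∈ I → (∑ i ∈ I, n i) ∣ (∑ i ∈ J, n i) → I = {c x} ∨ I = J)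
    (hbig : ∃ i ∈ J, i ≠ c x ∧ n i ≠ 0) :
    IsCoatom (stabilizer G x) := by
  classical
  subst hΩ
  have hfin : (orbit G x).Finite := Set.finite_range _
  set H := stabilizer G x with hH
  have hΩcard : (orbit G x).ncard = ∑ i ∈ J, n i := by
    rw [ncard_eq_sum_fiber _ hfin c J hJ]
    exact Finset.sum_congr rfl hn
  have hidx : H.index = ∑ i ∈ J, n i := by
    rw [← hΩcard]
    exact index_stabilizer G x
  constructor
  · obtain ⟨i, hi, hix, hni⟩ := hbig
    intro htop
    have hne : {y | y ∈ orbit G x ∧ c y = i}.Nonempty := by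
      by_contra hne
      rw [Set.not_nonempty_iff_eq_empty] at hne
      rw [← hn i hi, hne, Set.ncard_empty] at hni
      exact hni rfl
    obtain ⟨y, ⟨g, rfl⟩, hy2⟩ := hne
    have hg : g ∈ H := by
      rw [htop]
      trivial
    have hg' : g • x = x := hg
    simp only [hg'] at hy2
    exact hix hy2.symm
  · intro K hK
    set B : Set α := {y | ∃ k ∈ K, k • x = y} with hBdef
    have hBΩ : B ⊆ orbit G x := fun y ⟨k, _, hk⟩ => ⟨k, hk⟩
    have hBfin : B.Finite := hfin.subset hBΩ
    have hxB : x ∈ B := ⟨1, K.one_mem, one_smul _ _⟩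
    have hcl : ∀ y ∈ B, ∀ z ∈ orbit G x, c y = c z → z ∈ B := by
      rintro y ⟨k, hk, rfl⟩ z hz hc
      obtain ⟨h, hh, rfl⟩ := htrans _ (hBΩ ⟨k, hk, rfl⟩) z hz hc
      exact ⟨h * k, K.mul_mem (hK.le hh) hk, mul_smul _ _ _⟩
    let I := J.filter (fun i => ∃ y ∈ B, c y = i)
    have hBcard : B.ncard = ∑ i ∈ I, n i := by
      rw [ncard_eq_sum_fiber B hBfin c J (fun y hy => hJ y (hBΩ hy)), Finset.sum_filter]
      refine Finset.sum_congr rfl fun i hi => ?_
      split_ifs with hex
      · rw [← hn i hi]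
        congr 1
        ext z
        obtain ⟨y, hy, hyc⟩ := hex
        constructor
        · rintro ⟨hz, hzc⟩
          exact ⟨hBΩ hz, hzc⟩
        · rintro ⟨hz, hzc⟩
          exact ⟨hcl y hy z hz (hyc.trans hzc.symm), hzc⟩
      · have hemp : {y | y ∈ B ∧ c y = i} = ∅ := by
          ext y
          simp only [Set.mem_ofPred_eq, Set.mem_empty_iff_false, iff_false]
          rintro ⟨hy, hyc⟩
          exact hex ⟨y, hy, hyc⟩
        rw [hemp, Set.ncard_empty]
    have hBrel : B.ncard = H.relIndex K := by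
      have h1 := index_stabilizer (↥K) x
      have h2 : stabilizer (↥K) x = H.subgroupOf K := by
        ext k
        rfl
      have h3 : orbit (↥K) x = B := by
        ext y
        constructor
        · rintro ⟨k, rfl⟩
          exact ⟨k.1, k.2, rfl⟩
        · rintro ⟨k, hk, rfl⟩
          exact ⟨⟨k, hk⟩, rfl⟩
      rw [← h3, ← h1, h2]
      rfl
    have hmul : H.relIndex K * K.index = H.index := Subgroup.relIndex_mul_index hK.le
    have hdvd : (∑ i ∈ I, n i) ∣ ∑ i ∈ J, n i := by
      rw [← hBcard, hBrel, ← hidx, ← hmul]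
      exact dvd_mul_right _ _
    have hxI : c x ∈ I :=
      Finset.mem_filter.mpr ⟨hJ x (mem_orbit_self x), x, hxB, rfl⟩
    rcases hdiv I (Finset.filter_subset _ _) hxI hdvd with hI | hI
    · exfalso
      apply hK.not_ge
      intro k hk
      have hkB : k • x ∈ B := ⟨k, hk, rfl⟩
      have hcI : c (k • x) ∈ I := Finset.mem_filter.mpr ⟨hJ _ (hBΩ hkB), _, hkB, rfl⟩
      rw [hI, Finset.mem_singleton] at hcI
      obtain ⟨h, hh, hh2⟩ := htrans x (mem_orbit_self x) (k • x) (hBΩ hkB) hcI.symm
      show k • x = x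
      rw [← hh2]
      exact hh
    · have hrel : H.relIndex K = H.index := by rw [← hBrel, hBcard, hI, hidx]
      have hne : H.index ≠ 0 := Subgroup.index_ne_zero_of_finite
      have hKidx : K.index = 1 := by
        rw [← hrel] at hmul
        rw [← hrel] at hne
        exact Nat.eq_of_mul_eq_mul_left (Nat.pos_of_ne_zero hne) (by rw [hmul, mul_one])
      exact Subgroup.index_eq_one.mp hKidx

end Cfsg.Agent.Lib.Helper26
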