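import Mathlib

set_option autoImplicit false

namespace Cfsg.Agent.Lib.Helper26

/-- Counting the image of a map whose fibres are the orbits of a fixed-point-free involution. -/
theorem ncard_image_two_to_one {α β : Type*} (f : α → β) (s : Set α) (hs : s.Finite)
    (σ : α → α) (hσ : ∀ a ∈ s, σ a ∈ s ∧ σ a ≠ a ∧ f (σ a) = f a)
    (hf : ∀ a ∈ s, ∀ b ∈ s, f a = f b → b = a ∨ b = σ a) :
    s.ncard = 2 * (f '' s).ncard := by
  classical
  have h1 : (f '' s).ncard = (hs.toFinset.image f).card := by
    rw [← Set.ncard_coe_finset, Finset.coe_image, Set.Finite.coe_toFinset]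
  rw [Set.ncard_eq_toFinset_card s hs, h1, Finset.card_eq_sum_card_image f hs.toFinset,
    Finset.sum_congr rfl (g := fun _ => 2), Finset.sum_const, smul_eq_mul, mul_comm]
  intro b hb
  obtain ⟨a, ha, rfl⟩ := Finset.mem_image.mp hb
  rw [Set.Finite.mem_toFinset] at ha
  obtain ⟨h1, h2, h3⟩ := hσ a ha
  have : hs.toFinset.filter (fun a' => f a' = f a) = {a, σ a} := by
    ext b
    simp only [Finset.mem_filter, Set.Finite.mem_toFinset, Finset.mem_insert,
      Finset.mem_singleton]
    constructor
    · rintro ⟨hb, hfb⟩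
      exact hf a ha b hb hfb.symm
    · rintro (rfl | rfl)
      · exact ⟨ha, rfl⟩
      · exact ⟨h1, h3⟩
  rw [this, Finset.card_pair (Ne.symm h2)]

end Cfsg.Agent.Lib.Helper26
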