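import Cfsg.Agent.Lib.Helper26.OctData
import Cfsg.Agent.Lib.Helper26.OctStab

set_option autoImplicit false

open scoped Pointwise

namespace Cfsg.Agent.Lib.Helper26

open Cfsg.Agent.Lib.Helper7

theorem forall₂_mem_left {α β : Type*} {R : α → β → Prop} {L : List α} {T : List β}
    (h : List.Forall₂ R L T) {a : α} (ha : a ∈ L) : ∃ t ∈ T, R a t := by
  induction h with
  | nil => simp at ha
  | cons hab _ ih =>
    rcases List.mem_cons.mp ha with rfl | ha
    · exact ⟨_, List.mem_cons_self, hab⟩
    · obtain ⟨t, ht, hR⟩ := ih ha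
      exact ⟨t, List.mem_cons_of_mem _ ht, hR⟩

/-- The base octad. -/
abbrev baseOct : Finset Cfsg.GolayPt := Cfsg.Agent.Lib.Helper7.setOf 8536111

/-- The stabiliser of the base octad in the group of the code. -/
def octS : Subgroup (Equiv.Perm Cfsg.GolayPt) :=
  Cfsg.M24 ⊓ MulAction.stabilizer (Equiv.Perm Cfsg.GolayPt) baseOct

theorem octTinv_eq : octWords.map (fun w => invT (evalT ltabs2 w)) = octTinv := by
  decide +kernel

/-- Three elements of the stabiliser of the base octad. -/
noncomputable def octGens : List (Equiv.Perm Cfsg.GolayPt) := octWords.map (evalW letters2)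

theorem octGens_rep : List.Forall₂ (fun σ t => RepT σ⁻¹ t) octGens octTinv := by
  rw [← octTinv_eq]
  exact rep_inv_words octWords

theorem octTinv_fix : octTinv.all (fun t => permT t 8536111 == 8536111) = true := by
  decide +kernel

theorem octGens_mem : ∀ σ ∈ octGens, σ ∈ octS := by
  intro σ hσ
  refine ⟨words_mem_M24 octWords σ hσ, ?_⟩
  obtain ⟨t, ht, hR⟩ := forall₂_mem_left octGens_rep hσ
  show σ ∈ MulAction.stabilizer (Equiv.Perm Cfsg.GolayPt) baseOct
  rw [MulAction.mem_stabilizer_iff, baseOct, smul_setOf hR]
  have := List.all_eq_true.mp octTinv_fix t ht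
  rw [beq_iff_eq] at this
  rw [this]

theorem octChk0 : chkOrb permT octTinv octObjs0 octCert0 1 = true := by decide +kernel

set_option maxRecDepth 1000000 in
theorem octChk2 : chkOrb permT octTinv octObjs2 octCert2 1 = true := by decide +kernel

set_option maxRecDepth 1000000 in
theorem octChk4 : chkOrb permT octTinv octObjs4 octCert4 1 = true := by decide +kernel

/-- The octads meeting the base octad in a given number of points. -/
def octList (j : ℕ) : List ℕ :=
  if j = 0 then octObjs0 else if j = 2 then octObjs2 else if j = 4 then octObjs4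
  else if j = 8 then [8536111] else []

theorem octComplete : (List.range 4096).all (fun k => popc (enc k) != 8 ||
    (octList (popc (8536111 &&& enc k))).contains (enc k)) = true := by
  decide +kernel

theorem oct_pair (j : ℕ) : ∀ c ∈ octList j, ∀ c' ∈ octList j,
    ∃ u ∈ octS, u • Cfsg.Agent.Lib.Helper7.setOf c = Cfsg.Agent.Lib.Helper7.setOf c' := by
  by_cases h0 : j = 0
  · rw [octList, if_pos h0]
    exact orbit_of_chk_pair octS (fun c => Cfsg.Agent.Lib.Helper7.setOf c) permT
      (fun σ t c h => smul_setOf h c) octGens_rep octGens_mem octObjs0 octCert0 (by decide +kernel)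
      octChk0
  by_cases h2 : j = 2
  · rw [octList, if_neg h0, if_pos h2]
    exact orbit_of_chk_pair octS (fun c => Cfsg.Agent.Lib.Helper7.setOf c) permT
      (fun σ t c h => smul_setOf h c) octGens_rep octGens_mem octObjs2 octCert2 (by decide +kernel)
      octChk2
  by_cases h4 : j = 4
  · rw [octList, if_neg h0, if_neg h2, if_pos h4]
    exact orbit_of_chk_pair octS (fun c => Cfsg.Agent.Lib.Helper7.setOf c) permT
      (fun σ t c h => smul_setOf h c) octGens_rep octGens_mem octObjs4 octCert4 (by decide +kernel)
      octChk4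
  by_cases h8 : j = 8
  · rw [octList, if_neg h0, if_neg h2, if_neg h4, if_pos h8]
    intro c hc c' hc'
    rw [List.mem_singleton] at hc hc'
    rw [hc, hc']
    exact ⟨1, octS.one_mem, one_smul _ _⟩
  · rw [octList, if_neg h0, if_neg h2, if_neg h4, if_neg h8]
    intro c hc
    simp at hc

theorem card_baseOct_inter (m : ℕ) :
    (baseOct ∩ Cfsg.Agent.Lib.Helper7.setOf m).card = popc (8536111 &&& m) := by
  rw [baseOct, setOf_inter, card_setOf]

theorem mem_octList {k : ℕ} (hk : k < 4096) (h8 : popc (enc k) = 8) :
    enc k ∈ octList (popc (8536111 &&& enc k)) := by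
  have h := all_range octComplete k hk
  rw [Bool.or_eq_true] at h
  rcases h with h | h
  · rw [h8] at h
    exact absurd h (by decide)
  · exact List.contains_iff_mem.mp h

/-- Octads meeting the base octad in equally many points are in one orbit of its stabiliser. -/
theorem base_orbit {o' o'' : Finset Cfsg.GolayPt} (ho' : o' ∈ Cfsg.octads)
    (ho'' : o'' ∈ Cfsg.octads) (h : (baseOct ∩ o').card = (baseOct ∩ o'').card) :
    ∃ u ∈ octS, u • o' = o'' := by
  obtain ⟨k', hk', h8', rfl⟩ := (mem_octads_iff_enc o').mp ho'
  obtain ⟨k'', hk'', h8'', rfl⟩ := (mem_octads_iff_enc o'').mp ho''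
  rw [card_baseOct_inter, card_baseOct_inter] at h
  have h1 := mem_octList hk' h8'
  have h2 := mem_octList hk'' h8''
  rw [← h] at h2
  exact oct_pair _ _ h1 _ h2

end Cfsg.Agent.Lib.Helper26
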