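import Mathlib
import Cfsg.Agent.Lib.Helper26.Coatom

set_option autoImplicit false

namespace Cfsg.Agent.Lib.Helper26

open MulAction

/-- The level sets of `c` on the orbit `Ω` of `x` lie in single orbits of the stabiliser of `x`,
and have sizes `n i`. -/
structure SubOrb (G : Type*) {α : Type*} [Group G] [MulAction G α] (x : α) (Ω : Set α)
    (c : α → ℕ) (J : Finset ℕ) (n : ℕ → ℕ) : Prop where
  orbit_eq : orbit G x = Ω
  trans : ∀ y ∈ Ω, ∀ z ∈ Ω, c y = c z → ∃ h ∈ stabilizer G x, h • y = z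
  mem : ∀ y ∈ Ω, c y ∈ J
  card : ∀ i ∈ J, {y | y ∈ Ω ∧ c y = i}.ncard = n i

namespace SubOrb

variable {G α : Type*} [Group G] [MulAction G α] {x : α} {Ω : Set α} {c : α → ℕ}
  {J : Finset ℕ} {n : ℕ → ℕ}

theorem isCoatom [Finite G] (h : SubOrb G x Ω c J n)
    (hdiv : ∀ I ⊆ J, c x ∈ I → (∑ i ∈ I, n i) ∣ (∑ i ∈ J, n i) → I = {c x} ∨ I = J)
    (hbig : ∃ i ∈ J, i ≠ c x ∧ n i ≠ 0) : IsCoatom (stabilizer G x) :=
  isCoatom_stabilizer_of_suborbits x Ω h.orbit_eq c J n h.trans h.mem h.card hdiv hbig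

theorem congr_n (h : SubOrb G x Ω c J n) {n' : ℕ → ℕ} (hn : ∀ i ∈ J, n i = n' i) :
    SubOrb G x Ω c J n' :=
  ⟨h.orbit_eq, h.trans, h.mem, fun i hi => (h.card i hi).trans (hn i hi)⟩

theorem self_mem (h : SubOrb G x Ω c J n) : x ∈ Ω := by
  rw [← h.orbit_eq]
  exact mem_orbit_self x

theorem smul_mem (h : SubOrb G x Ω c J n) (g : G) {y : α} (hy : y ∈ Ω) : g • y ∈ Ω := by
  rw [← h.orbit_eq] at hy ⊢
  obtain ⟨k, rfl⟩ := hy
  exact ⟨g * k, mul_smul _ _ _⟩

/-- Transport to another point of the orbit. -/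
theorem smul (h : SubOrb G x Ω c J n) (g : G) :
    SubOrb G (g • x) Ω (fun y => c (g⁻¹ • y)) J n where
  orbit_eq := by rw [orbit_smul, h.orbit_eq]
  trans := by
    intro y hy z hz hyz
    obtain ⟨u, hu, huy⟩ := h.trans _ (h.smul_mem g⁻¹ hy) _ (h.smul_mem g⁻¹ hz) hyz
    refine ⟨g * u * g⁻¹, ?_, ?_⟩
    · show (g * u * g⁻¹) • g • x = g • x
      rw [mul_smul, inv_smul_smul, mul_smul]
      exact congrArg (g • ·) hu
    · rw [mul_smul, mul_smul, huy, smul_inv_smul]
  mem := fun y hy => h.mem _ (h.smul_mem g⁻¹ hy)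
  card := by
    intro i hi
    rw [← h.card i hi]
    have hset : {y | y ∈ Ω ∧ c (g⁻¹ • y) = i} = (fun z => g • z) '' {z | z ∈ Ω ∧ c z = i} := by
      ext y
      constructor
      · rintro ⟨hy, hcy⟩
        exact ⟨g⁻¹ • y, ⟨h.smul_mem g⁻¹ hy, hcy⟩, smul_inv_smul g y⟩
      · rintro ⟨z, ⟨hz, hcz⟩, rfl⟩
        refine ⟨h.smul_mem g hz, ?_⟩
        show c (g⁻¹ • g • z) = i
        rw [inv_smul_smul]
        exact hcz
    rw [hset, Set.ncard_image_of_injective _ (MulAction.injective g)]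

theorem ncard_orbit [Finite G] (h : SubOrb G x Ω c J n) : Ω.ncard = ∑ i ∈ J, n i := by
  have hfin : Ω.Finite := by
    rw [← h.orbit_eq]
    exact Set.finite_range _
  rw [ncard_eq_sum_fiber _ hfin c J h.mem]
  exact Finset.sum_congr rfl h.card

theorem card_stab [Finite G] (h : SubOrb G x Ω c J n) :
    Nat.card (stabilizer G x) * ∑ i ∈ J, n i = Nat.card G := by
  rw [← h.ncard_orbit, ← h.orbit_eq, ← index_stabilizer]
  exact Subgroup.card_mul_index _

/-- The level set of the base point is the base point alone. -/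
theorem level_self (h : SubOrb G x Ω c J n) : {y | y ∈ Ω ∧ c y = c x} = {x} := by
  ext y
  rw [Set.mem_singleton_iff]
  constructor
  · rintro ⟨hy, hcy⟩
    obtain ⟨u, hu, huy⟩ := h.trans x h.self_mem y hy hcy.symm
    rw [← huy]
    exact hu
  · rintro rfl
    exact ⟨h.self_mem, rfl⟩

/-- Orbits of the stabiliser are the level sets, when no other union of level sets has size
dividing the order of the stabiliser. -/
theorem orbit_stab [Finite G] (h : SubOrb G x Ω c J n) {y : α} (hy : y ∈ Ω)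
    (hdivH : ∀ I ⊆ J, c y ∈ I → (∑ i ∈ I, n i) ∣ Nat.card (stabilizer G x) → I = {c y}) :
    orbit ↥(stabilizer G x) y = {z | z ∈ Ω ∧ c z = c y} := by
  classical
  have hfin : Ω.Finite := by
    rw [← h.orbit_eq]
    exact Set.finite_range _
  set B : Set α := orbit ↥(stabilizer G x) y with hBdef
  have hBΩ : B ⊆ Ω := by
    rintro z ⟨k, rfl⟩
    exact h.smul_mem k.1 hy
  have hBfin : B.Finite := hfin.subset hBΩ
  have hyB : y ∈ B := mem_orbit_self y
  have hcl : ∀ z ∈ B, ∀ w ∈ Ω, c z = c w → w ∈ B := by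
    rintro z ⟨k, rfl⟩ w hw hc
    obtain ⟨u, hu, rfl⟩ := h.trans _ (hBΩ ⟨k, rfl⟩) w hw hc
    exact ⟨⟨u, hu⟩ * k, mul_smul _ _ _⟩
  let I := J.filter (fun i => ∃ z ∈ B, c z = i)
  have hBcard : B.ncard = ∑ i ∈ I, n i := by
    rw [ncard_eq_sum_fiber B hBfin c J (fun z hz => h.mem z (hBΩ hz)), Finset.sum_filter]
    refine Finset.sum_congr rfl fun i hi => ?_
    split_ifs with hex
    · rw [← h.card i hi]
      congr 1
      ext w
      obtain ⟨z, hz, hzc⟩ := hex
      constructor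
      · rintro ⟨hw, hwc⟩
        exact ⟨hBΩ hw, hwc⟩
      · rintro ⟨hw, hwc⟩
        exact ⟨hcl z hz w hw (hzc.trans hwc.symm), hwc⟩
    · have hemp : {z | z ∈ B ∧ c z = i} = ∅ := by
        ext z
        simp only [Set.mem_ofPred_eq, Set.mem_empty_iff_false, iff_false]
        rintro ⟨hz, hzc⟩
        exact hex ⟨z, hz, hzc⟩
      rw [hemp, Set.ncard_empty]
  have hdvd : (∑ i ∈ I, n i) ∣ Nat.card (stabilizer G x) := by
    rw [← hBcard, hBdef, ← index_stabilizer]
    exact Subgroup.index_dvd_card _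
  have hyI : c y ∈ I := Finset.mem_filter.mpr ⟨h.mem y hy, y, hyB, rfl⟩
  have hI := hdivH I (Finset.filter_subset _ _) hyI hdvd
  ext z
  constructor
  · intro hz
    have hzI : c z ∈ I := Finset.mem_filter.mpr ⟨h.mem z (hBΩ hz), z, hz, rfl⟩
    rw [hI, Finset.mem_singleton] at hzI
    exact ⟨hBΩ hz, hzI⟩
  · rintro ⟨hz, hzc⟩
    exact hcl y hyB z hz hzc.symm

/-- A level set of nonzero size is an orbit of the stabiliser. -/
theorem exists_rep [Finite G] (h : SubOrb G x Ω c J n) {i : ℕ} (hi : i ∈ J) (hni : n i ≠ 0)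
    (hdivH : ∀ I ⊆ J, i ∈ I → (∑ j ∈ I, n j) ∣ Nat.card (stabilizer G x) → I = {i}) :
    ∃ X ∈ Ω, orbit ↥(stabilizer G x) X = {z | z ∈ Ω ∧ c z = i} ∧
      (orbit ↥(stabilizer G x) X).ncard = n i := by
  have hne : {y | y ∈ Ω ∧ c y = i}.Nonempty := by
    by_contra hne
    rw [Set.not_nonempty_iff_eq_empty] at hne
    rw [← h.card i hi, hne, Set.ncard_empty] at hni
    exact hni rfl
  obtain ⟨X, hX, hcX⟩ := hne
  have key := h.orbit_stab hX (by rw [hcX]; exact hdivH)
  rw [hcX] at key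
  exact ⟨X, hX, key, by rw [key, h.card i hi]⟩

end SubOrb

/-- Building the level-set structure from an enumeration of the orbit with labels. -/
theorem subOrb_of_labels {G α : Type*} [Group G] [MulAction G α] (x : α) (Ω : Set α)
    (hΩorb : orbit G x = Ω) (N : ℕ) (e : ℕ → α) (lab : ℕ → ℕ)
    (hΩ : ∀ i < N, e i ∈ Ω) (hN : Ω.ncard = N) (hfin : Ω.Finite)
    (hinj : ∀ i < N, ∀ j < N, e i = e j → i = j)
    (htr : ∀ i < N, ∀ j < N, lab i = lab j → ∃ u ∈ stabilizer G x, u • e i = e j)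
    (J : Finset ℕ) (hJ : ∀ i < N, lab i ∈ J) :
    ∃ c : α → ℕ, (∀ i < N, c (e i) = lab i) ∧
      SubOrb G x Ω c J (fun j => ((Finset.range N).filter (fun i => lab i = j)).card) := by
  classical
  have himg : e '' (↑(Finset.range N) : Set ℕ) = Ω := by
    apply Set.eq_of_subset_of_ncard_le
    · rintro y ⟨i, hi, rfl⟩
      exact hΩ i (Finset.mem_range.mp hi)
    · rw [Set.InjOn.ncard_image, Set.ncard_coe_finset, Finset.card_range, hN]
      intro i hi j hj hij
      exact hinj i (Finset.mem_range.mp hi) j (Finset.mem_range.mp hj) hij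
    · exact hfin
  have hex : ∀ y ∈ Ω, ∃ i < N, e i = y := by
    intro y hy
    rw [← himg] at hy
    obtain ⟨i, hi, rfl⟩ := hy
    exact ⟨i, Finset.mem_range.mp hi, rfl⟩
  let c : α → ℕ := fun y => if h : ∃ i < N, e i = y then lab (Classical.choose h) else 0
  have hc : ∀ i < N, c (e i) = lab i := by
    intro i hi
    have h : ∃ j < N, e j = e i := ⟨i, hi, rfl⟩
    have h2 := Classical.choose_spec h
    show (if h : ∃ j < N, e j = e i then lab (Classical.choose h) else 0) = lab i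
    rw [dif_pos h, hinj _ h2.1 i hi h2.2]
  refine ⟨c, hc, ⟨hΩorb, ?_, ?_, ?_⟩⟩
  · intro y hy z hz hyz
    obtain ⟨i, hi, rfl⟩ := hex y hy
    obtain ⟨j, hj, rfl⟩ := hex z hz
    rw [hc i hi, hc j hj] at hyz
    exact htr i hi j hj hyz
  · intro y hy
    obtain ⟨i, hi, rfl⟩ := hex y hy
    rw [hc i hi]
    exact hJ i hi
  · intro j _
    have hset : {y | y ∈ Ω ∧ c y = j}
        = e '' (↑((Finset.range N).filter (fun i => lab i = j)) : Set ℕ) := by
      ext y
      constructor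
      · rintro ⟨hy, hcy⟩
        obtain ⟨i, hi, rfl⟩ := hex y hy
        rw [hc i hi] at hcy
        exact ⟨i, Finset.mem_coe.mpr (Finset.mem_filter.mpr ⟨Finset.mem_range.mpr hi, hcy⟩), rfl⟩
      · rintro ⟨i, hi, rfl⟩
        rw [Finset.mem_coe, Finset.mem_filter, Finset.mem_range] at hi
        exact ⟨hΩ i hi.1, by rw [hc i hi.1]; exact hi.2⟩
    rw [hset, Set.InjOn.ncard_image, Set.ncard_coe_finset]
    intro i hi k hk hik
    rw [Finset.mem_coe, Finset.mem_filter, Finset.mem_range] at hi hk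
    exact hinj i hi.1 k hk.1 hik

end Cfsg.Agent.Lib.Helper26
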