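import Cfsg.Agent.Lib.Helper26.OrbTools3
import Cfsg.Agent.Lib.Helper26.M23Idx
import Cfsg.Agent.Lib.Helper26.M22Idx
import Cfsg.Agent.Lib.Helper26.M24Sub
import Cfsg.Agent.Lib.Helper86.MathieuOrders

set_option autoImplicit false

open scoped Pointwise
open Cfsg

namespace Cfsg.Agent.Lib.Helper26

open Cfsg.Agent.Lib

theorem m22_le_M24 : Spor.M22 ≤ M24 := fun _ hk => (Helper86.mem_M22_iff.1 hk).1

/-- A subgroup of order `20160` of `M22` fixes a third point. -/
theorem m22_idx22_fix (K : Subgroup (Equiv.Perm GolayPt)) (hK : K ≤ Spor.M22)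
    (hc : Nat.card K = 20160) :
    ∃ p : GolayPt, p ≠ none ∧ p ≠ some 0 ∧ ∀ k ∈ K, k p = p := by
  classical
  have hK24 : K ≤ M24 := hK.trans m22_le_M24
  have hfn : ∀ k ∈ K, k none = none := fun k hk => (Helper86.mem_M22_iff.1 (hK hk)).2.1
  have hf0 : ∀ k ∈ K, k (some 0) = some 0 := fun k hk => (Helper86.mem_M22_iff.1 (hK hk)).2.2
  have hne : (none : GolayPt) ≠ some 0 := by decide
  obtain ⟨g, hg, ho, hg7⟩ := exists_ord K 7 (by norm_num) (by rw [hc]; norm_num)
  have h3 := fix7 (hK24 hg) ho
  have hsub : ({none, some 0} : Finset GolayPt) ⊆ Finset.univ.filter (fun i => g i = i) := by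
    intro i hi
    rw [Finset.mem_insert, Finset.mem_singleton] at hi
    rw [Finset.mem_filter]
    rcases hi with h | h
    · rw [h]
      exact ⟨Finset.mem_univ _, hfn g hg⟩
    · rw [h]
      exact ⟨Finset.mem_univ _, hf0 g hg⟩
  have hc1 : (Finset.univ.filter (fun i => g i = i) \ ({none, some 0} : Finset GolayPt)).card
      = 1 := by
    rw [Finset.card_sdiff_of_subset hsub, h3, Finset.card_pair hne]
  obtain ⟨p, hp⟩ := Finset.card_eq_one.1 hc1
  have hpm : p ∈ Finset.univ.filter (fun i => g i = i) \ ({none, some 0} : Finset GolayPt) := by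
    rw [hp]
    exact Finset.mem_singleton_self p
  rw [Finset.mem_sdiff, Finset.mem_filter, Finset.mem_insert, Finset.mem_singleton] at hpm
  obtain ⟨⟨-, hgp⟩, hpn⟩ := hpm
  have hpn1 : p ≠ none := fun h => hpn (Or.inl h)
  have hpn2 : p ≠ some 0 := fun h => hpn (Or.inr h)
  have hnO : none ∉ orbF K p := not_mem_orbF_of_fix hfn hpn1
  have h0O : some 0 ∉ orbF K p := not_mem_orbF_of_fix hf0 hpn2
  have hO7 := card_inv_modEq g 7 (by norm_num) hg7 (orbF K p)
    (fun i hi => invSet_orbF K p g hg i hi)
  have hfilt : (orbF K p).filter (fun i => g i = i) = {p} := by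
    ext q
    rw [Finset.mem_filter, Finset.mem_singleton]
    constructor
    · rintro ⟨hq, hgq⟩
      have hq' : q ∈ Finset.univ.filter (fun i => g i = i) \ ({none, some 0} : Finset GolayPt) := by
        rw [Finset.mem_sdiff, Finset.mem_filter, Finset.mem_insert, Finset.mem_singleton]
        refine ⟨⟨Finset.mem_univ _, hgq⟩, ?_⟩
        rintro (h | h)
        · exact hnO (h ▸ hq)
        · exact h0O (h ▸ hq)
      rw [hp, Finset.mem_singleton] at hq'
      exact hq'
    · intro h
      rw [h]
      exact ⟨self_mem_orbF K p, hgp⟩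
  rw [hfilt, Finset.card_singleton] at hO7
  have hOd := card_orbF_dvd K p
  rw [hc] at hOd
  have hOsub : orbF K p ⊆ Finset.univ \ ({none, some 0} : Finset GolayPt) := by
    intro i hi
    rw [Finset.mem_sdiff, Finset.mem_insert, Finset.mem_singleton]
    refine ⟨Finset.mem_univ _, ?_⟩
    rintro (h | h)
    · exact hnO (h ▸ hi)
    · exact h0O (h ▸ hi)
  have hO22 : (orbF K p).card ≤ 22 := by
    have h1 := Finset.card_le_card hOsub
    rw [Finset.card_sdiff_of_subset (Finset.subset_univ _), Finset.card_univ, fcard_golayPt,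
      Finset.card_pair hne] at h1
    exact h1
  have hcases : ∀ n ≤ 22, n % 7 = 1 % 7 → 20160 % n = 0 → n = 1 ∨ n = 8 ∨ n = 15 := by decide
  rcases hcases _ hO22 hO7 (Nat.mod_eq_zero_of_dvd hOd) with h1 | h8 | h15
  · exact ⟨p, hpn1, hpn2, orbF_card_one_iff.1 h1⟩
  · exfalso
    obtain ⟨g5, hg5, ho5, hg55⟩ := exists_ord K 5 (by norm_num) (by rw [hc]; norm_num)
    have h4 := fix5 (hK24 hg5) ho5
    have hsub5 : ({none, some 0} : Finset GolayPt) ⊆ Finset.univ.filter (fun i => g5 i = i) := by
      intro i hi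
      rw [Finset.mem_insert, Finset.mem_singleton] at hi
      rw [Finset.mem_filter]
      rcases hi with h | h
      · rw [h]
        exact ⟨Finset.mem_univ _, hfn g5 hg5⟩
      · rw [h]
        exact ⟨Finset.mem_univ _, hf0 g5 hg5⟩
    have hc2 : (Finset.univ.filter (fun i => g5 i = i) \ ({none, some 0} : Finset GolayPt)).card
        = 2 := by
      rw [Finset.card_sdiff_of_subset hsub5, h4, Finset.card_pair hne]
    have hO5 := card_inv_modEq g5 5 (by norm_num) hg55 (orbF K p)
      (fun i hi => invSet_orbF K p g5 hg5 i hi)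
    have hle : ((orbF K p).filter (fun i => g5 i = i)).card ≤ 2 := by
      rw [← hc2]
      apply Finset.card_le_card
      intro q hq
      rw [Finset.mem_filter] at hq
      rw [Finset.mem_sdiff, Finset.mem_filter, Finset.mem_insert, Finset.mem_singleton]
      refine ⟨⟨Finset.mem_univ _, hq.2⟩, ?_⟩
      rintro (h | h)
      · exact hnO (h ▸ hq.1)
      · exact h0O (h ▸ hq.1)
    rw [h8] at hO5
    omega
  · exfalso
    have hT : InvSet K (Finset.univ \ (({none} : Finset GolayPt) ∪ ({some 0} ∪ orbF K p))) :=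
      ((invSet_singleton hfn).union ((invSet_singleton hf0).union (invSet_orbF K p))).compl
    have hTc : (Finset.univ \ (({none} : Finset GolayPt) ∪ ({some 0} ∪ orbF K p))).card = 7 := by
      have e1 : ({none} : Finset GolayPt) ∪ ({some 0} ∪ orbF K p) =
          insert none (insert (some 0) (orbF K p)) := by
        ext i
        simp only [Finset.mem_union, Finset.mem_singleton, Finset.mem_insert]
      rw [Finset.card_sdiff_of_subset (Finset.subset_univ _), Finset.card_univ, fcard_golayPt, e1,
        Finset.card_insert_of_notMem, Finset.card_insert_of_notMem h0O, h15]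
      rw [Finset.mem_insert]
      rintro (h | h)
      · exact hne h
      · exact hnO h
    have hdvd := card_dvd_fixP_mul K _ hT
    have hbot : fixP K (Finset.univ \ (({none} : Finset GolayPt) ∪ ({some 0} ∪ orbF K p))) = ⊥ := by
      rw [Subgroup.eq_bot_iff_forall]
      intro k hk
      obtain ⟨hkK, hkT⟩ := mem_fixP.1 hk
      apply eq_one_of_fix9 hK24 hkK
        (insert none (insert (some 0)
          (Finset.univ \ (({none} : Finset GolayPt) ∪ ({some 0} ∪ orbF K p)))))
      · rw [Finset.card_insert_of_notMem, Finset.card_insert_of_notMem, hTc]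
        · simp
        · simp [hne]
      · intro i hi
        rw [Finset.mem_insert, Finset.mem_insert] at hi
        rcases hi with h | h | h
        · rw [h]
          exact hfn k hkK
        · rw [h]
          exact hf0 k hkK
        · exact hkT i h
    rw [hbot, Subgroup.card_bot, hTc, hc, one_mul] at hdvd
    have h7 : (7 : ℕ).factorial = 5040 := rfl
    rw [h7] at hdvd
    omega

/-- In `M22`, a subgroup of order `20160` meets its conjugate by an element outside it in a
subgroup of order dividing `960`. -/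
theorem m22_idx22_inter (K : Subgroup (Equiv.Perm GolayPt)) (hK : K ≤ Spor.M22)
    (hc : Nat.card K = 20160) (t : Equiv.Perm GolayPt) (ht : t ∈ Spor.M22) (htK : t ∉ K)
    (S : Subgroup (Equiv.Perm GolayPt)) (hS : ∀ x ∈ S, x ∈ K ∧ t⁻¹ * x * t ∈ K) :
    Nat.card S ∣ 960 := by
  classical
  obtain ⟨p, hp1, hp2, hp⟩ := m22_idx22_fix K hK hc
  have hfn : ∀ k ∈ Spor.M22, k none = none := fun k hk => (Helper86.mem_M22_iff.1 hk).2.1
  have hf0 : ∀ k ∈ Spor.M22, k (some 0) = some 0 := fun k hk => (Helper86.mem_M22_iff.1 hk).2.2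
  have hne : (none : GolayPt) ≠ some 0 := by decide
  have htp : t p ≠ p := by
    intro h
    apply htK
    have hle : K ≤ fixP Spor.M22 {p} := by
      intro k hk
      rw [mem_fixP]
      refine ⟨hK hk, fun i hi => ?_⟩
      rw [Finset.mem_singleton] at hi
      rw [hi]
      exact hp k hk
    have hd : Nat.card (fixP Spor.M22 {p}) ∣ 20160 := by
      apply card_dvd_fix3 _ ((fixP_le _ _).trans m22_le_M24) {none, some 0, p}
      · rw [Finset.card_insert_of_notMem, Finset.card_pair hp2.symm]
        rw [Finset.mem_insert, Finset.mem_singleton]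
        rintro (h1 | h1)
        · exact hne h1
        · exact hp1 h1.symm
      · intro k hk i hi
        obtain ⟨hk1, hk2⟩ := mem_fixP.1 hk
        rw [Finset.mem_insert, Finset.mem_insert, Finset.mem_singleton] at hi
        rcases hi with h1 | h1 | h1
        · rw [h1]
          exact hfn k hk1
        · rw [h1]
          exact hf0 k hk1
        · rw [h1]
          exact hk2 p (Finset.mem_singleton_self p)
    have heq : K = fixP Spor.M22 {p} := by
      apply Subgroup.eq_of_le_of_card_ge hle
      rw [hc]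
      exact Nat.le_of_dvd (by norm_num) hd
    rw [heq, mem_fixP]
    refine ⟨ht, fun i hi => ?_⟩
    rw [Finset.mem_singleton] at hi
    rw [hi]
    exact h
  have hSK : S ≤ M24 := fun x hx => m22_le_M24 (hK (hS x hx).1)
  apply card_dvd_of_fix4 S hSK (a := none) (b := some 0) (c := p) (d := t p) hne hp1.symm
    ?_ hp2.symm ?_ htp.symm
  · intro x hx
    obtain ⟨h1, h2⟩ := hS x hx
    refine ⟨hfn x (hK h1), hf0 x (hK h1), hp x h1, ?_⟩
    have h3 := hp _ h2
    rw [Equiv.Perm.mul_apply, Equiv.Perm.mul_apply, Equiv.Perm.inv_eq_iff_eq] at h3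
    exact h3
  · intro h
    apply hp1
    apply t.injective
    rw [← h]
    exact (hfn t ht).symm
  · intro h
    apply hp2
    apply t.injective
    rw [← h]
    exact (hf0 t ht).symm

/-- The same in a group isomorphic to `M22`. -/
theorem iso_m22_pair {H : Type*} [Group H] (e : H ≃* ↥Spor.M22) (L : Subgroup H)
    (hL : Nat.card L = 20160) (t : H) (ht : t ∉ L) (S : Subgroup H)
    (hS : ∀ x ∈ S, x ∈ L ∧ t⁻¹ * x * t ∈ L) : Nat.card S ∣ 960 := by
  obtain ⟨f, hf, hfM⟩ : ∃ f : H →* Equiv.Perm GolayPt, Function.Injective f ∧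
      ∀ x, f x ∈ Spor.M22 :=
    ⟨(Subgroup.subtype _).comp e.toMonoidHom, Subtype.val_injective.comp e.injective,
      fun x => (e x).2⟩
  have h1 := m22_idx22_inter (L.map f) (by
      rintro _ ⟨x, -, rfl⟩
      exact hfM x) (by rw [Subgroup.card_map_of_injective hf, hL]) (f t) (hfM t) (by
      rintro ⟨x, hx, hxt⟩
      exact ht (hf hxt ▸ hx)) (S.map f) (by
      rintro _ ⟨x, hx, rfl⟩
      obtain ⟨h1, h2⟩ := hS x hx
      exact ⟨⟨x, h1, rfl⟩, ⟨t⁻¹ * x * t, h2, by rw [map_mul, map_mul, map_inv]⟩⟩)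
  rwa [Subgroup.card_map_of_injective hf] at h1

section Perm

variable {Ω : Type*} [Fintype Ω] [DecidableEq Ω]

/-- In a permutation group whose point stabiliser is isomorphic to `M22`, the stabiliser of
two further points, the first in an orbit of size `22`, has order dividing `960`. -/
theorem perm_m22_pair (G : Subgroup (Equiv.Perm Ω)) (a : Ω)
    (e : MulAction.stabilizer G a ≃* ↥Spor.M22) (y z : Ω) (t : Equiv.Perm Ω)
    (ht : t ∈ stabP G a) (hty : t y = z) (hyz : z ≠ y)
    (hL : Nat.card (stabP (stabP G a) y) = 20160) :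
    Nat.card (stabP (stabP (stabP G a) y) z) ∣ 960 := by
  obtain ⟨j, hj, hjr⟩ : ∃ j : ↥(MulAction.stabilizer G a) →* Equiv.Perm Ω,
      Function.Injective j ∧ j.range = stabP G a := by
    refine ⟨G.subtype.comp (Subgroup.subtype _),
      Subtype.val_injective.comp Subtype.val_injective, ?_⟩
    ext x
    rw [MonoidHom.mem_range, mem_stabP]
    constructor
    · rintro ⟨h, rfl⟩
      exact ⟨h.1.2, h.2⟩
    · rintro ⟨h1, h2⟩
      exact ⟨⟨⟨x, h1⟩, h2⟩, rfl⟩
  have hcard : ∀ M : Subgroup (Equiv.Perm Ω), M ≤ stabP G a →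
      Nat.card (M.comap j) = Nat.card M := by
    intro M hM
    rw [← Subgroup.card_map_of_injective hj, Subgroup.map_comap_eq_self (hjr ▸ hM)]
  obtain ⟨t', ht'⟩ : ∃ t' : ↥(MulAction.stabilizer G a), j t' = t := by
    have h1 : t ∈ j.range := hjr ▸ ht
    exact h1
  have h1 := iso_m22_pair e ((stabP (stabP G a) y).comap j)
    (by rw [hcard _ (stabP_le _ _), hL]) t' (by
      intro h
      rw [Subgroup.mem_comap, ht', mem_stabP] at h
      exact hyz (hty ▸ h.2)) ((stabP (stabP (stabP G a) y) z).comap j) (by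
      intro x hx
      rw [Subgroup.mem_comap, mem_stabP] at hx
      obtain ⟨hx1, hx2⟩ := hx
      refine ⟨hx1, ?_⟩
      rw [Subgroup.mem_comap, map_mul, map_mul, map_inv, ht', mem_stabP]
      refine ⟨(stabP G a).mul_mem ((stabP G a).mul_mem ((stabP G a).inv_mem ht)
        (stabP_le _ _ hx1)) ht, ?_⟩
      rw [Equiv.Perm.mul_apply, Equiv.Perm.mul_apply, hty, hx2, Equiv.Perm.inv_eq_iff_eq, hty])
  rwa [hcard _ ((stabP_le _ _).trans (stabP_le _ _))] at h1

end Perm

end Cfsg.Agent.Lib.Helper26
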