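import Cfsg.Agent.Lib.Helper26.Rank3Srg
import Cfsg.Agent.Lib.Helper26.M22Two

set_option autoImplicit false

open scoped Pointwise
open Cfsg

namespace Cfsg.Agent.Lib.Helper26

open Cfsg.Agent.Lib

section

variable {Ω : Type*} [Fintype Ω] [DecidableEq Ω]

/-- The graph of the pairs of points for which the stabiliser of the first has an orbit of
size `22` on the second. -/
def orbGraph (G : Subgroup (Equiv.Perm Ω)) (htr : ∀ x y : Ω, ∃ g ∈ G, g x = y) :
    SimpleGraph Ω where
  Adj x y := (orbF (stabP G x) y).card = 22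
  symm := ⟨fun x y h => by
    show (orbF (stabP G y) x).card = 22
    rw [← h]
    symm
    apply rel_symm
    have h1 := card_stabP_of_trans G htr x
    have h2 := card_stabP_of_trans G htr y
    have h3 : 0 < Fintype.card Ω := Fintype.card_pos_iff.2 ⟨x⟩
    exact Nat.eq_of_mul_eq_mul_right h3 (h1.trans h2.symm)⟩
  loopless := ⟨fun x h => by
    rw [orbF_stabP_self, Finset.card_singleton] at h
    omega⟩

theorem orbGraph_adj (G : Subgroup (Equiv.Perm Ω)) (htr : ∀ x y : Ω, ∃ g ∈ G, g x = y)
    (x y : Ω) : (orbGraph G htr).Adj x y ↔ (orbF (stabP G x) y).card = 22 := Iff.rfl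

/-- The order of a point stabiliser isomorphic to `M22`. -/
theorem card_stabP_m22 (G : Subgroup (Equiv.Perm Ω)) (a : Ω)
    (e : MulAction.stabilizer G a ≃* ↥Spor.M22) : Nat.card (stabP G a) = 443520 := by
  rw [← Helper86.card_M22, ← Nat.card_congr e.toEquiv]
  exact Nat.card_congr
    { toFun := fun k => ⟨⟨k.1, (mem_stabP.1 k.2).1⟩, (mem_stabP.1 k.2).2⟩
      invFun := fun k => ⟨k.1.1, mem_stabP.2 ⟨k.1.2, k.2⟩⟩
      left_inv := fun _ => rfl
      right_inv := fun _ => rfl }

/-- Orbits of the point stabiliser, in the two languages. -/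
theorem card_orbF_stabP_eq (G : Subgroup (Equiv.Perm Ω)) (a b : Ω) :
    (orbF (stabP G a) b).card = (MulAction.orbit (MulAction.stabilizer G a) b).ncard := by
  rw [card_orbF_eq_ncard]
  congr 1
  ext y
  constructor
  · rintro ⟨k, rfl⟩
    exact ⟨⟨⟨k.1, (mem_stabP.1 k.2).1⟩, (mem_stabP.1 k.2).2⟩, rfl⟩
  · rintro ⟨k, rfl⟩
    exact ⟨⟨k.1.1, mem_stabP.2 ⟨k.1.2, k.2⟩⟩, rfl⟩

/-- A transitive group on `100` points whose point stabiliser is isomorphic to `M22` and has
orbits of sizes `22` and `77`: the graph of the orbit of size `22` is triangle-free. -/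
theorem rank3_R3 (hΩ : Fintype.card Ω = 100) (G : Subgroup (Equiv.Perm Ω))
    (htr : ∀ x y : Ω, ∃ g ∈ G, g x = y) (a : Ω)
    (e : MulAction.stabilizer G a ≃* ↥Spor.M22) (b c : Ω)
    (hb : (orbF (stabP G a) b).card = 22) (hc : (orbF (stabP G a) c).card = 77) :
    R3 ↥G (orbGraph G htr) a := by
  classical
  have hH : Nat.card (stabP G a) = 443520 := card_stabP_m22 G a e
  have hba : b ≠ a := by
    intro h
    rw [h, orbF_stabP_self, Finset.card_singleton] at hb
    omega
  have hca : c ≠ a := by
    intro h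
    rw [h, orbF_stabP_self, Finset.card_singleton] at hc
    omega
  have haΔ : a ∉ orbF (stabP G a) b := not_mem_orbF_stabP hba
  have haΦ : a ∉ orbF (stabP G a) c := not_mem_orbF_stabP hca
  have hdisj : Disjoint (orbF (stabP G a) b) (orbF (stabP G a) c) := by
    rw [Finset.disjoint_left]
    intro y h1 h2
    have e1 := orbF_eq_of_mem h1
    have e2 := orbF_eq_of_mem h2
    rw [e1] at e2
    rw [e2] at hb
    omega
  have hcover : ∀ y, y = a ∨ y ∈ orbF (stabP G a) b ∨ y ∈ orbF (stabP G a) c := by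
    have h1 : insert a (orbF (stabP G a) b ∪ orbF (stabP G a) c) = Finset.univ := by
      apply Finset.eq_univ_of_card
      rw [Finset.card_insert_of_notMem, Finset.card_union_of_disjoint hdisj, hb, hc, hΩ]
      rw [Finset.mem_union]
      rintro (h | h)
      · exact haΔ h
      · exact haΦ h
    intro y
    have h2 := Finset.mem_univ y
    rw [← h1, Finset.mem_insert, Finset.mem_union] at h2
    exact h2
  have hadj : ∀ y, (orbGraph G htr).Adj a y ↔ y ∈ orbF (stabP G a) b := by
    intro y
    rw [orbGraph_adj]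
    constructor
    · intro h
      rcases hcover y with h1 | h1 | h1
      · rw [h1, orbF_stabP_self, Finset.card_singleton] at h
        omega
      · exact h1
      · rw [orbF_eq_of_mem h1, hc] at h
        omega
    · intro h
      rw [orbF_eq_of_mem h, hb]
  have hinvG : ∀ g ∈ G, ∀ x y, (orbGraph G htr).Adj x y → (orbGraph G htr).Adj (g x) (g y) := by
    intro g hg x y h
    rw [orbGraph_adj] at h ⊢
    rw [card_orbF_stabP_conj hg]
    exact h
  have htrans : ∀ x : Ω, ∃ g : ↥G, g • a = x := by
    intro x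
    obtain ⟨g, hg, h⟩ := htr a x
    exact ⟨⟨g, hg⟩, h⟩
  have hinv : ∀ (g : ↥G) (x y : Ω), (orbGraph G htr).Adj x y →
      (orbGraph G htr).Adj (g • x) (g • y) := fun g x y h => hinvG g.1 g.2 x y h
  have hdeg : {y | (orbGraph G htr).Adj a y}.ncard = 22 := by
    have h1 : {y | (orbGraph G htr).Adj a y} = ↑(orbF (stabP G a) b) := by
      ext y
      exact hadj y
    rw [h1, Set.ncard_coe_finset, hb]
  refine ⟨hΩ, htrans, hinv, hdeg, ?_, ?_⟩
  · intro y z hy hz hyz
    have hyΔ := (hadj y).1 hy
    have hzΔ := (hadj z).1 hz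
    have hzy : z ≠ y := by
      intro h
      rw [h] at hyz
      exact (orbGraph G htr).loopless.irrefl _ hyz
    have hL : ∀ y' ∈ orbF (stabP G a) b, Nat.card (stabP (stabP G a) y') = 20160 := by
      intro y' hy'
      have h1 := card_stabP_mul (stabP G a) y'
      rw [orbF_eq_of_mem hy', hb, hH] at h1
      omega
    have h2tr : ∀ y' ∈ orbF (stabP G a) b, ∀ z' ∈ orbF (stabP G a) b, z' ≠ y' →
        orbF (stabP (stabP G a) y') z' = (orbF (stabP G a) b).erase y' := by
      intro y' hy' z' hz' hne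
      apply Finset.eq_of_subset_of_card_le
      · apply orbF_subset_of_inv (T := (orbF (stabP G a) b).erase y') ?_
          (Finset.mem_erase.2 ⟨hne, hz'⟩)
        intro k hk i hi
        obtain ⟨hk1, hk2⟩ := mem_stabP.1 hk
        rw [Finset.mem_erase] at hi ⊢
        exact ⟨fun h => hi.1 (k.injective (h.trans hk2.symm)), invSet_orbF _ _ k hk1 i hi.2⟩
      · rw [Finset.card_erase_of_mem hy', hb]
        obtain ⟨t, ht, hty⟩ : ∃ t ∈ stabP G a, t y' = z' := by
          have h1 : z' ∈ orbF (stabP G a) y' := by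
            rw [orbF_eq_of_mem hy']
            exact hz'
          exact mem_orbF.1 h1
        have h960 := perm_m22_pair G a e y' z' t ht hty hne (hL y' hy')
        have h1 := card_stabP_mul (stabP (stabP G a) y') z'
        rw [hL y' hy'] at h1
        have h3 : Nat.card (stabP (stabP (stabP G a) y') z') ≤ 960 :=
          Nat.le_of_dvd (by norm_num) h960
        by_contra h4
        have h5 : (orbF (stabP (stabP G a) y') z').card ≤ 20 := by omega
        have h6 := Nat.mul_le_mul h3 h5
        omega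
    have hclique : ∀ y' z', (orbGraph G htr).Adj a y' → (orbGraph G htr).Adj a z' → y' ≠ z' →
        (orbGraph G htr).Adj y' z' := by
      intro y' z' hy' hz' hne
      have hy'Δ := (hadj y').1 hy'
      have hz'Δ := (hadj z').1 hz'
      obtain ⟨h, hh, hhy⟩ : ∃ h ∈ stabP G a, h y = y' := by
        have h1 : y' ∈ orbF (stabP G a) y := by
          rw [orbF_eq_of_mem hyΔ]
          exact hy'Δ
        exact mem_orbF.1 h1
      have hz'' : h⁻¹ z' ∈ orbF (stabP G a) b :=
        invSet_orbF _ _ h⁻¹ ((stabP G a).inv_mem hh) z' hz'Δ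
      have hz''y : h⁻¹ z' ≠ y := by
        intro h1
        apply hne
        rw [← hhy, ← h1]
        simp
      have h1 : h⁻¹ z' ∈ orbF (stabP (stabP G a) y) z := by
        rw [h2tr y hyΔ z hzΔ hzy]
        exact Finset.mem_erase.2 ⟨hz''y, hz''⟩
      obtain ⟨k, hk, hkz⟩ := mem_orbF.1 h1
      obtain ⟨hk1, hk2⟩ := mem_stabP.1 hk
      have h2 := hinvG k (stabP_le _ _ hk1) y z hyz
      rw [hk2, hkz] at h2
      have h3 := hinvG h (stabP_le _ _ hh) y (h⁻¹ z') h2
      rw [hhy] at h3
      simpa using h3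
    exact no_clique (G := ↥G) hΩ htrans hinv hdeg hclique
  · intro y z hya hza hy hz
    have hyΦ : y ∈ orbF (stabP G a) c := by
      rcases hcover y with h | h | h
      · exact absurd h hya
      · exact absurd ((hadj y).2 h) hy
      · exact h
    have hzΦ : z ∈ orbF (stabP G a) c := by
      rcases hcover z with h | h | h
      · exact absurd h hza
      · exact absurd ((hadj z).2 h) hz
      · exact h
    obtain ⟨k, hk, hky⟩ := mem_orbF.1 hyΦ
    obtain ⟨k', hk', hkz⟩ := mem_orbF.1 hzΦ
    have hmem : k' * k⁻¹ ∈ stabP G a := (stabP G a).mul_mem hk' ((stabP G a).inv_mem hk)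
    refine ⟨⟨k' * k⁻¹, stabP_le _ _ hmem⟩, (mem_stabP.1 hmem).2, ?_⟩
    show (k' * k⁻¹) y = z
    rw [← hky, ← hkz]
    simp

end

end Cfsg.Agent.Lib.Helper26
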