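import Cfsg.Agent.Lib.Helper26.M24Sub

set_option autoImplicit false
open scoped Pointwise
open Cfsg

namespace Cfsg.Agent.Lib.Helper26

open Cfsg.Agent.Lib

section M24Idx

variable {K : Subgroup (Equiv.Perm GolayPt)}

/-- No invariant set of eight points off a fixed point, for groups of small index in the
symmetric group of degree eight. -/
theorem no_inv8_small {x : GolayPt} (hK : K ≤ M24) (hx : ∀ k ∈ K, k x = x) (m : ℕ)
    (hm : Nat.card K * m = 40320) (h1 : m ≠ 1) (h2 : m ≠ 2) (hlt : 2 * m.factorial < 40320)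
    (A : Finset GolayPt) (hA : InvSet K A) (hxA : x ∉ A) (hcA : A.card = 8) : False := by
  have hf : ∀ k ∈ K, (∀ i ∈ A, k i = i) → k = 1 := by
    intro k hk hfix
    apply eq_one_of_fix9 hK hk (insert x A) (by rw [Finset.card_insert_of_notMem hxA, hcA])
    intro i hi
    rcases Finset.mem_insert.1 hi with rfl | hi
    · exact hx k hk
    · exact hfix i hi
  have h8 : (8 : ℕ).factorial = 40320 := rfl
  exact no_faithful_small_index K A hA hf m (by rw [hcA, h8]; exact hm) (by rw [hcA]; norm_num)
    h1 h2 (by rw [hcA, h8]; exact hlt)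

/-- Orbit sizes 1 and 15 off the fixed point are impossible. -/
theorem no_1_15' {x : GolayPt} (hK : K ≤ M24) (hx : ∀ k ∈ K, k x = x) (hc : 5040 < Nat.card K)
    (A B : Finset GolayPt) (hA : InvSet K A) (hB : InvSet K B) (hxA : x ∉ A) (hxB : x ∉ B)
    (hd : Disjoint A B) (hA1 : A.card = 1) (hB15 : B.card = 15) : False := by
  obtain ⟨u, rfl⟩ := Finset.card_eq_one.1 hA1
  have hxu : x ≠ u := fun h => hxA (by rw [h]; exact Finset.mem_singleton_self _)
  have huB : u ∉ B := Finset.disjoint_singleton_left.1 hd
  have hTinv : InvSet K ({x} ∪ ({u} ∪ B)) := (invSet_singleton hx).union (hA.union hB)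
  have hSinv := hTinv.compl
  have hcT : ({x} ∪ ({u} ∪ B) : Finset GolayPt).card = 17 := by
    rw [Finset.card_union_of_disjoint, Finset.card_union_of_disjoint hd, hB15]
    · rfl
    · rw [Finset.disjoint_singleton_left, Finset.mem_union, Finset.mem_singleton]
      exact fun h => h.elim hxu hxB
  have hcS : (Finset.univ \ ({x} ∪ ({u} ∪ B)) : Finset GolayPt).card = 7 := by
    rw [Finset.card_univ_sdiff, fcard_golayPt, hcT]
  have h7 : (7 : ℕ).factorial = 5040 := rfl
  obtain ⟨k, hk, hne, hfix⟩ := exists_fix_of_card_lt K _ hSinv (by rw [hcS, h7]; exact hc)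
  apply hne
  have hxS : x ∉ (Finset.univ \ ({x} ∪ ({u} ∪ B)) : Finset GolayPt) := by
    simp
  have huS : u ∉ (Finset.univ \ ({x} ∪ ({u} ∪ B)) : Finset GolayPt) := by
    simp
  apply eq_one_of_fix9 hK hk (insert x (insert u (Finset.univ \ ({x} ∪ ({u} ∪ B)))))
  · rw [Finset.card_insert_of_notMem, Finset.card_insert_of_notMem huS, hcS]
    rw [Finset.mem_insert]
    exact fun h => h.elim hxu hxS
  · intro i hi
    rcases Finset.mem_insert.1 hi with rfl | hi
    · exact hx k hk
    · rcases Finset.mem_insert.1 hi with rfl | hi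
      · exact Finset.mem_singleton.1 (hA k hk i (Finset.mem_singleton_self _))
      · exact hfix i hi

/-- A subgroup of order 40320 or 13440 of a point stabiliser of `M24` has an orbit of size 2
or 16. -/
theorem stab_dichotomy {x : GolayPt} (hK : K ≤ M24) (hx : ∀ k ∈ K, k x = x)
    (hN : Nat.card K = 40320 ∨ Nat.card K = 13440) :
    ∃ u, u ≠ x ∧ ((orbF K u).card = 2 ∨ (orbF K u).card = 16) := by
  have hd40 : Nat.card K ∣ 40320 := by
    rcases hN with h | h <;> rw [h] <;> norm_num
  have h7 : 7 ∣ Nat.card K := by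
    rcases hN with h | h <;> rw [h] <;> norm_num
  have h5 : 5 ∣ Nat.card K := by
    rcases hN with h | h <;> rw [h] <;> norm_num
  have hbig : 5040 < Nat.card K := by
    rcases hN with h | h <;> rw [h] <;> norm_num
  have hnd : ¬ Nat.card K ∣ 20160 := by
    rcases hN with h | h <;> rw [h] <;> norm_num
  obtain ⟨g7, hg7, ho7, hp7⟩ := exists_ord K 7 (by norm_num) h7
  obtain ⟨g5, hg5, ho5, hp5⟩ := exists_ord K 5 (by norm_num) h5
  have f7 := fix7 (hK hg7) ho7
  have f5 := fix5 (hK hg5) ho5
  have no8 : ∀ A : Finset GolayPt, InvSet K A → x ∉ A → A.card = 8 → False := by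
    intro A hA hxA hcA
    rcases hN with h | h
    · exact no_orbit8 hK hx h A hA hxA hcA
    · exact no_inv8_small hK hx 3 (by rw [h]) (by norm_num) (by norm_num) (by decide) A hA hxA
        hcA
  have hx7 : x ∈ Finset.univ.filter (fun i => g7 i = i) :=
    Finset.mem_filter.2 ⟨Finset.mem_univ _, hx g7 hg7⟩
  have hx5 : x ∈ Finset.univ.filter (fun i => g5 i = i) :=
    Finset.mem_filter.2 ⟨Finset.mem_univ _, hx g5 hg5⟩
  have hcard2 : ((Finset.univ.filter (fun i => g7 i = i)).erase x).card = 2 := by
    rw [Finset.card_erase_of_mem hx7, f7]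
  obtain ⟨u, v, huv, hE⟩ := Finset.card_eq_two.1 hcard2
  have hu : u ≠ x ∧ g7 u = u := by
    have h1 : u ∈ (Finset.univ.filter (fun i => g7 i = i)).erase x := by
      rw [hE]
      exact Finset.mem_insert_self _ _
    rw [Finset.mem_erase, Finset.mem_filter] at h1
    exact ⟨h1.1, h1.2.2⟩
  have hv : v ≠ x ∧ g7 v = v := by
    have h1 : v ∈ (Finset.univ.filter (fun i => g7 i = i)).erase x := by
      rw [hE]
      exact Finset.mem_insert_of_mem (Finset.mem_singleton_self _)
    rw [Finset.mem_erase, Finset.mem_filter] at h1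
    exact ⟨h1.1, h1.2.2⟩
  have hF7 : ∀ i, g7 i = i → i = x ∨ i = u ∨ i = v := by
    intro i hi
    by_cases hix : i = x
    · exact Or.inl hix
    · have h1 : i ∈ (Finset.univ.filter (fun i => g7 i = i)).erase x :=
        Finset.mem_erase.2 ⟨hix, Finset.mem_filter.2 ⟨Finset.mem_univ _, hi⟩⟩
      rw [hE, Finset.mem_insert, Finset.mem_singleton] at h1
      exact Or.inr h1
  have h5le : ∀ T : Finset GolayPt, x ∉ T → (T.filter (fun i => g5 i = i)).card ≤ 3 := by
    intro T hxT
    have h1 : T.filter (fun i => g5 i = i) ⊆ (Finset.univ.filter (fun i => g5 i = i)).erase x := by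
      intro i hi
      rw [Finset.mem_filter] at hi
      exact Finset.mem_erase.2 ⟨fun h => hxT (h ▸ hi.1),
        Finset.mem_filter.2 ⟨Finset.mem_univ _, hi.2⟩⟩
    have h2 := Finset.card_le_card h1
    rw [Finset.card_erase_of_mem hx5, f5] at h2
    exact h2
  obtain ⟨A, hAdef⟩ : ∃ A, A = orbF K u := ⟨_, rfl⟩
  have hAinv : InvSet K A := hAdef ▸ invSet_orbF K u
  have hxA : x ∉ A := hAdef ▸ not_mem_orbF hx hu.1
  have huA : u ∈ A := hAdef ▸ self_mem_orbF K u
  have hAd : A.card ∣ 40320 := by
    rw [hAdef]
    exact dvd_trans (card_orbF_dvd K u) hd40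
  have hA23 : A.card ≤ 23 := card_le_23 hxA
  have hA7 := card_inv_modEq g7 7 (by norm_num) hp7 A (hAinv g7 hg7)
  have hA5 := card_inv_modEq g5 5 (by norm_num) hp5 A (hAinv g5 hg5)
  by_cases hvA : v ∈ A
  · have e7 : A.filter (fun i => g7 i = i) = {u, v} := by
      ext i
      simp only [Finset.mem_filter, Finset.mem_insert, Finset.mem_singleton]
      constructor
      · rintro ⟨hi, hgi⟩
        rcases hF7 i hgi with rfl | h | h
        · exact absurd hi hxA
        · exact Or.inl h
        · exact Or.inr h
      · rintro (rfl | rfl)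
        · exact ⟨huA, hu.2⟩
        · exact ⟨hvA, hv.2⟩
    rw [e7, Finset.card_pair huv] at hA7
    rw [hAdef] at hA7 hA5 hA23 hAd
    exact ⟨u, hu.1, cases_2mod7 hA7 ⟨_, hAdef ▸ h5le A hxA, hA5⟩ hA23 hAd⟩
  · exfalso
    obtain ⟨B, hBdef⟩ : ∃ B, B = orbF K v := ⟨_, rfl⟩
    have hBinv : InvSet K B := hBdef ▸ invSet_orbF K v
    have hxB : x ∉ B := hBdef ▸ not_mem_orbF hx hv.1
    have hvB : v ∈ B := hBdef ▸ self_mem_orbF K v
    have hBd : B.card ∣ 40320 := by
      rw [hBdef]
      exact dvd_trans (card_orbF_dvd K v) hd40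
    have hB23 : B.card ≤ 23 := card_le_23 hxB
    have hB7 := card_inv_modEq g7 7 (by norm_num) hp7 B (hBinv g7 hg7)
    have huB : u ∉ B := by
      intro h
      rw [hBdef] at h
      have h1 := orbF_eq_of_mem h
      apply hvA
      rw [hAdef, h1]
      exact self_mem_orbF K v
    have hdisj : Disjoint A B := by
      rw [Finset.disjoint_left]
      intro w hwA hwB
      rw [hAdef] at hwA
      rw [hBdef] at hwB
      have e1 := orbF_eq_of_mem hwA
      have e2 := orbF_eq_of_mem hwB
      apply hvA
      rw [hAdef, ← e1, e2]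
      exact self_mem_orbF K v
    have eA7 : A.filter (fun i => g7 i = i) = {u} := by
      ext i
      simp only [Finset.mem_filter, Finset.mem_singleton]
      constructor
      · rintro ⟨hi, hgi⟩
        rcases hF7 i hgi with rfl | h | rfl
        · exact absurd hi hxA
        · exact h
        · exact absurd hi hvA
      · rintro rfl
        exact ⟨huA, hu.2⟩
    have eB7 : B.filter (fun i => g7 i = i) = {v} := by
      ext i
      simp only [Finset.mem_filter, Finset.mem_singleton]
      constructor
      · rintro ⟨hi, hgi⟩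
        rcases hF7 i hgi with rfl | rfl | h
        · exact absurd hi hxB
        · exact absurd hi huB
        · exact h
      · rintro rfl
        exact ⟨hvB, hv.2⟩
    rw [eA7, Finset.card_singleton] at hA7
    rw [eB7, Finset.card_singleton] at hB7
    have hsum : A.card + B.card ≤ 23 := by
      rw [← Finset.card_union_of_disjoint hdisj]
      apply card_le_23
      rw [Finset.mem_union]
      exact fun h => h.elim hxA hxB
    rcases cases_1mod7 hA7 hA23 hAd with hA1 | hA8 | hA15
    · rcases cases_1mod7 hB7 hB23 hBd with hB1 | hB8 | hB15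
      · have eA : A = {u} := by
          obtain ⟨w, hw⟩ := Finset.card_eq_one.1 hA1
          rw [hw] at huA ⊢
          rw [Finset.mem_singleton.1 huA]
        have eB : B = {v} := by
          obtain ⟨w, hw⟩ := Finset.card_eq_one.1 hB1
          rw [hw] at hvB ⊢
          rw [Finset.mem_singleton.1 hvB]
        apply hnd
        apply card_dvd_fix3 K hK {x, u, v}
        · rw [Finset.card_insert_of_notMem, Finset.card_pair huv]
          simp [hu.1.symm, hv.1.symm]
        · intro k hk i hi
          simp only [Finset.mem_insert, Finset.mem_singleton] at hi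
          rcases hi with rfl | rfl | rfl
          · exact hx k hk
          · have h2 := hAinv k hk i huA
            rw [eA] at h2
            exact Finset.mem_singleton.1 h2
          · have h2 := hBinv k hk i hvB
            rw [eB] at h2
            exact Finset.mem_singleton.1 h2
      · exact no8 B hBinv hxB hB8
      · exact no_1_15' hK hx hbig A B hAinv hBinv hxA hxB hdisj hA1 hB15
    · exact no8 A hAinv hxA hA8
    · rcases cases_1mod7 hB7 hB23 hBd with hB1 | hB8 | hB15
      · exact no_1_15' hK hx hbig B A hBinv hAinv hxB hxA hdisj.symm hB1 hA15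
      · exact no8 B hBinv hxB hB8
      · omega

/-- A transitive subgroup of `M24` whose point stabilisers have an orbit of size two and order
divisible by seven cannot have order divisible by five. -/
theorem no_triples (hK : K ≤ M24) (M : ℕ) (hst : ∀ a, Nat.card (stabP K a) = M) (h7 : 7 ∣ M)
    (h5 : 5 ∣ Nat.card K) (h2 : ∀ a, ∃ u, (orbF (stabP K a) u).card = 2) : False := by
  obtain ⟨d, hd⟩ : ∃ d : GolayPt → Finset GolayPt,
      d = fun a => Finset.univ.filter (fun b => (orbF (stabP K a) b).card = 2) := ⟨_, rfl⟩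
  have hmem : ∀ a b, b ∈ d a ↔ (orbF (stabP K a) b).card = 2 := by
    intro a b
    rw [hd]
    simp
  have hsymm : ∀ a b, b ∈ d a → a ∈ d b := by
    intro a b hb
    rw [hmem] at hb ⊢
    rw [← rel_symm K a b (by rw [hst, hst])]
    exact hb
  have hself : ∀ a, a ∉ d a := by
    intro a h
    rw [hmem, orbF_stabP_self, Finset.card_singleton] at h
    omega
  have hstr : ∀ a, (d a).card = 2 ∧ InvSet (stabP K a) (d a) := by
    intro a
    obtain ⟨u, hu⟩ := h2 a
    obtain ⟨g7, hg7, ho7, hp7⟩ := exists_ord (stabP K a) 7 (by norm_num) (by rw [hst]; exact h7)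
    have hg7K := (mem_stabP.1 hg7).1
    have hga := (mem_stabP.1 hg7).2
    have f7 := fix7 (hK hg7K) ho7
    have hsub : d a ⊆ (Finset.univ.filter (fun i => g7 i = i)).erase a := by
      intro b hb
      have hba : b ≠ a := fun h => hself a (h ▸ hb)
      rw [hmem] at hb
      have hmod := card_inv_modEq g7 7 (by norm_num) hp7 _ (invSet_orbF (stabP K a) b g7 hg7)
      rw [hb] at hmod
      have hle : ((orbF (stabP K a) b).filter (fun i => g7 i = i)).card ≤ 2 := by
        rw [← hb]
        exact Finset.card_filter_le _ _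
      have heq : (orbF (stabP K a) b).filter (fun i => g7 i = i) = orbF (stabP K a) b := by
        apply Finset.eq_of_subset_of_card_le (Finset.filter_subset _ _)
        rw [hb]
        omega
      have hbm : b ∈ (orbF (stabP K a) b).filter (fun i => g7 i = i) := by
        rw [heq]
        exact self_mem_orbF _ b
      exact Finset.mem_erase.2 ⟨hba, Finset.mem_filter.2 ⟨Finset.mem_univ _,
        (Finset.mem_filter.1 hbm).2⟩⟩
    have hsup : orbF (stabP K a) u ⊆ d a := by
      intro b hb
      rw [hmem, orbF_eq_of_mem hb]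
      exact hu
    have ham : a ∈ Finset.univ.filter (fun i => g7 i = i) :=
      Finset.mem_filter.2 ⟨Finset.mem_univ _, hga⟩
    have hcard : ((Finset.univ.filter (fun i => g7 i = i)).erase a).card = 2 := by
      rw [Finset.card_erase_of_mem ham, f7]
    have h1 := Finset.card_le_card hsub
    have h2' := Finset.card_le_card hsup
    have hc2 : (d a).card = 2 := by omega
    have heq : orbF (stabP K a) u = d a :=
      Finset.eq_of_subset_of_card_le hsup (by rw [hc2, hu])
    exact ⟨hc2, heq ▸ invSet_orbF _ u⟩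
  have hthird : ∀ a u v, u ∈ d a → v ∈ d a → u ≠ v → v ∈ d u := by
    intro a u v hu hv huv
    by_contra hvu
    have hau : a ∈ d u := hsymm a u hu
    obtain ⟨w, hw, hwa⟩ : ∃ w ∈ d u, w ≠ a :=
      Finset.exists_mem_ne (by rw [(hstr u).1]; norm_num) a
    have hwv : w ≠ v := fun h => hvu (h ▸ hw)
    have hua : u ≠ a := fun h => hself a (h ▸ hu)
    have hva : v ≠ a := fun h => hself a (h ▸ hv)
    have hwu : w ≠ u := fun h => hself u (h ▸ hw)
    have hP : ∀ k ∈ stabP (stabP K a) u, ∀ i ∈ ({a, u, v, w} : Finset GolayPt), k i = i := by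
      intro k hk i hi
      obtain ⟨hk1, hku⟩ := mem_stabP.1 hk
      obtain ⟨hkK, hka⟩ := mem_stabP.1 hk1
      have hkv : k v = v := fix_other (hstr a).2 (hstr a).1 hu hv huv hk1 hku
      have hkw : k w = w :=
        fix_other (hstr u).2 (hstr u).1 hau hw hwa.symm (mem_stabP.2 ⟨hkK, hku⟩) hka
      simp only [Finset.mem_insert, Finset.mem_singleton] at hi
      rcases hi with rfl | rfl | rfl | rfl <;> assumption
    have hc4 : ({a, u, v, w} : Finset GolayPt).card = 4 := by
      rw [Finset.card_insert_of_notMem, Finset.card_insert_of_notMem, Finset.card_pair hwv.symm]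
      · simp [huv, hwu.symm]
      · simp [hua.symm, hva.symm, hwa.symm]
    have hd960 := card_dvd_fix4 _ (((stabP_le _ u).trans (stabP_le K a)).trans hK) _ hc4.ge hP
    have hmul := card_stabP_mul (stabP K a) u
    rw [(hmem a u).1 hu, hst] at hmul
    have h7' : 7 ∣ Nat.card (stabP (stabP K a) u) := by
      have : 7 ∣ Nat.card (stabP (stabP K a) u) * 2 := hmul ▸ h7
      exact (Nat.Coprime.dvd_mul_right (by norm_num)).1 this
    have := dvd_trans h7' hd960
    omega
  have hsubT : ∀ a w, w ∈ d a → d w ⊆ insert a (d a) := by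
    intro a w hw
    have haw := hsymm a w hw
    obtain ⟨v, hv, hvw⟩ : ∃ v ∈ d a, v ≠ w :=
      Finset.exists_mem_ne (by rw [(hstr a).1]; norm_num) w
    have hvdw := hthird a w v hw hv hvw.symm
    have hav : a ≠ v := fun h => hself a (h ▸ hv)
    have heq : d w = {a, v} := by
      symm
      apply Finset.eq_of_subset_of_card_le
      · intro i hi
        simp only [Finset.mem_insert, Finset.mem_singleton] at hi
        rcases hi with rfl | rfl <;> assumption
      · rw [(hstr w).1, Finset.card_pair hav]
    rw [heq]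
    intro i hi
    simp only [Finset.mem_insert, Finset.mem_singleton] at hi
    rcases hi with rfl | rfl
    · exact Finset.mem_insert_self _ _
    · exact Finset.mem_insert_of_mem hv
  obtain ⟨g5, hg5, ho5, hp5⟩ := exists_ord K 5 (by norm_num) h5
  have f5 := fix5 (hK hg5) ho5
  have hfixd : ∀ a, g5 a = a → d a ⊆ Finset.univ.filter (fun i => g5 i = i) := by
    intro a ha
    have hg : g5 ∈ stabP K a := mem_stabP.2 ⟨hg5, ha⟩
    have hmod := card_inv_modEq g5 5 (by norm_num) hp5 _ ((hstr a).2 g5 hg)
    rw [(hstr a).1] at hmod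
    have hle : ((d a).filter (fun i => g5 i = i)).card ≤ 2 := by
      rw [← (hstr a).1]
      exact Finset.card_filter_le _ _
    have heq : (d a).filter (fun i => g5 i = i) = d a := by
      apply Finset.eq_of_subset_of_card_le (Finset.filter_subset _ _)
      rw [(hstr a).1]
      omega
    intro i hi
    rw [← heq] at hi
    exact Finset.mem_filter.2 ⟨Finset.mem_univ _, (Finset.mem_filter.1 hi).2⟩
  obtain ⟨a, ha⟩ : ∃ a, a ∈ Finset.univ.filter (fun i => g5 i = i) :=
    Finset.card_pos.1 (by rw [f5]; norm_num)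
  have ha' : g5 a = a := (Finset.mem_filter.1 ha).2
  have hTsub : insert a (d a) ⊆ Finset.univ.filter (fun i => g5 i = i) := by
    intro i hi
    rcases Finset.mem_insert.1 hi with rfl | hi
    · exact ha
    · exact hfixd _ ha' hi
  have hTc : (insert a (d a)).card = 3 := by
    rw [Finset.card_insert_of_notMem (hself a), (hstr a).1]
  obtain ⟨b, hb, hbT⟩ : ∃ b ∈ Finset.univ.filter (fun i => g5 i = i), b ∉ insert a (d a) := by
    by_contra hcon
    have hsub : Finset.univ.filter (fun i => g5 i = i) ⊆ insert a (d a) := by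
      intro i hi
      by_contra hi'
      exact hcon ⟨i, hi, hi'⟩
    have := Finset.card_le_card hsub
    omega
  have hb' : g5 b = b := (Finset.mem_filter.1 hb).2
  have heq : (Finset.univ.filter (fun i => g5 i = i)).erase b = insert a (d a) := by
    symm
    apply Finset.eq_of_subset_of_card_le
    · intro i hi
      exact Finset.mem_erase.2 ⟨fun h => hbT (h ▸ hi), hTsub hi⟩
    · rw [Finset.card_erase_of_mem hb, f5, hTc]
  obtain ⟨w, hw⟩ : ∃ w, w ∈ d b := Finset.card_pos.1 (by rw [(hstr b).1]; norm_num)
  have hwT : w ∈ insert a (d a) := by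
    rw [← heq]
    exact Finset.mem_erase.2 ⟨fun h => hself b (h ▸ hw), hfixd b hb' hw⟩
  have hbw : b ∈ d w := hsymm b w hw
  rcases Finset.mem_insert.1 hwT with h | hwa
  · rw [h] at hbw
    exact hbT (Finset.mem_insert_of_mem hbw)
  · exact hbT (hsubT a w hwa hbw)

/-- A transitive subgroup of `M24` whose point stabilisers have an orbit of size sixteen and
order divisible by seven cannot have order divisible by five. -/
theorem no_blocks8 (hK : K ≤ M24) (M : ℕ) (hst : ∀ a, Nat.card (stabP K a) = M) (h7 : 7 ∣ M)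
    (h5 : 5 ∣ Nat.card K) (h16 : ∀ a, ∃ u, (orbF (stabP K a) u).card = 16) : False := by
  obtain ⟨S, hS⟩ : ∃ S : GolayPt → Finset GolayPt,
      S = fun a => Finset.univ.filter (fun b => (orbF (stabP K a) b).card = 7) := ⟨_, rfl⟩
  have hmem : ∀ a b, b ∈ S a ↔ (orbF (stabP K a) b).card = 7 := by
    intro a b
    rw [hS]
    simp
  have hsymm : ∀ a b, b ∈ S a → a ∈ S b := by
    intro a b hb
    rw [hmem] at hb ⊢
    rw [← rel_symm K a b (by rw [hst, hst])]
    exact hb
  have hself : ∀ a, a ∉ S a := by
    intro a h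
    rw [hmem, orbF_stabP_self, Finset.card_singleton] at h
    omega
  have hconj : ∀ k ∈ K, ∀ a b, k b ∈ S (k a) ↔ b ∈ S a := by
    intro k hk a b
    rw [hmem, hmem, card_orbF_stabP_conj hk]
  have hstr : ∀ a, (S a).card = 7 ∧ InvSet (stabP K a) (S a) ∧
      (∀ b ∈ S a, ∀ b' ∈ S a, ∃ k ∈ stabP K a, k b = b') ∧
      (∀ c, c ∉ insert a (S a) → ∀ c', c' ∉ insert a (S a) → ∃ k ∈ stabP K a, k c = c') := by
    intro a
    obtain ⟨u, hu⟩ := h16 a
    obtain ⟨C, hC⟩ : ∃ C, C = orbF (stabP K a) u := ⟨_, rfl⟩
    have hCinv : InvSet (stabP K a) C := hC ▸ invSet_orbF _ u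
    have hCc : C.card = 16 := hC ▸ hu
    have hua : u ≠ a := by
      rintro rfl
      rw [orbF_stabP_self, Finset.card_singleton] at hu
      omega
    have haC : a ∉ C := hC ▸ not_mem_orbF_stabP hua
    obtain ⟨g7, hg7, ho7, hp7⟩ := exists_ord (stabP K a) 7 (by norm_num) (by rw [hst]; exact h7)
    have hg7K := (mem_stabP.1 hg7).1
    have hga := (mem_stabP.1 hg7).2
    have f7 := fix7 (hK hg7K) ho7
    have ham : a ∈ Finset.univ.filter (fun i => g7 i = i) :=
      Finset.mem_filter.2 ⟨Finset.mem_univ _, hga⟩
    have hmodC := card_inv_modEq g7 7 (by norm_num) hp7 C (hCinv g7 hg7)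
    rw [hCc] at hmodC
    have hleC : (C.filter (fun i => g7 i = i)).card ≤ 2 := by
      have hsub : C.filter (fun i => g7 i = i) ⊆
          (Finset.univ.filter (fun i => g7 i = i)).erase a := by
        intro i hi
        rw [Finset.mem_filter] at hi
        exact Finset.mem_erase.2 ⟨fun h => haC (h ▸ hi.1),
          Finset.mem_filter.2 ⟨Finset.mem_univ _, hi.2⟩⟩
      have := Finset.card_le_card hsub
      rwa [Finset.card_erase_of_mem ham, f7] at this
    have hCfix : (C.filter (fun i => g7 i = i)).card = 2 := by omega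
    have hfixin : ∀ i, g7 i = i → i = a ∨ i ∈ C := by
      intro i hi
      by_contra hcon
      rw [not_or] at hcon
      have hsub : insert i (insert a (C.filter (fun i => g7 i = i))) ⊆
          Finset.univ.filter (fun i => g7 i = i) := by
        intro j hj
        rcases Finset.mem_insert.1 hj with rfl | hj
        · exact Finset.mem_filter.2 ⟨Finset.mem_univ _, hi⟩
        · rcases Finset.mem_insert.1 hj with rfl | hj
          · exact ham
          · exact Finset.mem_filter.2 ⟨Finset.mem_univ _, (Finset.mem_filter.1 hj).2⟩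
      have h1 : a ∉ C.filter (fun i => g7 i = i) := fun h => haC (Finset.mem_filter.1 h).1
      have h2 : i ∉ insert a (C.filter (fun i => g7 i = i)) := by
        intro h
        rcases Finset.mem_insert.1 h with h | h
        · exact hcon.1 h
        · exact hcon.2 (Finset.mem_filter.1 h).1
      have := Finset.card_le_card hsub
      rw [Finset.card_insert_of_notMem h2, Finset.card_insert_of_notMem h1, hCfix, f7] at this
      omega
    obtain ⟨R, hR⟩ : ∃ R, R = Finset.univ \ insert a C := ⟨_, rfl⟩
    have hRinv : InvSet (stabP K a) R := by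
      rw [hR, Finset.insert_eq]
      exact ((invSet_singleton (fun k hk => (mem_stabP.1 hk).2)).union hCinv).compl
    have hRc : R.card = 7 := by
      rw [hR, Finset.card_univ_sdiff, fcard_golayPt, Finset.card_insert_of_notMem haC, hCc]
    have hRmem : ∀ i, i ∈ R ↔ i ≠ a ∧ i ∉ C := by
      intro i
      rw [hR]
      simp
    have horbR : ∀ b ∈ R, orbF (stabP K a) b = R := by
      intro b hb
      have hsub := orbF_subset_of_inv hRinv hb
      have hmod := card_inv_modEq g7 7 (by norm_num) hp7 _ (invSet_orbF (stabP K a) b g7 hg7)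
      have hz : (orbF (stabP K a) b).filter (fun i => g7 i = i) = ∅ := by
        rw [Finset.filter_eq_empty_iff]
        intro i hi hgi
        have := (hRmem i).1 (hsub hi)
        rcases hfixin i hgi with h | h
        · exact this.1 h
        · exact this.2 h
      rw [hz, Finset.card_empty] at hmod
      have hpos : 0 < (orbF (stabP K a) b).card := Finset.card_pos.2 ⟨b, self_mem_orbF _ b⟩
      have hle := Finset.card_le_card hsub
      apply Finset.eq_of_subset_of_card_le hsub
      rw [hRc] at hle ⊢
      omega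
    have hSR : S a = R := by
      ext b
      rw [hmem]
      constructor
      · intro hb
        rw [hRmem]
        constructor
        · rintro rfl
          rw [orbF_stabP_self, Finset.card_singleton] at hb
          omega
        · intro hbC
          rw [hC] at hbC
          rw [orbF_eq_of_mem hbC, hu] at hb
          omega
      · intro hb
        rw [horbR b hb, hRc]
    refine ⟨hSR ▸ hRc, hSR ▸ hRinv, ?_, ?_⟩
    · intro b hb b' hb'
      rw [hSR] at hb hb'
      have : b' ∈ orbF (stabP K a) b := by
        rw [horbR b hb]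
        exact hb'
      exact mem_orbF.1 this
    · intro c hc c' hc'
      have hcC : ∀ c, c ∉ insert a (S a) → c ∈ C := by
        intro c hc
        by_contra hcon
        apply hc
        rw [hSR, Finset.mem_insert, hRmem]
        by_cases h : c = a
        · exact Or.inl h
        · exact Or.inr ⟨h, hcon⟩
      have h1 := hcC c hc
      have h2 := hcC c' hc'
      rw [hC] at h1 h2
      have : c' ∈ orbF (stabP K a) c := by
        rw [orbF_eq_of_mem h1]
        exact h2
      exact mem_orbF.1 this
  have hclique : ∀ a b b', b ∈ S a → b' ∈ S a → b ≠ b' → b' ∈ S b := by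
    intro a b b' hb hb' hne
    obtain ⟨hc7, hinv, htrS, htrC⟩ := hstr a
    obtain ⟨C, hC⟩ : ∃ C, C = Finset.univ \ insert a (S a) := ⟨_, rfl⟩
    have hCc : C.card = 16 := by
      rw [hC, Finset.card_univ_sdiff, fcard_golayPt, Finset.card_insert_of_notMem (hself a), hc7]
    have hCmem : ∀ i, i ∈ C ↔ i ∉ insert a (S a) := by
      intro i
      rw [hC]
      simp
    have hCinv : ∀ k ∈ stabP K a, ∀ x, k x ∈ C ↔ x ∈ C := by
      intro k hk x
      have h1 : InvSet (stabP K a) C := by
        rw [hC, Finset.insert_eq]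
        exact ((invSet_singleton (fun k hk => (mem_stabP.1 hk).2)).union hinv).compl
      exact h1.iff hk x
    have hdc := Finset.sum_card_bipartiteAbove_eq_sum_card_bipartiteBelow (s := S a) (t := C)
      (r := fun b c => c ∈ S b)
    have hL : ∀ x ∈ S a, (C.filter (fun c => c ∈ S x)).card =
        (C.filter (fun c => c ∈ S b)).card := by
      intro x hx
      obtain ⟨k, hk, rfl⟩ := htrS b hb x hx
      exact card_filter_conj C (hCinv k hk) (fun c y => c ∈ S y)
        (fun c y => hconj k (mem_stabP.1 hk).1 y c) b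
    obtain ⟨c0, hc0⟩ : ∃ c0, c0 ∈ C := Finset.card_pos.1 (by rw [hCc]; norm_num)
    have hR : ∀ c ∈ C, ((S a).filter (fun x => c ∈ S x)).card =
        ((S a).filter (fun x => c0 ∈ S x)).card := by
      intro c hc
      obtain ⟨k, hk, rfl⟩ := htrC c0 ((hCmem c0).1 hc0) c ((hCmem c).1 hc)
      exact card_filter_conj (S a) (hinv.iff hk) (fun x y => y ∈ S x)
        (fun x y => hconj k (mem_stabP.1 hk).1 x y) c0
    simp only [Finset.bipartiteAbove, Finset.bipartiteBelow] at hdc
    rw [Finset.sum_const_nat hL, Finset.sum_const_nat hR, hc7, hCc] at hdc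
    have hle : (C.filter (fun c => c ∈ S b)).card ≤ 6 := by
      have hsub : C.filter (fun c => c ∈ S b) ⊆ (S b).erase a := by
        intro i hi
        rw [Finset.mem_filter] at hi
        refine Finset.mem_erase.2 ⟨?_, hi.2⟩
        rintro rfl
        exact (hCmem _).1 hi.1 (Finset.mem_insert_self _ _)
      have := Finset.card_le_card hsub
      rwa [Finset.card_erase_of_mem (hsymm a b hb), (hstr b).1] at this
    have hz : (C.filter (fun c => c ∈ S b)).card = 0 := by omega
    have hsub : S b ⊆ (insert a (S a)).erase b := by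
      intro i hi
      refine Finset.mem_erase.2 ⟨fun h => hself b (h ▸ hi), ?_⟩
      by_contra hiC
      have : i ∈ C.filter (fun c => c ∈ S b) := Finset.mem_filter.2 ⟨(hCmem i).2 hiC, hi⟩
      rw [Finset.card_eq_zero] at hz
      rw [hz] at this
      exact absurd this (Finset.notMem_empty _)
    have heq : S b = (insert a (S a)).erase b := by
      apply Finset.eq_of_subset_of_card_le hsub
      rw [Finset.card_erase_of_mem (Finset.mem_insert_of_mem hb),
        Finset.card_insert_of_notMem (hself a), hc7, (hstr b).1]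
    rw [heq]
    exact Finset.mem_erase.2 ⟨hne.symm, Finset.mem_insert_of_mem hb'⟩
  obtain ⟨g5, hg5, ho5, hp5⟩ := exists_ord K 5 (by norm_num) h5
  have f5 := fix5 (hK hg5) ho5
  obtain ⟨F, hF⟩ : ∃ F, F = Finset.univ.filter (fun i => g5 i = i) := ⟨_, rfl⟩
  have hFmem : ∀ i, i ∈ F ↔ g5 i = i := by
    intro i
    rw [hF]
    simp
  have hFc : F.card = 4 := hF ▸ f5
  have hnb : ∀ x ∈ F, ((S x).filter (fun i => g5 i = i)).card = 2 := by
    intro x hx
    have hg : g5 ∈ stabP K x := mem_stabP.2 ⟨hg5, (hFmem x).1 hx⟩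
    have hmod := card_inv_modEq g5 5 (by norm_num) hp5 _ ((hstr x).2.1 g5 hg)
    rw [(hstr x).1] at hmod
    have hle : ((S x).filter (fun i => g5 i = i)).card ≤ 3 := by
      have hsub : (S x).filter (fun i => g5 i = i) ⊆ F.erase x := by
        intro i hi
        rw [Finset.mem_filter] at hi
        exact Finset.mem_erase.2 ⟨fun h => hself x (h ▸ hi.1), (hFmem i).2 hi.2⟩
      have := Finset.card_le_card hsub
      rwa [Finset.card_erase_of_mem hx, hFc] at this
    omega
  obtain ⟨a, ha⟩ : ∃ a, a ∈ F := Finset.card_pos.1 (by rw [hFc]; norm_num)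
  obtain ⟨p, q, hpq, hpqe⟩ := Finset.card_eq_two.1 (hnb a ha)
  have hp : p ∈ S a ∧ g5 p = p := by
    have : p ∈ (S a).filter (fun i => g5 i = i) := by
      rw [hpqe]
      exact Finset.mem_insert_self _ _
    rw [Finset.mem_filter] at this
    exact this
  have hq : q ∈ S a ∧ g5 q = q := by
    have : q ∈ (S a).filter (fun i => g5 i = i) := by
      rw [hpqe]
      exact Finset.mem_insert_of_mem (Finset.mem_singleton_self _)
    rw [Finset.mem_filter] at this
    exact this
  have hqp : q ∈ S p := hclique a p q hp.1 hq.1 hpq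
  have hpa : p ≠ a := fun h => hself a (h ▸ hp.1)
  have hqa : q ≠ a := fun h => hself a (h ▸ hq.1)
  have hnbr : ∀ x y z, x ∈ F → y ∈ S x → z ∈ S x → g5 y = y → g5 z = z → y ≠ z →
      ∀ c, c ∈ S x → g5 c = c → c = y ∨ c = z := by
    intro x y z hx hy hz hgy hgz hyz c hc hgc
    have hsub : ({y, z} : Finset GolayPt) ⊆ (S x).filter (fun i => g5 i = i) := by
      intro i hi
      simp only [Finset.mem_insert, Finset.mem_singleton] at hi
      rcases hi with rfl | rfl
      · exact Finset.mem_filter.2 ⟨hy, hgy⟩
      · exact Finset.mem_filter.2 ⟨hz, hgz⟩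
    have heq := Finset.eq_of_subset_of_card_le hsub (by rw [hnb x hx, Finset.card_pair hyz])
    have : c ∈ ({y, z} : Finset GolayPt) := by
      rw [heq]
      exact Finset.mem_filter.2 ⟨hc, hgc⟩
    simpa using this
  obtain ⟨c, hc, hcn⟩ : ∃ c ∈ F, c ∉ ({a, p, q} : Finset GolayPt) := by
    by_contra hcon
    have hsub : F ⊆ {a, p, q} := by
      intro i hi
      by_contra hi'
      exact hcon ⟨i, hi, hi'⟩
    have h1 := Finset.card_le_card hsub
    have h2 := Finset.card_le_three (a := a) (b := p) (c := q)
    omega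
  simp only [Finset.mem_insert, Finset.mem_singleton, not_or] at hcn
  obtain ⟨hca, hcp, hcq⟩ := hcn
  have hgc := (hFmem c).1 hc
  obtain ⟨w, hw⟩ : ∃ w, w ∈ (S c).filter (fun i => g5 i = i) :=
    Finset.card_pos.1 (by rw [hnb c hc]; norm_num)
  rw [Finset.mem_filter] at hw
  have hcw : c ∈ S w := hsymm c w hw.1
  have hwF : w ∈ F := (hFmem w).2 hw.2
  have hwc : w ≠ c := fun h => hself c (h ▸ hw.1)
  have hF4 : w = a ∨ w = p ∨ w = q := by
    by_contra hcon
    rw [not_or, not_or] at hcon
    have hsub : ({w, c, a, p, q} : Finset GolayPt) ⊆ F := by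
      intro i hi
      simp only [Finset.mem_insert, Finset.mem_singleton] at hi
      rcases hi with rfl | rfl | rfl | rfl | rfl
      · exact hwF
      · exact hc
      · exact ha
      · exact (hFmem _).2 hp.2
      · exact (hFmem _).2 hq.2
    have h5c : ({w, c, a, p, q} : Finset GolayPt).card = 5 := by
      rw [Finset.card_insert_of_notMem, Finset.card_insert_of_notMem,
        Finset.card_insert_of_notMem, Finset.card_pair hpq]
      · simp [hpa.symm, hqa.symm]
      · simp [hca, hcp, hcq]
      · simp [hwc, hcon.1, hcon.2.1, hcon.2.2]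
    have := Finset.card_le_card hsub
    omega
  rcases hF4 with h | h | h
  · rw [h] at hcw
    rcases hnbr a p q ha hp.1 hq.1 hp.2 hq.2 hpq c hcw hgc with h' | h'
    · exact hcp h'
    · exact hcq h'
  · rw [h] at hcw
    rcases hnbr p a q ((hFmem p).2 hp.2) (hsymm a p hp.1) hqp ((hFmem a).1 ha) hq.2 hqa.symm c
      hcw hgc with h' | h'
    · exact hca h'
    · exact hcq h'
  · rw [h] at hcw
    rcases hnbr q a p ((hFmem q).2 hq.2) (hsymm a q hq.1) (hsymm p q hqp) ((hFmem a).1 ha) hp.2
      hpa.symm c hcw hgc with h' | h'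
    · exact hca h'
    · exact hcp h'

/-- No transitive subgroup of `M24` has point stabilisers of order 40320 or 13440. -/
theorem trans_false (hK : K ≤ M24) (htr : ∀ a b : GolayPt, ∃ k ∈ K, k a = b) (M : ℕ)
    (hM : M = 40320 ∨ M = 13440) (hc : Nat.card K = M * 24) : False := by
  have hst : ∀ a, Nat.card (stabP K a) = M := by
    intro a
    have := card_stabP_of_trans K htr a
    rw [fcard_golayPt, hc] at this
    omega
  have h7 : 7 ∣ M := by
    rcases hM with rfl | rfl <;> norm_num
  have h5 : 5 ∣ Nat.card K := by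
    rw [hc]
    rcases hM with rfl | rfl <;> norm_num
  obtain ⟨u, hu, hcase⟩ := stab_dichotomy (x := Helper7.pt 0)
    ((stabP_le K (Helper7.pt 0)).trans hK) (fun k hk => (mem_stabP.1 hk).2)
    (by rw [hst]; exact hM)
  have htrans : ∀ n, (orbF (stabP K (Helper7.pt 0)) u).card = n →
      ∀ a, ∃ v, (orbF (stabP K a) v).card = n := by
    intro n hn a
    obtain ⟨k, hk, rfl⟩ := htr (Helper7.pt 0) a
    exact ⟨k u, by rw [card_orbF_stabP_conj hk]; exact hn⟩
  rcases hcase with h | h
  · exact no_triples hK M hst h7 h5 (htrans 2 h)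
  · exact no_blocks8 hK M hst h7 h5 (htrans 16 h)

/-- `M24` has no subgroup of order 967680. -/
theorem no_card_967680 (hK : K ≤ M24) (hc : Nat.card K = 967680) : False := by
  have h24 : ∀ a, (orbF K a).card = 24 := by
    intro a
    obtain ⟨h1, h2, h3, h4⟩ := orb_numeric K hK a
    rw [hc] at h3 h4
    exact (by decide : ∀ n < 25, n ≠ 0 → 967680 % n = 0 → 10200960 % (967680 / n) = 0 →
      n = 24) _ h1 h2 h3 h4
  have htr : ∀ a b : GolayPt, ∃ k ∈ K, k a = b :=
    fun a b => exists_of_orbF_card K a (by rw [h24, fcard_golayPt]) b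
  exact trans_false hK htr 40320 (Or.inl rfl) (by rw [hc])

/-- A subgroup of order 322560 of `M24` stabilises an octad. -/
theorem inv_octad_of_card (hK : K ≤ M24) (hc : Nat.card K = 322560) :
    ∃ o ∈ octads, InvSet K o := by
  have hnum : ∀ a, (orbF K a).card = 8 ∨ (orbF K a).card = 16 ∨ (orbF K a).card = 24 := by
    intro a
    obtain ⟨h1, h2, h3, h4⟩ := orb_numeric K hK a
    rw [hc] at h3 h4
    exact (by decide : ∀ n < 25, n ≠ 0 → 322560 % n = 0 → 10200960 % (322560 / n) = 0 →
      n = 8 ∨ n = 16 ∨ n = 24) _ h1 h2 h3 h4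
  by_cases h8 : ∃ A : Finset GolayPt, A.card = 8 ∧ InvSet K A
  · obtain ⟨A, hcA, hA⟩ := h8
    exact ⟨A, inv8_octad K hK A hA hcA (by rw [hc]; norm_num), hA⟩
  · exfalso
    have h24 : ∀ a, (orbF K a).card = 24 := by
      intro a
      rcases hnum a with h | h | h
      · exact absurd ⟨_, h, invSet_orbF K a⟩ h8
      · exact absurd ⟨_, by rw [Finset.card_univ_sdiff, fcard_golayPt, h],
          (invSet_orbF K a).compl⟩ h8
      · exact h
    have htr : ∀ a b : GolayPt, ∃ k ∈ K, k a = b :=
      fun a b => exists_of_orbF_card K a (by rw [h24, fcard_golayPt]) b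
    exact trans_false hK htr 13440 (Or.inr rfl) (by rw [hc])

/-- The stabiliser of a duad in `M24` has order at most 887040. -/
theorem card_le_of_inv_duad (hK : K ≤ M24) (s : Finset GolayPt) (hs : s.card = 2)
    (hinv : InvSet K s) : Nat.card K ≤ 887040 := by
  obtain ⟨u, v, huv, rfl⟩ := Finset.card_eq_two.1 hs
  have hu : u ∈ ({u, v} : Finset GolayPt) := Finset.mem_insert_self _ _
  have hv : v ∈ ({u, v} : Finset GolayPt) := Finset.mem_insert_of_mem (Finset.mem_singleton_self _)
  have h1 := card_stabP_mul K u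
  have h2 : (orbF K u).card ≤ 2 := by
    have := Finset.card_le_card (orbF_subset_of_inv hinv hu)
    rwa [hs] at this
  have h3 : Nat.card (stabP K u) ∣ 443520 := by
    apply card_dvd_fix2 (stabP K u) ((stabP_le K u).trans hK) {u, v} hs.ge
    intro k hk i hi
    obtain ⟨hkK, hku⟩ := mem_stabP.1 hk
    simp only [Finset.mem_insert, Finset.mem_singleton] at hi
    rcases hi with rfl | rfl
    · exact hku
    · exact fix_other hinv hs hu hv huv hkK hku
  have h4 := Nat.le_of_dvd (by norm_num) h3
  calc Nat.card K = Nat.card (stabP K u) * (orbF K u).card := h1.symm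
    _ ≤ 443520 * 2 := Nat.mul_le_mul h4 h2

/-- A subgroup of order 887040 of `M24` stabilises a duad. -/
theorem inv_duad_of_card (hK : K ≤ M24) (hc : Nat.card K = 887040) :
    ∃ s : Finset GolayPt, s.card = 2 ∧ InvSet K s := by
  have heven : ∀ a, (orbF K a).card % 2 = 0 := by
    intro a
    obtain ⟨h1, h2, h3, h4⟩ := orb_numeric K hK a
    rw [hc] at h3 h4
    exact (by decide : ∀ n < 25, n ≠ 0 → 887040 % n = 0 → 10200960 % (887040 / n) = 0 →
      n % 2 = 0) _ h1 h2 h3 h4
  obtain ⟨g11, hg11, ho11, hp11⟩ := exists_ord K 11 (by norm_num) (by rw [hc]; norm_num)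
  obtain ⟨g7, hg7, ho7, hp7⟩ := exists_ord K 7 (by norm_num) (by rw [hc]; norm_num)
  have f11 := fix11 (hK hg11) ho11
  have f7 := fix7 (hK hg7) ho7
  obtain ⟨u, v, huv, hE⟩ := Finset.card_eq_two.1 f11
  have hgu : g11 u = u := by
    have h1 : u ∈ Finset.univ.filter (fun i => g11 i = i) := by
      rw [hE]
      exact Finset.mem_insert_self _ _
    rw [Finset.mem_filter] at h1
    exact h1.2
  have hgv : g11 v = v := by
    have h1 : v ∈ Finset.univ.filter (fun i => g11 i = i) := by
      rw [hE]
      exact Finset.mem_insert_of_mem (Finset.mem_singleton_self _)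
    rw [Finset.mem_filter] at h1
    exact h1.2
  have hF11 : ∀ i, g11 i = i → i = u ∨ i = v := by
    intro i hi
    have h1 : i ∈ Finset.univ.filter (fun i => g11 i = i) :=
      Finset.mem_filter.2 ⟨Finset.mem_univ _, hi⟩
    rw [hE, Finset.mem_insert, Finset.mem_singleton] at h1
    exact h1
  obtain ⟨A, hA⟩ : ∃ A, A = orbF K u := ⟨_, rfl⟩
  have hAinv : InvSet K A := hA ▸ invSet_orbF K u
  have huA : u ∈ A := hA ▸ self_mem_orbF K u
  have hmod11 := card_inv_modEq g11 11 (by norm_num) hp11 A (hAinv g11 hg11)
  have hmod7 := card_inv_modEq g7 7 (by norm_num) hp7 A (hAinv g7 hg7)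
  have hle7 : (A.filter (fun i => g7 i = i)).card ≤ 3 := by
    rw [← f7]
    exact Finset.card_le_card (Finset.filter_subset_filter _ (Finset.subset_univ _))
  have hA24 : A.card ≤ 24 := by
    have := Finset.card_le_univ A
    rwa [fcard_golayPt] at this
  have hAev : A.card % 2 = 0 := hA ▸ heven u
  have hcases : A.card = 2 ∨ A.card = 24 := by
    by_cases hvA : v ∈ A
    · have e : A.filter (fun i => g11 i = i) = {u, v} := by
        ext i
        simp only [Finset.mem_filter, Finset.mem_insert, Finset.mem_singleton]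
        constructor
        · rintro ⟨_, hgi⟩
          exact hF11 i hgi
        · rintro (rfl | rfl)
          · exact ⟨huA, hgu⟩
          · exact ⟨hvA, hgv⟩
      rw [e, Finset.card_pair huv] at hmod11
      omega
    · have e : A.filter (fun i => g11 i = i) = {u} := by
        ext i
        simp only [Finset.mem_filter, Finset.mem_singleton]
        constructor
        · rintro ⟨hi, hgi⟩
          rcases hF11 i hgi with h | rfl
          · exact h
          · exact absurd hi hvA
        · rintro rfl
          exact ⟨huA, hgu⟩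
      rw [e, Finset.card_singleton] at hmod11
      omega
  rcases hcases with h2 | h24
  · exact ⟨A, h2, hAinv⟩
  · exfalso
    have htr : ∀ a b : GolayPt, ∃ k ∈ K, k a = b := by
      intro a b
      obtain ⟨k1, hk1, rfl⟩ := exists_of_orbF_card K u (by rw [← hA, h24, fcard_golayPt]) a
      obtain ⟨k2, hk2, rfl⟩ := exists_of_orbF_card K u (by rw [← hA, h24, fcard_golayPt]) b
      exact ⟨k2 * k1⁻¹, K.mul_mem hk2 (K.inv_mem hk1), by simp⟩
    have hst : ∀ a, Nat.card (stabP K a) = 36960 := by
      intro a
      have := card_stabP_of_trans K htr a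
      rw [fcard_golayPt, hc] at this
      omega
    -- each point stabiliser fixes a second point
    have hpart : ∀ a, ∃ b, b ≠ a ∧ ∀ k ∈ stabP K a, k b = b := by
      intro a
      obtain ⟨h11, hh11, hho11, hhp11⟩ := exists_ord (stabP K a) 11 (by norm_num)
        (by rw [hst]; norm_num)
      obtain ⟨h7, hh7, hho7, hhp7⟩ := exists_ord (stabP K a) 7 (by norm_num)
        (by rw [hst]; norm_num)
      have e11 := fix11 (hK (mem_stabP.1 hh11).1) hho11
      have e7 := fix7 (hK (mem_stabP.1 hh7).1) hho7
      have ham : a ∈ Finset.univ.filter (fun i => h11 i = i) :=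
        Finset.mem_filter.2 ⟨Finset.mem_univ _, (mem_stabP.1 hh11).2⟩
      have hc1 : ((Finset.univ.filter (fun i => h11 i = i)).erase a).card = 1 := by
        rw [Finset.card_erase_of_mem ham, e11]
      obtain ⟨b, hb⟩ := Finset.card_eq_one.1 hc1
      have hb' : b ≠ a ∧ h11 b = b := by
        have h1 : b ∈ (Finset.univ.filter (fun i => h11 i = i)).erase a := by
          rw [hb]
          exact Finset.mem_singleton_self _
        rw [Finset.mem_erase, Finset.mem_filter] at h1
        exact ⟨h1.1, h1.2.2⟩
      have hFb : ∀ i, h11 i = i → i = a ∨ i = b := by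
        intro i hi
        by_cases hia : i = a
        · exact Or.inl hia
        · have h1 : i ∈ (Finset.univ.filter (fun i => h11 i = i)).erase a :=
            Finset.mem_erase.2 ⟨hia, Finset.mem_filter.2 ⟨Finset.mem_univ _, hi⟩⟩
          rw [hb, Finset.mem_singleton] at h1
          exact Or.inr h1
      refine ⟨b, hb'.1, ?_⟩
      rw [← orbF_card_one_iff]
      obtain ⟨D, hD⟩ : ∃ D, D = orbF (stabP K a) b := ⟨_, rfl⟩
      rw [← hD]
      have hDinv : InvSet (stabP K a) D := hD ▸ invSet_orbF _ b
      have haD : a ∉ D := hD ▸ not_mem_orbF_stabP hb'.1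
      have hbD : b ∈ D := hD ▸ self_mem_orbF _ b
      have hm11 := card_inv_modEq h11 11 (by norm_num) hhp11 D (hDinv h11 hh11)
      have hm7 := card_inv_modEq h7 7 (by norm_num) hhp7 D (hDinv h7 hh7)
      have hl7 : (D.filter (fun i => h7 i = i)).card ≤ 3 := by
        rw [← e7]
        exact Finset.card_le_card (Finset.filter_subset_filter _ (Finset.subset_univ _))
      have e : D.filter (fun i => h11 i = i) = {b} := by
        ext i
        simp only [Finset.mem_filter, Finset.mem_singleton]
        constructor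
        · rintro ⟨hi, hgi⟩
          rcases hFb i hgi with rfl | h
          · exact absurd hi haD
          · exact h
        · rintro rfl
          exact ⟨hbD, hb'.2⟩
      rw [e, Finset.card_singleton] at hm11
      have hD23 : D.card ≤ 23 := card_le_23 haD
      have hDd : D.card ∣ 36960 := by
        rw [hD, ← hst a]
        exact card_orbF_dvd _ b
      have h3 : D.card = 1 ∨ D.card = 12 ∨ D.card = 23 := by omega
      rcases h3 with h | h | h
      · exact h
      · omega
      · rw [h] at hDd
        omega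
    have huniq : ∀ a b b', b ≠ a → b' ≠ a → (∀ k ∈ stabP K a, k b = b) →
        (∀ k ∈ stabP K a, k b' = b') → b = b' := by
      intro a b b' hba hb'a hb hb'
      by_contra hne
      have h1 : Nat.card (stabP K a) ∣ 20160 := by
        apply card_dvd_fix3 (stabP K a) ((stabP_le K a).trans hK) {a, b, b'}
        · rw [Finset.card_insert_of_notMem, Finset.card_pair hne]
          simp [hba.symm, hb'a.symm]
        · intro k hk i hi
          simp only [Finset.mem_insert, Finset.mem_singleton] at hi
          rcases hi with rfl | rfl | rfl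
          · exact (mem_stabP.1 hk).2
          · exact hb k hk
          · exact hb' k hk
      rw [hst] at h1
      omega
    have hsym : ∀ a b, (∀ k ∈ stabP K a, k b = b) → ∀ k ∈ stabP K b, k a = a := by
      intro a b h k hk
      rw [← stabP_eq_of_fix (by rw [hst, hst]) h] at hk
      exact (mem_stabP.1 hk).2
    obtain ⟨x, y, z, hxy, hxz, hyz, hE3⟩ := Finset.card_eq_three.1 f7
    have hF7 : ∀ i, g7 i = i ↔ i = x ∨ i = y ∨ i = z := by
      intro i
      have h1 : i ∈ Finset.univ.filter (fun i => g7 i = i) ↔ i = x ∨ i = y ∨ i = z := by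
        rw [hE3]
        simp
      rw [← h1]
      simp
    have hgx := (hF7 x).2 (Or.inl rfl)
    have hgy := (hF7 y).2 (Or.inr (Or.inl rfl))
    have hgz := (hF7 z).2 (Or.inr (Or.inr rfl))
    -- partners of fixed points are fixed
    have hpf : ∀ a, g7 a = a → ∃ b, b ≠ a ∧ (b = x ∨ b = y ∨ b = z) ∧
        ∀ k ∈ stabP K a, k b = b := by
      intro a ha
      obtain ⟨b, hba, hb⟩ := hpart a
      exact ⟨b, hba, (hF7 b).1 (hb g7 (mem_stabP.2 ⟨hg7, ha⟩)), hb⟩
    obtain ⟨x', hx'x, hx', hPx⟩ := hpf x hgx
    rcases hx' with h | h | h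
    · exact hx'x h
    · rw [h] at hPx
      obtain ⟨z', hz'z, hz', hPz⟩ := hpf z hgz
      rcases hz' with h' | h' | h'
      · rw [h'] at hPz
        exact hyz (huniq x y z hxy.symm hxz.symm hPx (hsym z x hPz))
      · rw [h'] at hPz
        exact hxz (huniq y x z hxy hyz.symm (hsym x y hPx) (hsym z y hPz))
      · exact hz'z h'
    · rw [h] at hPx
      obtain ⟨y', hy'y, hy', hPy⟩ := hpf y hgy
      rcases hy' with h' | h' | h'
      · rw [h'] at hPy
        exact hyz (huniq x y z hxy.symm hxz.symm (hsym y x hPy) hPx)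
      · exact hy'y h'
      · rw [h'] at hPy
        exact hxy (huniq z x y hxz hyz (hsym x z hPx) (hsym y z hPy))

end M24Idx

end Cfsg.Agent.Lib.Helper26
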