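import Cfsg.Agent.Lib.Helper26.M24Idx

set_option autoImplicit false
open scoped Pointwise
open Cfsg

namespace Cfsg.Agent.Lib.Helper26

open Cfsg.Agent.Lib

section M24Sext

variable {K L : Subgroup (Equiv.Perm GolayPt)} {a : GolayPt}

theorem num_5760 (n j : ℕ) (hn : 0 < n) (hj : j ≤ 3) (hmod : n % 5 = j % 5) (hd : n ∣ 5760)
    (h23 : n ≤ 23) (h1 : n ≠ 1) (h5 : n ≠ 5) (h6 : n ≠ 6) (h8 : n ≠ 8) :
    (j = 0 ∧ (n = 10 ∨ n = 15 ∨ n = 20)) ∨ (j = 1 ∧ n = 16) ∨ (j = 2 ∧ (n = 2 ∨ n = 12)) ∨
      (j = 3 ∧ (n = 3 ∨ n = 18)) := by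
  interval_cases n <;> interval_cases j <;> omega

/-- In a transitive subgroup of order 138240 no point stabiliser fixes a second point. -/
theorem sx_no_fix (hK : K ≤ M24) (htr : ∀ a b : GolayPt, ∃ k ∈ K, k a = b)
    (hst : ∀ a, Nat.card (stabP K a) = 5760) (a a' : GolayPt) (haa' : a' ≠ a)
    (hfix : (orbF (stabP K a) a').card = 1) : False := by
  have hall : ∀ c, ∃ c', c' ≠ c ∧ (orbF (stabP K c) c').card = 1 := by
    intro c
    obtain ⟨k, hk, rfl⟩ := htr a c
    exact ⟨k a', fun h => haa' (k.injective h), by rw [card_orbF_stabP_conj hk]; exact hfix⟩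
  have heqst : ∀ c c', (orbF (stabP K c) c').card = 1 → stabP K c = stabP K c' :=
    fun c c' h => stabP_eq_of_fix (by rw [hst, hst]) (orbF_card_one_iff.1 h)
  have hfa' := orbF_card_one_iff.1 hfix
  have h3 : ∀ c, c ≠ a → c ≠ a' → ¬ (∀ k ∈ stabP K a, k c = c) := by
    intro c hca hca' hc
    have h1 : Nat.card (stabP K a) ∣ 20160 := by
      apply card_dvd_fix3 (stabP K a) ((stabP_le K a).trans hK) {a, a', c}
      · rw [Finset.card_insert_of_notMem, Finset.card_pair hca'.symm]
        simp [haa'.symm, hca.symm]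
      · intro k hk i hi
        simp only [Finset.mem_insert, Finset.mem_singleton] at hi
        rcases hi with rfl | rfl | rfl
        · exact (mem_stabP.1 hk).2
        · exact hfa' k hk
        · exact hc k hk
    rw [hst] at h1
    omega
  obtain ⟨T, hT⟩ : ∃ T, T = Finset.univ \ ({a, a'} : Finset GolayPt) := ⟨_, rfl⟩
  have hTinv : InvSet (stabP K a) T := by
    rw [hT]
    apply InvSet.compl
    intro k hk i hi
    simp only [Finset.mem_insert, Finset.mem_singleton] at hi ⊢
    rcases hi with rfl | rfl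
    · exact Or.inl (mem_stabP.1 hk).2
    · exact Or.inr (hfa' k hk)
  have hTc : T.card = 22 := by
    rw [hT, Finset.card_univ_sdiff, fcard_golayPt, Finset.card_pair haa'.symm]
  have hd : ∀ c ∈ T, 6 ∣ (orbF (stabP K a) c).card := by
    intro c hc
    rw [hT] at hc
    simp only [Finset.mem_sdiff, Finset.mem_univ, true_and, Finset.mem_insert,
      Finset.mem_singleton, not_or] at hc
    obtain ⟨hca, hca'⟩ : c ≠ a ∧ c ≠ a' := hc
    obtain ⟨c', hc'c, hc'⟩ := hall c
    have hfc' := orbF_card_one_iff.1 hc'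
    have hc'a : c' ≠ a := by
      intro h
      rw [h] at hc'
      have e := heqst c a hc'
      apply h3 c hca hca'
      intro k hk
      rw [← e] at hk
      exact (mem_stabP.1 hk).2
    have hc'a' : c' ≠ a' := by
      intro h
      rw [h] at hc'
      have e := heqst c a' hc'
      have e' := heqst a a' hfix
      apply h3 c hca hca'
      intro k hk
      rw [e', ← e] at hk
      exact (mem_stabP.1 hk).2
    have h4 : Nat.card (stabP (stabP K a) c) ∣ 960 := by
      apply card_dvd_fix4 _ (((stabP_le _ c).trans (stabP_le K a)).trans hK) {a, a', c, c'}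
      · rw [Finset.card_insert_of_notMem, Finset.card_insert_of_notMem,
          Finset.card_pair hc'c.symm]
        · simp [hca'.symm, hc'a'.symm]
        · simp [haa'.symm, hca.symm, hc'a.symm]
      · intro k hk i hi
        obtain ⟨hk1, hkc⟩ := mem_stabP.1 hk
        simp only [Finset.mem_insert, Finset.mem_singleton] at hi
        rcases hi with rfl | rfl | rfl | rfl
        · exact (mem_stabP.1 hk1).2
        · exact hfa' k hk1
        · exact hkc
        · exact hfc' k (mem_stabP.2 ⟨(mem_stabP.1 hk1).1, hkc⟩)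
    have hmul := card_stabP_mul (stabP K a) c
    rw [hst] at hmul
    obtain ⟨e, he⟩ := h4
    have hpos : 0 < Nat.card (stabP (stabP K a) c) := Nat.card_pos
    refine ⟨e, Nat.eq_of_mul_eq_mul_left hpos ?_⟩
    rw [hmul]
    calc 5760 = 6 * 960 := rfl
      _ = 6 * (Nat.card (stabP (stabP K a) c) * e) := by rw [← he]
      _ = Nat.card (stabP (stabP K a) c) * (6 * e) := by ring
  have := dvd_card_of_dvd_orbits (stabP K a) 6 22 T hTc hTinv hd
  rw [hTc] at this
  omega

/-- No invariant set of five points off the fixed point. -/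
theorem sx_no_inv5 (hLM : L ≤ M24) (hLa : ∀ k ∈ L, k a = a) (hc : Nat.card L = 5760)
    (Q : Finset GolayPt) (hQ : InvSet L Q) (hcQ : Q.card = 5) (haQ : a ∉ Q) : False := by
  have h1 := card_dvd_fixP_mul L Q hQ
  have h5f : (5 : ℕ).factorial = 120 := rfl
  rw [hc, hcQ, h5f] at h1
  have h6 : 6 ∣ Nat.card (fixP L Q) := by
    obtain ⟨e, he⟩ := h1
    omega
  apply no_fix6 (fixP L Q) ((fixP_le L Q).trans hLM) (insert a Q)
    (by rw [Finset.card_insert_of_notMem haQ, hcQ]) ?_ h6
  intro k hk i hi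
  obtain ⟨hk1, hk2⟩ := mem_fixP.1 hk
  rcases Finset.mem_insert.1 hi with rfl | hi
  · exact hLa k hk1
  · exact hk2 i hi

/-- No invariant set of six points off the fixed point. -/
theorem sx_no_inv6 (hLM : L ≤ M24) (hLa : ∀ k ∈ L, k a = a) (hc : Nat.card L = 5760)
    (hnf : ∀ b, b ≠ a → (orbF L b).card ≠ 1) (Q : Finset GolayPt) (hQ : InvSet L Q)
    (hcQ : Q.card = 6) (haQ : a ∉ Q) : False := by
  have h1 := card_dvd_fixP_mul L Q hQ
  have h6f : (6 : ℕ).factorial = 720 := rfl
  rw [hc, hcQ, h6f] at h1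
  have h2 : 2 ∣ Nat.card (fixP L Q) := by
    obtain ⟨e, he⟩ := h1
    omega
  obtain ⟨t, ht, ho2, hp2⟩ := exists_ord (fixP L Q) 2 (by norm_num) h2
  obtain ⟨htL, ht2⟩ := mem_fixP.1 ht
  have hta := hLa t htL
  obtain ⟨hsq, hne⟩ := Helper6.Cls.sq_of_order_two ho2
  have hO := Helper6.Cls.fixed_mem_octads (hLM htL) hsq hne hta
  obtain ⟨O, hOdef⟩ : ∃ O, O = Finset.univ.filter (fun i => t i = i) := ⟨_, rfl⟩
  rw [← hOdef] at hO
  have hsub : insert a Q ⊆ O := by
    intro i hi
    rw [hOdef]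
    rcases Finset.mem_insert.1 hi with rfl | hi
    · exact Finset.mem_filter.2 ⟨Finset.mem_univ _, hta⟩
    · exact Finset.mem_filter.2 ⟨Finset.mem_univ _, ht2 i hi⟩
  have hc7 : (insert a Q).card = 7 := by
    rw [Finset.card_insert_of_notMem haQ, hcQ]
  have hinv7 : InvSet L (insert a Q) := by
    rw [Finset.insert_eq]
    exact (invSet_singleton hLa).union hQ
  obtain ⟨z, hzO, hzn⟩ : ∃ z ∈ O, z ∉ insert a Q := by
    by_contra hcon
    have hsub' : O ⊆ insert a Q := by
      intro i hi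
      by_contra hi'
      exact hcon ⟨i, hi, hi'⟩
    have := Finset.card_le_card hsub'
    rw [Helper6.Golay.card_of_mem_octads hO, hc7] at this
    omega
  have hza : z ≠ a := fun h => hzn (h ▸ Finset.mem_insert_self _ _)
  apply hnf z hza
  rw [orbF_card_one_iff]
  intro l hl
  have hla := hLa l hl
  have hconjM : l * t * l⁻¹ ∈ M24 :=
    M24.mul_mem (M24.mul_mem (hLM hl) (hLM htL)) (M24.inv_mem (hLM hl))
  have hsq' : (l * t * l⁻¹) * (l * t * l⁻¹) = 1 := by
    have : (l * t * l⁻¹) * (l * t * l⁻¹) = l * (t * t) * l⁻¹ := by group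
    rw [this, hsq]
    group
  have hne' : l * t * l⁻¹ ≠ 1 := by
    intro e
    apply hne
    have : t = l⁻¹ * (l * t * l⁻¹) * l := by group
    rw [this, e]
    group
  have hlia : l⁻¹ a = a := by
    rw [Equiv.Perm.inv_eq_iff_eq]
    exact hla.symm
  have hfa : (l * t * l⁻¹) a = a := by
    rw [Equiv.Perm.mul_apply, Equiv.Perm.mul_apply, hlia, hta, hla]
  have hO' := Helper6.Cls.fixed_mem_octads hconjM hsq' hne' hfa
  rw [Helper6.Cls.fixed_conj, ← hOdef] at hO'
  have hsub2 : insert a Q ⊆ l • O := by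
    intro i hi
    have h1 : l⁻¹ i ∈ insert a Q := (hinv7.iff hl (l⁻¹ i)).1 (by simpa using hi)
    have h2 : l • (l⁻¹ i) ∈ l • O := Finset.smul_mem_smul_finset (hsub h1)
    simpa using h2
  have heq := Helper6.Golay.octad_unique hO' hO (by rw [hc7]; norm_num) hsub2 hsub
  have hlz : l z ∈ O := by
    have h1 : l • z ∈ l • O := Finset.smul_mem_smul_finset hzO
    rw [heq] at h1
    exact h1
  have hlzn : l z ∉ insert a Q := fun h => hzn ((hinv7.iff hl z).1 h)
  have hc1 : (O \ insert a Q).card = 1 := by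
    rw [Finset.card_sdiff_of_subset hsub, Helper6.Golay.card_of_mem_octads hO, hc7]
  obtain ⟨w, hw⟩ := Finset.card_eq_one.1 hc1
  have h1 : z ∈ O \ insert a Q := Finset.mem_sdiff.2 ⟨hzO, hzn⟩
  have h2 : l z ∈ O \ insert a Q := Finset.mem_sdiff.2 ⟨hlz, hlzn⟩
  rw [hw, Finset.mem_singleton] at h1 h2
  rw [h2, h1]

/-- A subgroup of order 5760 of a point stabiliser fixing no second point has an orbit of
three points. -/
theorem sx_orbit3 (hLM : L ≤ M24) (hLa : ∀ k ∈ L, k a = a) (hc : Nat.card L = 5760)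
    (hnf : ∀ b, b ≠ a → (orbF L b).card ≠ 1) : ∃ b, (orbF L b).card = 3 := by
  obtain ⟨g5, hg5, ho5, hp5⟩ := exists_ord L 5 (by norm_num) (by rw [hc]; norm_num)
  have f5 := fix5 (hLM hg5) ho5
  obtain ⟨F, hF⟩ : ∃ F, F = Finset.univ.filter (fun i => g5 i = i) := ⟨_, rfl⟩
  have hFmem : ∀ i, i ∈ F ↔ g5 i = i := by
    intro i
    rw [hF]
    simp
  have hFc : F.card = 4 := hF ▸ f5
  have haF : a ∈ F := (hFmem a).2 (hLa g5 hg5)
  have horb : ∀ b, b ≠ a → ∀ D, D = orbF L b →
      ∃ j, j = (D.filter (fun i => g5 i = i)).card ∧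
        ((j = 0 ∧ (D.card = 10 ∨ D.card = 15 ∨ D.card = 20)) ∨ (j = 1 ∧ D.card = 16) ∨
          (j = 2 ∧ (D.card = 2 ∨ D.card = 12)) ∨ (j = 3 ∧ (D.card = 3 ∨ D.card = 18))) := by
    intro b hb D hD
    have hDinv : InvSet L D := hD ▸ invSet_orbF L b
    have haD : a ∉ D := hD ▸ not_mem_orbF hLa hb
    have hbD : b ∈ D := hD ▸ self_mem_orbF L b
    refine ⟨_, rfl, ?_⟩
    apply num_5760
    · exact Finset.card_pos.2 ⟨b, hbD⟩
    · have hsub : D.filter (fun i => g5 i = i) ⊆ F.erase a := by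
        intro i hi
        rw [Finset.mem_filter] at hi
        exact Finset.mem_erase.2 ⟨fun h => haD (h ▸ hi.1), (hFmem i).2 hi.2⟩
      have := Finset.card_le_card hsub
      rwa [Finset.card_erase_of_mem haF, hFc] at this
    · exact card_inv_modEq g5 5 (by norm_num) hp5 D (hDinv g5 hg5)
    · rw [hD, ← hc]
      exact card_orbF_dvd L b
    · exact card_le_23 haD
    · rw [hD]
      exact hnf b hb
    · intro h5c
      exact sx_no_inv5 hLM hLa hc D hDinv h5c haD
    · intro h6c
      exact sx_no_inv6 hLM hLa hc hnf D hDinv h6c haD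
    · intro h8c
      exact no_inv8_small hLM hLa 7 (by rw [hc]) (by norm_num) (by norm_num) (by decide) D hDinv
        haD h8c
  obtain ⟨b1, hb1⟩ : ∃ b1, b1 ∈ F.erase a :=
    Finset.card_pos.1 (by rw [Finset.card_erase_of_mem haF, hFc]; norm_num)
  have hb1a : b1 ≠ a := (Finset.mem_erase.1 hb1).1
  have hgb1 : g5 b1 = b1 := (hFmem b1).1 (Finset.mem_erase.1 hb1).2
  obtain ⟨D1, hD1⟩ : ∃ D1, D1 = orbF L b1 := ⟨_, rfl⟩
  have hD1inv : InvSet L D1 := hD1 ▸ invSet_orbF L b1
  have haD1 : a ∉ D1 := hD1 ▸ not_mem_orbF hLa hb1a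
  have hb1D1 : b1 ∈ D1 := hD1 ▸ self_mem_orbF L b1
  obtain ⟨j1, hj1, hcase1⟩ := horb b1 hb1a D1 hD1
  have hj1pos : 1 ≤ j1 := by
    rw [hj1]
    exact Finset.card_pos.2 ⟨b1, Finset.mem_filter.2 ⟨hb1D1, hgb1⟩⟩
  by_cases h3 : j1 = 3
  · have h318 : D1.card = 3 ∨ D1.card = 18 := by
      rcases hcase1 with ⟨h, _⟩ | ⟨h, _⟩ | ⟨h, _⟩ | ⟨_, h⟩
      · omega
      · omega
      · omega
      · exact h
    rcases h318 with h | h
    · exact ⟨b1, hD1 ▸ h⟩
    · exfalso
      apply sx_no_inv5 hLM hLa hc (Finset.univ \ insert a D1)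
      · rw [Finset.insert_eq]
        exact ((invSet_singleton hLa).union hD1inv).compl
      · rw [Finset.card_univ_sdiff, fcard_golayPt, Finset.card_insert_of_notMem haD1, h]
      · simp
  · exfalso
    have hj1le : j1 ≤ 2 := by
      rcases hcase1 with ⟨h, _⟩ | ⟨h, _⟩ | ⟨h, _⟩ | ⟨h, _⟩ <;> omega
    obtain ⟨b2, hb2, hb2D1⟩ : ∃ b2 ∈ F.erase a, b2 ∉ D1 := by
      by_contra hcon
      have hsub : F.erase a ⊆ D1.filter (fun i => g5 i = i) := by
        intro i hi
        have : i ∈ D1 := by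
          by_contra h'
          exact hcon ⟨i, hi, h'⟩
        exact Finset.mem_filter.2 ⟨this, (hFmem i).1 (Finset.mem_erase.1 hi).2⟩
      have := Finset.card_le_card hsub
      rw [Finset.card_erase_of_mem haF, hFc, ← hj1] at this
      omega
    have hb2a : b2 ≠ a := (Finset.mem_erase.1 hb2).1
    have hgb2 : g5 b2 = b2 := (hFmem b2).1 (Finset.mem_erase.1 hb2).2
    obtain ⟨D2, hD2⟩ : ∃ D2, D2 = orbF L b2 := ⟨_, rfl⟩
    have hD2inv : InvSet L D2 := hD2 ▸ invSet_orbF L b2
    have haD2 : a ∉ D2 := hD2 ▸ not_mem_orbF hLa hb2a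
    have hb2D2 : b2 ∈ D2 := hD2 ▸ self_mem_orbF L b2
    obtain ⟨j2, hj2, hcase2⟩ := horb b2 hb2a D2 hD2
    have hj2pos : 1 ≤ j2 := by
      rw [hj2]
      exact Finset.card_pos.2 ⟨b2, Finset.mem_filter.2 ⟨hb2D2, hgb2⟩⟩
    have hdisj : Disjoint D1 D2 := by
      rw [Finset.disjoint_left]
      intro w hw1 hw2
      rw [hD1] at hw1
      rw [hD2] at hw2
      apply hb2D1
      rw [hD1, ← orbF_eq_of_mem hw1, orbF_eq_of_mem hw2]
      exact self_mem_orbF L b2
    have hjsum : j1 + j2 ≤ 3 := by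
      rw [hj1, hj2, ← Finset.card_union_of_disjoint (Finset.disjoint_filter_filter hdisj)]
      have hsub : D1.filter (fun i => g5 i = i) ∪ D2.filter (fun i => g5 i = i) ⊆
          F.erase a := by
        intro i hi
        rcases Finset.mem_union.1 hi with hi | hi
        · rw [Finset.mem_filter] at hi
          exact Finset.mem_erase.2 ⟨fun h => haD1 (h ▸ hi.1), (hFmem i).2 hi.2⟩
        · rw [Finset.mem_filter] at hi
          exact Finset.mem_erase.2 ⟨fun h => haD2 (h ▸ hi.1), (hFmem i).2 hi.2⟩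
      have := Finset.card_le_card hsub
      rwa [Finset.card_erase_of_mem haF, hFc] at this
    have haD12 : a ∉ D1 ∪ D2 := by
      rw [Finset.mem_union]
      exact fun h => h.elim haD1 haD2
    have hsum23 : D1.card + D2.card ≤ 23 := by
      rw [← Finset.card_union_of_disjoint hdisj]
      exact card_le_23 haD12
    have hsum : D1.card + D2.card = 18 := by
      rcases hcase1 with ⟨h, h'⟩ | ⟨h, h'⟩ | ⟨h, h'⟩ | ⟨h, h'⟩ <;>
        rcases hcase2 with ⟨e, e'⟩ | ⟨e, e'⟩ | ⟨e, e'⟩ | ⟨e, e'⟩ <;> omega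
    apply sx_no_inv5 hLM hLa hc (Finset.univ \ insert a (D1 ∪ D2))
    · rw [Finset.insert_eq]
      exact ((invSet_singleton hLa).union (hD1inv.union hD2inv)).compl
    · rw [Finset.card_univ_sdiff, fcard_golayPt, Finset.card_insert_of_notMem haD12,
        Finset.card_union_of_disjoint hdisj, hsum]
    · simp

/-- The structure of the orbits of a subgroup of order 5760 of a point stabiliser having an
orbit of three points. -/
theorem sx_struct (hLM : L ≤ M24) (hLa : ∀ k ∈ L, k a = a) (hc : Nat.card L = 5760)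
    (b0 : GolayPt) (h3 : (orbF L b0).card = 3) :
    ∃ T : Finset GolayPt, T.card = 3 ∧ a ∉ T ∧ InvSet L T ∧ (∀ b ∈ T, (orbF L b).card = 3) ∧
      Nat.card (fixP L T) = 960 ∧
      ∀ c, c ∉ insert a T → (orbF L c).card = 20 ∧ Nat.card (stabP (fixP L T) c) = 48 := by
  obtain ⟨T, hT⟩ : ∃ T, T = orbF L b0 := ⟨_, rfl⟩
  have hTc : T.card = 3 := hT ▸ h3
  have hTinv : InvSet L T := hT ▸ invSet_orbF L b0
  have hb0a : b0 ≠ a := by
    intro h
    rw [h, orbF_eq_singleton hLa, Finset.card_singleton] at h3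
    omega
  have haT : a ∉ T := hT ▸ not_mem_orbF hLa hb0a
  have hc4 : (insert a T).card = 4 := by
    rw [Finset.card_insert_of_notMem haT, hTc]
  have hNfix : ∀ k ∈ fixP L T, ∀ i ∈ insert a T, k i = i := by
    intro k hk i hi
    obtain ⟨hk1, hk2⟩ := mem_fixP.1 hk
    rcases Finset.mem_insert.1 hi with rfl | hi
    · exact hLa k hk1
    · exact hk2 i hi
  have hN : Nat.card (fixP L T) = 960 := by
    have h1 := card_dvd_fixP_mul L T hTinv
    have h3f : (3 : ℕ).factorial = 6 := rfl
    rw [hc, hTc, h3f] at h1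
    have h2 : Nat.card (fixP L T) ∣ 960 :=
      card_dvd_fix4 (fixP L T) ((fixP_le L T).trans hLM) (insert a T) hc4.ge hNfix
    have h4 : 960 ∣ Nat.card (fixP L T) := by
      obtain ⟨e, he⟩ := h1
      exact ⟨e, by omega⟩
    exact Nat.dvd_antisymm h2 h4
  refine ⟨T, hTc, haT, hTinv, ?_, hN, ?_⟩
  · intro b hb
    rw [hT] at hb
    rw [orbF_eq_of_mem hb]
    exact h3
  · intro c hc'
    obtain ⟨R, hR⟩ : ∃ R, R = Finset.univ \ insert a T := ⟨_, rfl⟩
    have hRinv : InvSet L R := by
      rw [hR, Finset.insert_eq]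
      exact ((invSet_singleton hLa).union hTinv).compl
    have hRc : R.card = 20 := by
      rw [hR, Finset.card_univ_sdiff, fcard_golayPt, hc4]
    have hcR : c ∈ R := by
      rw [hR]
      simp only [Finset.mem_sdiff, Finset.mem_univ, true_and]
      exact hc'
    have hP : Nat.card (stabP (fixP L T) c) ∣ 48 := by
      apply card_dvd_fix5 _ (((stabP_le _ c).trans (fixP_le L T)).trans hLM) (insert c (insert a T))
      · rw [Finset.card_insert_of_notMem hc', hc4]
      · intro k hk i hi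
        obtain ⟨hk1, hkc⟩ := mem_stabP.1 hk
        rcases Finset.mem_insert.1 hi with rfl | hi
        · exact hkc
        · exact hNfix k hk1 i hi
    have hmul := card_stabP_mul (fixP L T) c
    rw [hN] at hmul
    have hsubN : orbF (fixP L T) c ⊆ R := orbF_subset_of_inv (hRinv.mono (fixP_le L T)) hcR
    have hn20 : (orbF (fixP L T) c).card ≤ 20 := by
      have := Finset.card_le_card hsubN
      rwa [hRc] at this
    have hP48 : Nat.card (stabP (fixP L T) c) ≤ 48 := Nat.le_of_dvd (by norm_num) hP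
    have hge : 960 ≤ Nat.card (stabP (fixP L T) c) * 20 := by
      rw [← hmul]
      exact Nat.mul_le_mul_left _ hn20
    have hPeq : Nat.card (stabP (fixP L T) c) = 48 := by omega
    rw [hPeq] at hmul
    have hNorb : (orbF (fixP L T) c).card = 20 := by omega
    refine ⟨?_, hPeq⟩
    have hsubL : orbF L c ⊆ R := orbF_subset_of_inv hRinv hcR
    have hNL : orbF (fixP L T) c ⊆ orbF L c := by
      intro w hw
      obtain ⟨k, hk, rfl⟩ := mem_orbF.1 hw
      exact mem_orbF.2 ⟨k, fixP_le L T hk, rfl⟩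
    have h1 := Finset.card_le_card hsubL
    have h2 := Finset.card_le_card hNL
    omega

/-- A subgroup of order 138240 of `M24` stabilises a sextet. -/
theorem inv_sextet_of_card (hK : K ≤ M24) (hc : Nat.card K = 138240) :
    ∃ S ∈ sextets, ∀ k ∈ K, k • S = S := by
  have h24 : ∀ a, (orbF K a).card = 24 := by
    intro a
    obtain ⟨h1, h2, h3, h4⟩ := orb_numeric K hK a
    rw [hc] at h3 h4
    exact (by decide : ∀ n < 25, n ≠ 0 → 138240 % n = 0 → 10200960 % (138240 / n) = 0 →
      n = 24) _ h1 h2 h3 h4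
  have htr : ∀ a b : GolayPt, ∃ k ∈ K, k a = b :=
    fun a b => exists_of_orbF_card K a (by rw [h24, fcard_golayPt]) b
  have hst : ∀ a, Nat.card (stabP K a) = 5760 := by
    intro a
    have := card_stabP_of_trans K htr a
    rw [fcard_golayPt, hc] at this
    omega
  have hnf : ∀ a b, b ≠ a → (orbF (stabP K a) b).card ≠ 1 :=
    fun a b hb h => sx_no_fix hK htr hst a b hb h
  have hLM : ∀ a, stabP K a ≤ M24 := fun a => (stabP_le K a).trans hK
  have hLa : ∀ a, ∀ k ∈ stabP K a, k a = a := fun a k hk => (mem_stabP.1 hk).2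
  obtain ⟨T, hT⟩ : ∃ T : GolayPt → Finset GolayPt,
      T = fun a => Finset.univ.filter (fun b => (orbF (stabP K a) b).card = 3) := ⟨_, rfl⟩
  have hmem : ∀ a b, b ∈ T a ↔ (orbF (stabP K a) b).card = 3 := by
    intro a b
    rw [hT]
    simp
  have hsymm : ∀ a b, b ∈ T a → a ∈ T b := by
    intro a b hb
    rw [hmem] at hb ⊢
    rw [← rel_symm K a b (by rw [hst, hst])]
    exact hb
  have hself : ∀ a, a ∉ T a := by
    intro a h
    rw [hmem, orbF_stabP_self, Finset.card_singleton] at h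
    omega
  have hconj : ∀ k ∈ K, ∀ a b, k b ∈ T (k a) ↔ b ∈ T a := by
    intro k hk a b
    rw [hmem, hmem, card_orbF_stabP_conj hk]
  have hstr : ∀ a, (T a).card = 3 ∧ InvSet (stabP K a) (T a) ∧
      Nat.card (fixP (stabP K a) (T a)) = 960 ∧
      ∀ c, c ∉ insert a (T a) → (orbF (stabP K a) c).card = 20 ∧
        Nat.card (stabP (fixP (stabP K a) (T a)) c) = 48 := by
    intro a
    obtain ⟨b0, hb0⟩ := sx_orbit3 (hLM a) (hLa a) (hst a) (hnf a)
    obtain ⟨T', hT'c, haT', hT'inv, hT'3, hN, hrest⟩ :=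
      sx_struct (hLM a) (hLa a) (hst a) b0 hb0
    have hTT' : T a = T' := by
      ext b
      rw [hmem]
      constructor
      · intro hb
        by_contra hbT
        by_cases hba : b = a
        · rw [hba, orbF_stabP_self, Finset.card_singleton] at hb
          omega
        · have := (hrest b (by
            rw [Finset.mem_insert, not_or]
            exact ⟨hba, hbT⟩)).1
          omega
      · exact hT'3 b
    rw [hTT']
    exact ⟨hT'c, hT'inv, hN, hrest⟩
  have hpart : ∀ a b c, b ∈ T a → c ∈ T a → c ≠ b → c ∈ T b := by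
    intro a b c hb hc' hcb
    obtain ⟨hc3, hinv, hN, hrest⟩ := hstr a
    by_contra hcT
    have hcb' : c ∉ insert b (T b) := by
      rw [Finset.mem_insert, not_or]
      exact ⟨hcb, hcT⟩
    have h20 := ((hstr b).2.2.2 c hcb').1
    have hle : fixP (stabP K a) (T a) ≤ stabP (stabP K b) c := by
      intro k hk
      obtain ⟨hk1, hk2⟩ := mem_fixP.1 hk
      exact mem_stabP.2 ⟨mem_stabP.2 ⟨(mem_stabP.1 hk1).1, hk2 b hb⟩, hk2 c hc'⟩
    have hd := Subgroup.card_dvd_of_le hle
    rw [hN] at hd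
    have hmul := card_stabP_mul (stabP K b) c
    rw [h20, hst] at hmul
    omega
  obtain ⟨tt, htt⟩ : ∃ tt : GolayPt → Finset GolayPt, tt = fun a => insert a (T a) := ⟨_, rfl⟩
  have httmem : ∀ a i, i ∈ tt a ↔ i = a ∨ i ∈ T a := by
    intro a i
    rw [htt]
    exact Finset.mem_insert
  have httc : ∀ a, (tt a).card = 4 := by
    intro a
    rw [htt]
    show (insert a (T a)).card = 4
    rw [Finset.card_insert_of_notMem (hself a), (hstr a).1]
  have htt_eq : ∀ a b, b ∈ tt a → tt b = tt a := by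
    intro a b hb
    rcases (httmem a b).1 hb with h | hb
    · rw [h]
    · have hsub : insert a ((T a).erase b) ⊆ T b := by
        intro i hi
        rcases Finset.mem_insert.1 hi with h | hi
        · rw [h]
          exact hsymm _ _ hb
        · exact hpart a b i hb (Finset.mem_erase.1 hi).2 (Finset.mem_erase.1 hi).1
      have hcard : (insert a ((T a).erase b)).card = 3 := by
        rw [Finset.card_insert_of_notMem, Finset.card_erase_of_mem hb, (hstr a).1]
        exact fun h => hself a (Finset.mem_erase.1 h).2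
      have heq : insert a ((T a).erase b) = T b :=
        Finset.eq_of_subset_of_card_le hsub (by rw [hcard, (hstr b).1])
      ext i
      rw [httmem, httmem, ← heq, Finset.mem_insert, Finset.mem_erase]
      constructor
      · rintro (h | h | ⟨_, h⟩)
        · rw [h]
          exact Or.inr hb
        · exact Or.inl h
        · exact Or.inr h
      · rintro (h | h)
        · exact Or.inr (Or.inl h)
        · by_cases hib : i = b
          · exact Or.inl hib
          · exact Or.inr (Or.inr ⟨hib, h⟩)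
  have hoct : ∀ a c, c ∉ tt a → tt a ∪ tt c ∈ octads := by
    intro a c hc'
    obtain ⟨hc3, hinv, hN, hrest⟩ := hstr a
    obtain ⟨-, h48⟩ := hrest c (by
      rw [Finset.mem_insert]
      exact fun h => hc' ((httmem a c).2 h))
    obtain ⟨Mg, hMg⟩ : ∃ Mg, Mg = stabP (fixP (stabP K a) (T a)) c := ⟨_, rfl⟩
    rw [← hMg] at h48
    have hMle : Mg ≤ stabP K c := by
      rw [hMg]
      intro k hk
      obtain ⟨hk1, hkc⟩ := mem_stabP.1 hk
      exact mem_stabP.2 ⟨(mem_stabP.1 (mem_fixP.1 hk1).1).1, hkc⟩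
    have hMinv : InvSet Mg (T c) := (hstr c).2.1.mono hMle
    have h1 := card_dvd_fixP_mul Mg (T c) hMinv
    have h3f : (3 : ℕ).factorial = 6 := rfl
    rw [h48, (hstr c).1, h3f] at h1
    have h2 : 2 ∣ Nat.card (fixP Mg (T c)) := by
      obtain ⟨e, he⟩ := h1
      omega
    obtain ⟨t, ht, ho2, hp2⟩ := exists_ord (fixP Mg (T c)) 2 (by norm_num) h2
    obtain ⟨ht1, ht2⟩ := mem_fixP.1 ht
    rw [hMg] at ht1
    obtain ⟨ht3, htc⟩ := mem_stabP.1 ht1
    obtain ⟨ht4, ht5⟩ := mem_fixP.1 ht3
    obtain ⟨htK, hta⟩ := mem_stabP.1 ht4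
    obtain ⟨hsq, hne⟩ := Helper6.Cls.sq_of_order_two ho2
    apply octad_of_fix8 (hK htK) hne
    · rw [Finset.card_union_of_disjoint, httc, httc]
      rw [Finset.disjoint_left]
      intro x hxa hxc
      apply hc'
      rw [← htt_eq a x hxa, htt_eq c x hxc, httmem]
      exact Or.inl rfl
    · intro i hi
      rw [Finset.mem_union, httmem, httmem] at hi
      rcases hi with (h | hi) | (h | hi)
      · rw [h]
        exact hta
      · exact ht5 i hi
      · rw [h]
        exact htc
      · exact ht2 i hi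
  obtain ⟨S, hSdef⟩ : ∃ S, S = Finset.univ.image tt := ⟨_, rfl⟩
  refine ⟨S, ⟨?_, ?_, ?_⟩, ?_⟩
  · have h1 := Finset.card_eq_sum_card_image tt Finset.univ
    have h2 : ∀ t ∈ Finset.univ.image tt,
        (Finset.univ.filter (fun x => tt x = t)).card = 4 := by
      intro t ht
      obtain ⟨a, -, rfl⟩ := Finset.mem_image.1 ht
      have : Finset.univ.filter (fun x => tt x = tt a) = tt a := by
        ext x
        simp only [Finset.mem_filter, Finset.mem_univ, true_and]
        constructor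
        · intro h
          rw [← h, httmem]
          exact Or.inl rfl
        · exact htt_eq a x
      rw [this, httc]
    rw [Finset.sum_const_nat h2, Finset.card_univ, fcard_golayPt] at h1
    rw [hSdef]
    omega
  · intro t ht
    rw [hSdef] at ht
    obtain ⟨a, -, rfl⟩ := Finset.mem_image.1 ht
    exact httc a
  · intro t ht u hu hne
    rw [hSdef] at ht hu
    obtain ⟨a, -, rfl⟩ := Finset.mem_image.1 ht
    obtain ⟨c, -, rfl⟩ := Finset.mem_image.1 hu
    apply hoct
    intro hca
    exact hne (htt_eq a c hca).symm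
  · intro k hk
    have hkt : ∀ a, k • tt a = tt (k a) := by
      intro a
      ext i
      obtain ⟨j, rfl⟩ : ∃ j, k j = i := ⟨k⁻¹ i, by simp⟩
      have h1 : k j ∈ k • tt a ↔ j ∈ tt a := Finset.smul_mem_smul_finset_iff k
      rw [h1, httmem, httmem, hconj k hk]
      constructor
      · rintro (h | h)
        · exact Or.inl (congrArg k h)
        · exact Or.inr h
      · rintro (h | h)
        · exact Or.inl (k.injective h)
        · exact Or.inr h
    rw [hSdef]
    ext t
    constructor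
    · intro ht
      obtain ⟨s, hs, rfl⟩ := Finset.mem_smul_finset.1 ht
      obtain ⟨a, -, rfl⟩ := Finset.mem_image.1 hs
      rw [hkt]
      exact Finset.mem_image_of_mem _ (Finset.mem_univ _)
    · intro ht
      obtain ⟨a, -, rfl⟩ := Finset.mem_image.1 ht
      rw [Finset.mem_smul_finset]
      refine ⟨tt (k⁻¹ a), Finset.mem_image_of_mem _ (Finset.mem_univ _), ?_⟩
      rw [hkt]
      simp

end M24Sext

end Cfsg.Agent.Lib.Helper26
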