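import Mathlib
import Cfsg.Agent.Lib.Helper7.GolayTrans
import Cfsg.Agent.Lib.Helper7.GolayWeights

set_option autoImplicit false

open scoped Pointwise

namespace Cfsg.Agent.Lib.Helper26

open Cfsg.Agent.Lib.Helper7

/-- An enumeration of a finite set starting with the points of a given subset. -/
theorem exists_list_split {α : Type*} [DecidableEq α] (o s : Finset α) (hs : s ⊆ o) :
    ∃ L : List α, L.Nodup ∧ L.length = o.card ∧ (∀ p ∈ L, p ∈ o) ∧
      (∀ p ∈ s, ∃ j, ∃ h : j < L.length, j < s.card ∧ L[j] = p) ∧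
      (∀ j (h : j < L.length), j < s.card → L[j] ∈ s) := by
  refine ⟨s.toList ++ (o \ s).toList, ?_, ?_, ?_, ?_, ?_⟩
  · rw [List.nodup_append]
    refine ⟨s.nodup_toList, (o \ s).nodup_toList, ?_⟩
    intro a ha b hb hab
    rw [Finset.mem_toList] at ha hb
    rw [← hab] at hb
    exact (Finset.mem_sdiff.mp hb).2 ha
  · rw [List.length_append, Finset.length_toList, Finset.length_toList, add_comm]
    exact Finset.card_sdiff_add_card_eq_card hs
  · intro p hp
    rw [List.mem_append, Finset.mem_toList, Finset.mem_toList] at hp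
    rcases hp with hp | hp
    · exact hs hp
    · exact (Finset.mem_sdiff.mp hp).1
  · intro p hp
    rw [← Finset.mem_toList] at hp
    obtain ⟨j, hj, hjp⟩ := List.getElem_of_mem hp
    have hj' : j < s.card := by rwa [Finset.length_toList] at hj
    refine ⟨j, by rw [List.length_append]; omega, hj', ?_⟩
    rw [List.getElem_append_left hj]
    exact hjp
  · intro j h hj
    have hj' : j < s.toList.length := by rwa [Finset.length_toList]
    rw [List.getElem_append_left hj', ← Finset.mem_toList]
    exact List.getElem_mem hj'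

/-- The group of the code carries an octad with a subset of at most five of its points to any
other octad with a subset of the same size. -/
theorem M24_transport {o o' s s' : Finset Cfsg.GolayPt} (ho : o ∈ Cfsg.octads)
    (ho' : o' ∈ Cfsg.octads) (hs : s ⊆ o) (hs' : s' ⊆ o') (hc : s.card = s'.card)
    (h5 : s.card ≤ 5) : ∃ g ∈ Cfsg.M24, g • o = o' ∧ g • s = s' := by
  classical
  obtain ⟨L, hLn, hLl, hLo, hLs, -⟩ := exists_list_split o s hs
  obtain ⟨L', hLn', hLl', hLo', -, hLs2'⟩ := exists_list_split o' s' hs'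
  have h8 : L.length = 8 := hLl.trans ho.2
  have h8' : L'.length = 8 := hLl'.trans ho'.2
  let x : Fin 5 ↪ Cfsg.GolayPt := ⟨fun i => L[i.val]'(by omega), fun i j hij =>
    Fin.ext ((List.Nodup.getElem_inj_iff hLn).mp hij)⟩
  let y : Fin 5 ↪ Cfsg.GolayPt := ⟨fun i => L'[i.val]'(by omega), fun i j hij =>
    Fin.ext ((List.Nodup.getElem_inj_iff hLn').mp hij)⟩
  obtain ⟨g, hg, hgxy⟩ := M24_exists_smul_eq (le_refl 5) x y
  refine ⟨g, hg, ?_, ?_⟩
  · have h1 := smul_mem_octads hg ho
    refine octad_eq_of_inter h1.1 ho'.1 h1.2 ho'.2 ?_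
    have hsub : Finset.univ.map y ⊆ g • o ∩ o' := by
      intro p hp
      obtain ⟨i, -, rfl⟩ := Finset.mem_map.mp hp
      rw [Finset.mem_inter]
      refine ⟨?_, hLo' _ (List.getElem_mem _)⟩
      rw [← hgxy i]
      exact Finset.smul_mem_smul_finset (hLo _ (List.getElem_mem _))
    have := Finset.card_le_card hsub
    rw [Finset.card_map, Finset.card_univ, Fintype.card_fin] at this
    exact this
  · apply Finset.eq_of_subset_of_card_le
    · intro p hp
      obtain ⟨q, hq, rfl⟩ := Finset.mem_smul_finset.mp hp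
      obtain ⟨j, hj, hjs, rfl⟩ := hLs q hq
      have hj5 : j < 5 := by omega
      have := hgxy ⟨j, hj5⟩
      show g (L[j]) ∈ s'
      have e : g (L[j]) = L'[j]'(by omega) := this
      rw [e]
      exact hLs2' j (by omega) (by omega)
    · rw [Finset.card_smul_finset, hc]

end Cfsg.Agent.Lib.Helper26
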