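import Mathlib
import Cfsg.Agent.Lib.Helper26.Coatom

set_option autoImplicit false

namespace Cfsg.Agent.Lib.Helper26

open MulAction

/-- The level sets of `c` on the invariant finite set `Ω` lie in single orbits of `H`, and have
sizes `n i`. -/
structure OrbLev (H : Type*) {α : Type*} [Group H] [MulAction H α] (Ω : Set α)
    (c : α → ℕ) (J : Finset ℕ) (n : ℕ → ℕ) : Prop where
  fin : Ω.Finite
  inv : ∀ (h : H), ∀ y ∈ Ω, h • y ∈ Ω
  trans : ∀ y ∈ Ω, ∀ z ∈ Ω, c y = c z → ∃ h : H, h • y = z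
  mem : ∀ y ∈ Ω, c y ∈ J
  card : ∀ i ∈ J, {y | y ∈ Ω ∧ c y = i}.ncard = n i

namespace OrbLev

variable {H α : Type*} [Group H] [MulAction H α] {Ω : Set α} {c : α → ℕ}
  {J : Finset ℕ} {n : ℕ → ℕ}

theorem congr_n (h : OrbLev H Ω c J n) {n' : ℕ → ℕ} (hn : ∀ i ∈ J, n i = n' i) :
    OrbLev H Ω c J n' :=
  ⟨h.fin, h.inv, h.trans, h.mem, fun i hi => (h.card i hi).trans (hn i hi)⟩

/-- Orbits are the level sets, when no other union of level sets has size dividing the order of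
the group. -/
theorem orbit_eq [Finite H] (h : OrbLev H Ω c J n) {y : α} (hy : y ∈ Ω)
    (hdivH : ∀ I ⊆ J, c y ∈ I → (∑ i ∈ I, n i) ∣ Nat.card H → I = {c y}) :
    orbit H y = {z | z ∈ Ω ∧ c z = c y} := by
  classical
  set B : Set α := orbit H y with hBdef
  have hBΩ : B ⊆ Ω := by
    rintro z ⟨k, rfl⟩
    exact h.inv k y hy
  have hBfin : B.Finite := h.fin.subset hBΩ
  have hyB : y ∈ B := mem_orbit_self y
  have hcl : ∀ z ∈ B, ∀ w ∈ Ω, c z = c w → w ∈ B := by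
    rintro z ⟨k, rfl⟩ w hw hc
    obtain ⟨u, rfl⟩ := h.trans _ (hBΩ ⟨k, rfl⟩) w hw hc
    exact ⟨u * k, mul_smul _ _ _⟩
  let I := J.filter (fun i => ∃ z ∈ B, c z = i)
  have hBcard : B.ncard = ∑ i ∈ I, n i := by
    rw [ncard_eq_sum_fiber B hBfin c J (fun z hz => h.mem z (hBΩ hz)), Finset.sum_filter]
    refine Finset.sum_congr rfl fun i hi => ?_
    split_ifs with hex
    · rw [← h.card i hi]
      congr 1
      ext w
      obtain ⟨z, hz, hzc⟩ := hex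
      constructor
      · rintro ⟨hw, hwc⟩
        exact ⟨hBΩ hw, hwc⟩
      · rintro ⟨hw, hwc⟩
        exact ⟨hcl z hz w hw (hzc.trans hwc.symm), hwc⟩
    · have hemp : {z | z ∈ B ∧ c z = i} = ∅ := by
        ext z
        simp only [Set.mem_ofPred_eq, Set.mem_empty_iff_false, iff_false]
        rintro ⟨hz, hzc⟩
        exact hex ⟨z, hz, hzc⟩
      rw [hemp, Set.ncard_empty]
  have hdvd : (∑ i ∈ I, n i) ∣ Nat.card H := by
    rw [← hBcard, hBdef, ← index_stabilizer]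
    exact Subgroup.index_dvd_card _
  have hyI : c y ∈ I := Finset.mem_filter.mpr ⟨h.mem y hy, y, hyB, rfl⟩
  have hI := hdivH I (Finset.filter_subset _ _) hyI hdvd
  ext z
  constructor
  · intro hz
    have hzI : c z ∈ I := Finset.mem_filter.mpr ⟨h.mem z (hBΩ hz), z, hz, rfl⟩
    rw [hI, Finset.mem_singleton] at hzI
    exact ⟨hBΩ hz, hzI⟩
  · rintro ⟨hz, hzc⟩
    exact hcl y hyB z hz hzc.symm

/-- A level set of nonzero size is an orbit. -/
theorem exists_rep [Finite H] (h : OrbLev H Ω c J n) {i : ℕ} (hi : i ∈ J) (hni : n i ≠ 0)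
    (hdivH : ∀ I ⊆ J, i ∈ I → (∑ j ∈ I, n j) ∣ Nat.card H → I = {i}) :
    ∃ X ∈ Ω, orbit H X = {z | z ∈ Ω ∧ c z = i} ∧ (orbit H X).ncard = n i := by
  have hne : {y | y ∈ Ω ∧ c y = i}.Nonempty := by
    by_contra hne
    rw [Set.not_nonempty_iff_eq_empty] at hne
    rw [← h.card i hi, hne, Set.ncard_empty] at hni
    exact hni rfl
  obtain ⟨X, hX, hcX⟩ := hne
  have key := h.orbit_eq hX (by rw [hcX]; exact hdivH)
  rw [hcX] at key
  exact ⟨X, hX, key, by rw [key, h.card i hi]⟩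

/-- Three level sets: three orbits. -/
theorem three [Finite H] (h : OrbLev H Ω c (Finset.range 3) n) (h0 : n 0 ≠ 0) (h1 : n 1 ≠ 0)
    (h2 : n 2 ≠ 0)
    (hdiv : ∀ j ∈ Finset.range 3, ∀ I ⊆ Finset.range 3, j ∈ I →
      (∑ i ∈ I, n i) ∣ Nat.card H → I = {j}) :
    ∃ X₁ ∈ Ω, ∃ X₂ ∈ Ω, ∃ X₃ ∈ Ω, (orbit H X₁).ncard = n 0 ∧ (orbit H X₂).ncard = n 1 ∧
      (orbit H X₃).ncard = n 2 ∧ Ω = orbit H X₁ ∪ orbit H X₂ ∪ orbit H X₃ := by
  obtain ⟨X₁, hX₁, ho₁, hn₁⟩ := h.exists_rep (i := 0) (by simp) h0 (hdiv 0 (by simp))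
  obtain ⟨X₂, hX₂, ho₂, hn₂⟩ := h.exists_rep (i := 1) (by simp) h1 (hdiv 1 (by simp))
  obtain ⟨X₃, hX₃, ho₃, hn₃⟩ := h.exists_rep (i := 2) (by simp) h2 (hdiv 2 (by simp))
  refine ⟨X₁, hX₁, X₂, hX₂, X₃, hX₃, hn₁, hn₂, hn₃, ?_⟩
  rw [ho₁, ho₂, ho₃]
  ext y
  simp only [Set.mem_union, Set.mem_ofPred_eq]
  constructor
  · intro hy
    have h3 := h.mem y hy
    rw [Finset.mem_range] at h3
    have h4 : c y = 0 ∨ c y = 1 ∨ c y = 2 := by omega
    rcases h4 with h4 | h4 | h4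
    · exact Or.inl (Or.inl ⟨hy, h4⟩)
    · exact Or.inl (Or.inr ⟨hy, h4⟩)
    · exact Or.inr ⟨hy, h4⟩
  · rintro ((h1 | h1) | h1) <;> exact h1.1

/-- Four level sets: four orbits. -/
theorem four [Finite H] (h : OrbLev H Ω c (Finset.range 4) n) (h0 : n 0 ≠ 0) (h1 : n 1 ≠ 0)
    (h2 : n 2 ≠ 0) (h3 : n 3 ≠ 0)
    (hdiv : ∀ j ∈ Finset.range 4, ∀ I ⊆ Finset.range 4, j ∈ I →
      (∑ i ∈ I, n i) ∣ Nat.card H → I = {j}) :
    ∃ X₁ ∈ Ω, ∃ X₂ ∈ Ω, ∃ X₃ ∈ Ω, ∃ X₄ ∈ Ω, (orbit H X₁).ncard = n 0 ∧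
      (orbit H X₂).ncard = n 1 ∧ (orbit H X₃).ncard = n 2 ∧ (orbit H X₄).ncard = n 3 ∧
      Ω = orbit H X₁ ∪ orbit H X₂ ∪ orbit H X₃ ∪ orbit H X₄ := by
  obtain ⟨X₁, hX₁, ho₁, hn₁⟩ := h.exists_rep (i := 0) (by simp) h0 (hdiv 0 (by simp))
  obtain ⟨X₂, hX₂, ho₂, hn₂⟩ := h.exists_rep (i := 1) (by simp) h1 (hdiv 1 (by simp))
  obtain ⟨X₃, hX₃, ho₃, hn₃⟩ := h.exists_rep (i := 2) (by simp) h2 (hdiv 2 (by simp))
  obtain ⟨X₄, hX₄, ho₄, hn₄⟩ := h.exists_rep (i := 3) (by simp) h3 (hdiv 3 (by simp))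
  refine ⟨X₁, hX₁, X₂, hX₂, X₃, hX₃, X₄, hX₄, hn₁, hn₂, hn₃, hn₄, ?_⟩
  rw [ho₁, ho₂, ho₃, ho₄]
  ext y
  simp only [Set.mem_union, Set.mem_ofPred_eq]
  constructor
  · intro hy
    have h3 := h.mem y hy
    rw [Finset.mem_range] at h3
    have h4 : c y = 0 ∨ c y = 1 ∨ c y = 2 ∨ c y = 3 := by omega
    rcases h4 with h4 | h4 | h4 | h4
    · exact Or.inl (Or.inl (Or.inl ⟨hy, h4⟩))
    · exact Or.inl (Or.inl (Or.inr ⟨hy, h4⟩))
    · exact Or.inl (Or.inr ⟨hy, h4⟩)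
    · exact Or.inr ⟨hy, h4⟩
  · rintro (((h1 | h1) | h1) | h1) <;> exact h1.1

/-- Transport to the stabiliser of another point of an orbit. -/
theorem smul_stab {G β : Type*} [Group G] [MulAction G α] [MulAction G β] {x : β} (g : G)
    (hΩ : ∀ g : G, ∀ y ∈ Ω, g • y ∈ Ω) (h : OrbLev ↥(stabilizer G x) Ω c J n) :
    OrbLev ↥(stabilizer G (g • x)) Ω (fun y => c (g⁻¹ • y)) J n where
  fin := h.fin
  inv := fun k y hy => hΩ k.1 y hy
  trans := by
    intro y hy z hz hyz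
    obtain ⟨u, huy⟩ := h.trans _ (hΩ g⁻¹ y hy) _ (hΩ g⁻¹ z hz) hyz
    have hu : u.1 • x = x := u.2
    have huy' : u.1 • g⁻¹ • y = g⁻¹ • z := huy
    refine ⟨⟨g * u.1 * g⁻¹, ?_⟩, ?_⟩
    · show (g * u.1 * g⁻¹) • g • x = g • x
      rw [mul_smul, inv_smul_smul, mul_smul, hu]
    · show (g * u.1 * g⁻¹) • y = z
      rw [mul_smul, mul_smul, huy', smul_inv_smul]
  mem := fun y hy => h.mem _ (hΩ g⁻¹ y hy)
  card := by
    intro i hi
    rw [← h.card i hi]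
    have hset : {y | y ∈ Ω ∧ c (g⁻¹ • y) = i} = (fun z => g • z) '' {z | z ∈ Ω ∧ c z = i} := by
      ext y
      constructor
      · rintro ⟨hy, hcy⟩
        exact ⟨g⁻¹ • y, ⟨hΩ g⁻¹ y hy, hcy⟩, smul_inv_smul g y⟩
      · rintro ⟨z, ⟨hz, hcz⟩, rfl⟩
        refine ⟨hΩ g z hz, ?_⟩
        show c (g⁻¹ • g • z) = i
        rw [inv_smul_smul]
        exact hcz
    rw [hset, Set.ncard_image_of_injective _ (MulAction.injective g)]

end OrbLev

/-- Building the level-set structure from an enumeration of the set with labels. -/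
theorem orbLev_of_labels {H α : Type*} [Group H] [MulAction H α] (Ω : Set α) (hfin : Ω.Finite)
    (hinv : ∀ (h : H), ∀ y ∈ Ω, h • y ∈ Ω) (N : ℕ) (e : ℕ → α) (lab : ℕ → ℕ)
    (hΩ : ∀ i < N, e i ∈ Ω) (hN : Ω.ncard = N)
    (hinj : ∀ i < N, ∀ j < N, e i = e j → i = j)
    (htr : ∀ i < N, ∀ j < N, lab i = lab j → ∃ u : H, u • e i = e j)
    (J : Finset ℕ) (hJ : ∀ i < N, lab i ∈ J) :
    ∃ c : α → ℕ,
      OrbLev H Ω c J (fun j => ((Finset.range N).filter (fun i => lab i = j)).card) := by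
  classical
  have himg : e '' (↑(Finset.range N) : Set ℕ) = Ω := by
    apply Set.eq_of_subset_of_ncard_le
    · rintro y ⟨i, hi, rfl⟩
      exact hΩ i (Finset.mem_range.mp hi)
    · rw [Set.InjOn.ncard_image, Set.ncard_coe_finset, Finset.card_range, hN]
      intro i hi j hj hij
      exact hinj i (Finset.mem_range.mp hi) j (Finset.mem_range.mp hj) hij
    · exact hfin
  have hex : ∀ y ∈ Ω, ∃ i < N, e i = y := by
    intro y hy
    rw [← himg] at hy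
    obtain ⟨i, hi, rfl⟩ := hy
    exact ⟨i, Finset.mem_range.mp hi, rfl⟩
  let c : α → ℕ := fun y => if h : ∃ i < N, e i = y then lab (Classical.choose h) else 0
  have hc : ∀ i < N, c (e i) = lab i := by
    intro i hi
    have h : ∃ j < N, e j = e i := ⟨i, hi, rfl⟩
    have h2 := Classical.choose_spec h
    show (if h : ∃ j < N, e j = e i then lab (Classical.choose h) else 0) = lab i
    rw [dif_pos h, hinj _ h2.1 i hi h2.2]
  refine ⟨c, ⟨hfin, hinv, ?_, ?_, ?_⟩⟩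
  · intro y hy z hz hyz
    obtain ⟨i, hi, rfl⟩ := hex y hy
    obtain ⟨j, hj, rfl⟩ := hex z hz
    rw [hc i hi, hc j hj] at hyz
    exact htr i hi j hj hyz
  · intro y hy
    obtain ⟨i, hi, rfl⟩ := hex y hy
    rw [hc i hi]
    exact hJ i hi
  · intro j _
    have hset : {y | y ∈ Ω ∧ c y = j}
        = e '' (↑((Finset.range N).filter (fun i => lab i = j)) : Set ℕ) := by
      ext y
      constructor
      · rintro ⟨hy, hcy⟩
        obtain ⟨i, hi, rfl⟩ := hex y hy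
        rw [hc i hi] at hcy
        exact ⟨i, Finset.mem_coe.mpr (Finset.mem_filter.mpr ⟨Finset.mem_range.mpr hi, hcy⟩), rfl⟩
      · rintro ⟨i, hi, rfl⟩
        rw [Finset.mem_coe, Finset.mem_filter, Finset.mem_range] at hi
        exact ⟨hΩ i hi.1, by rw [hc i hi.1]; exact hi.2⟩
    rw [hset, Set.InjOn.ncard_image, Set.ncard_coe_finset]
    intro i hi k hk hik
    rw [Finset.mem_coe, Finset.mem_filter, Finset.mem_range] at hi hk
    exact hinj i hi.1 k hk.1 hik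

end Cfsg.Agent.Lib.Helper26
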