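import Cfsg.Agent.Lib.Helper26.SextetOrb
import Cfsg.Agent.Lib.Helper26.OrbLev

set_option autoImplicit false

open scoped Pointwise

namespace Cfsg.Agent.Lib.Helper26

open Cfsg.Agent.Lib.Helper7 Cfsg.Agent.Lib.Helper93

/-- The bitmask of an octad. -/
def goodO (m : ℕ) : Bool := isCode m && (popc m == 8) && decide (m < 2 ^ 24)

theorem denO_mem {m : ℕ} (h : goodO m = true) : Cfsg.Agent.Lib.Helper7.setOf m ∈ Cfsg.octads := by
  unfold goodO at h
  simp only [Bool.and_eq_true, beq_iff_eq, decide_eq_true_eq] at h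
  exact ⟨setOf_mem_golaySupports h.2 h.1.1, by rw [card_setOf, h.1.2]⟩

theorem denO_inj {a b : ℕ} (ha : goodO a = true) (hb : goodO b = true)
    (h : Cfsg.Agent.Lib.Helper7.setOf a = Cfsg.Agent.Lib.Helper7.setOf b) : a = b := by
  unfold goodO at ha hb
  simp only [Bool.and_eq_true, beq_iff_eq, decide_eq_true_eq] at ha hb
  exact setOf_injective ha.2 hb.2 h

theorem denS_hact (S : Subgroup (Equiv.Perm Cfsg.GolayPt)) (hS : S ≤ Cfsg.M24) :
    ∀ σ ∈ S, ∀ (t c : ℕ), RepT σ⁻¹ t → σ • denS c = denS (permT t c) := by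
  intro σ hσ t c hR
  rw [denS, smul_sextetOf (hS hσ), smul_setOf hR]
  rfl

theorem setOf_hact (S : Subgroup (Equiv.Perm Cfsg.GolayPt)) :
    ∀ σ ∈ S, ∀ (t c : ℕ), RepT σ⁻¹ t →
      σ • Cfsg.Agent.Lib.Helper7.setOf c = Cfsg.Agent.Lib.Helper7.setOf (permT t c) :=
  fun _ _ _ c hR => smul_setOf hR c

theorem beq_sound : ∀ a b : ℕ, (a == b) = true →
    Cfsg.Agent.Lib.Helper7.setOf a = Cfsg.Agent.Lib.Helper7.setOf b := by
  intro a b h
  rw [beq_iff_eq] at h
  rw [h]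

end Cfsg.Agent.Lib.Helper26
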