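import Cfsg.Agent.Lib.Helper26.TabSO
import Cfsg.Agent.Lib.Helper26.TabST
import Cfsg.Agent.Lib.Helper26.TabTO
import Cfsg.Agent.Lib.Helper26.TabTS
import Cfsg.Agent.Lib.Helper26.TabDS

set_option autoImplicit false

open scoped Pointwise

namespace Cfsg.Agent.Lib.Helper26

open Cfsg.Agent.Lib.Helper7 Cfsg.Agent.Lib.Helper93

theorem M24_smul_mem_octads (g : ↥Cfsg.M24) (y : Finset Cfsg.GolayPt) (hy : y ∈ Cfsg.octads) :
    g • y ∈ Cfsg.octads :=
  smul_mem_octads g.2 hy

theorem M24_smul_mem_sextets (g : ↥Cfsg.M24) (y : Finset (Finset Cfsg.GolayPt))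
    (hy : y ∈ Cfsg.sextets) : g • y ∈ Cfsg.sextets :=
  smul_mem_sextets g.2 hy

theorem M24_smul_mem_trios (g : ↥Cfsg.M24) (y : Finset (Finset Cfsg.GolayPt))
    (hy : y ∈ Cfsg.trios) : g • y ∈ Cfsg.trios := by
  rw [← orbit_baseT] at hy ⊢
  obtain ⟨k, rfl⟩ := hy
  exact ⟨g * k, mul_smul _ _ _⟩

/-! ### The stabiliser of the base sextet -/

theorem orbLev_sx_octads : ∃ c : Finset Cfsg.GolayPt → ℕ,
    OrbLev ↥(MulAction.stabilizer (↥Cfsg.M24) baseSx) Cfsg.octads c (Finset.range 3) soN := by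
  have hgood : ∀ i < 759, goodO (soObj i) = true := allB_spec soGood
  have hinj : ∀ i < 759, ∀ j < 759, Cfsg.Agent.Lib.Helper7.setOf (soObj i)
      = Cfsg.Agent.Lib.Helper7.setOf (soObj j) → i = j := fun i hi j hj h =>
    inj_of_sorted soSorted i hi j hj (denO_inj (hgood i hi) (hgood j hj) h)
  have htr := cert_trans sxS (fun m => Cfsg.Agent.Lib.Helper7.setOf m) permT (fun a b => a == b)
    (setOf_hact sxS) beq_sound sxGens_rep sxGens_mem 759 soObj soLab soPar soGen soDep soRoot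
    soChk
  obtain ⟨c, hsub⟩ := orbLev_of_labels (H := ↥(MulAction.stabilizer (↥Cfsg.M24) baseSx))
    Cfsg.octads (Set.toFinite _) (fun h y hy => M24_smul_mem_octads h.1 y hy) 759
    (fun i => Cfsg.Agent.Lib.Helper7.setOf (soObj i)) soLab
    (fun i hi => denO_mem (hgood i hi)) ncard_octads hinj
    (fun i hi j hj hij => by
      obtain ⟨u, hu, huij⟩ := htr i hi j hj hij
      exact ⟨⟨⟨u, hu.1⟩, hu.2⟩, huij⟩)
    (Finset.range 3) (fun i hi => Finset.mem_range.mpr (by simpa using allB_spec soLabs i hi))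
  exact ⟨c, hsub.congr_n soN_eq⟩

theorem orbLev_sx_trios : ∃ c : Finset (Finset Cfsg.GolayPt) → ℕ,
    OrbLev ↥(MulAction.stabilizer (↥Cfsg.M24) baseSx) Cfsg.trios c (Finset.range 4) stN := by
  have hgood : ∀ i < 3795, goodT (stObj i) = true := allB_spec stGood
  have hinj : ∀ i < 3795, ∀ j < 3795, denT (stObj i) = denT (stObj j) → i = j :=
    fun i hi j hj h => inj_of_sorted stSorted i hi j hj (denT_inj (hgood i hi) (hgood j hj) h)
  have htr := cert_trans sxS denT actT relT (tr_hact sxS) relT_sound sxGens_rep sxGens_mem 3795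
    stObj stLab stPar stGen stDep stRoot stChk
  obtain ⟨c, hsub⟩ := orbLev_of_labels (H := ↥(MulAction.stabilizer (↥Cfsg.M24) baseSx))
    Cfsg.trios (Set.toFinite _) (fun h y hy => M24_smul_mem_trios h.1 y hy) 3795
    (fun i => denT (stObj i)) stLab
    (fun i hi => denT_mem (hgood i hi)) ncard_trios hinj
    (fun i hi j hj hij => by
      obtain ⟨u, hu, huij⟩ := htr i hi j hj hij
      exact ⟨⟨⟨u, hu.1⟩, hu.2⟩, huij⟩)
    (Finset.range 4) (fun i hi => Finset.mem_range.mpr (by simpa using allB_spec stLabs i hi))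
  exact ⟨c, hsub.congr_n stN_eq⟩

/-- Orbits of a sextet stabiliser on octads. -/
theorem orbLev_sextet_octads {S : Finset (Finset Cfsg.GolayPt)} (hS : S ∈ Cfsg.sextets) :
    ∃ c : Finset Cfsg.GolayPt → ℕ,
      OrbLev ↥(MulAction.stabilizer (↥Cfsg.M24) S) Cfsg.octads c (Finset.range 3) soN := by
  obtain ⟨c, h⟩ := orbLev_sx_octads
  rw [← orbit_baseSx] at hS
  obtain ⟨g, rfl⟩ := hS
  exact ⟨_, h.smul_stab g M24_smul_mem_octads⟩

/-- Orbits of a sextet stabiliser on trios. -/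
theorem orbLev_sextet_trios {S : Finset (Finset Cfsg.GolayPt)} (hS : S ∈ Cfsg.sextets) :
    ∃ c : Finset (Finset Cfsg.GolayPt) → ℕ,
      OrbLev ↥(MulAction.stabilizer (↥Cfsg.M24) S) Cfsg.trios c (Finset.range 4) stN := by
  obtain ⟨c, h⟩ := orbLev_sx_trios
  rw [← orbit_baseSx] at hS
  obtain ⟨g, rfl⟩ := hS
  exact ⟨_, h.smul_stab g M24_smul_mem_trios⟩

/-! ### The stabiliser of the base trio -/

theorem orbLev_tr_octads : ∃ c : Finset Cfsg.GolayPt → ℕ,
    OrbLev ↥(MulAction.stabilizer (↥Cfsg.M24) baseT) Cfsg.octads c (Finset.range 3) toN := by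
  have hgood : ∀ i < 759, goodO (toObj i) = true := allB_spec toGood
  have hinj : ∀ i < 759, ∀ j < 759, Cfsg.Agent.Lib.Helper7.setOf (toObj i)
      = Cfsg.Agent.Lib.Helper7.setOf (toObj j) → i = j := fun i hi j hj h =>
    inj_of_sorted toSorted i hi j hj (denO_inj (hgood i hi) (hgood j hj) h)
  have htr := cert_trans trS (fun m => Cfsg.Agent.Lib.Helper7.setOf m) permT (fun a b => a == b)
    (setOf_hact trS) beq_sound trGens_rep trGens_mem 759 toObj toLab toPar toGen toDep toRoot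
    toChk
  obtain ⟨c, hsub⟩ := orbLev_of_labels (H := ↥(MulAction.stabilizer (↥Cfsg.M24) baseT))
    Cfsg.octads (Set.toFinite _) (fun h y hy => M24_smul_mem_octads h.1 y hy) 759
    (fun i => Cfsg.Agent.Lib.Helper7.setOf (toObj i)) toLab
    (fun i hi => denO_mem (hgood i hi)) ncard_octads hinj
    (fun i hi j hj hij => by
      obtain ⟨u, hu, huij⟩ := htr i hi j hj hij
      exact ⟨⟨⟨u, hu.1⟩, hu.2⟩, huij⟩)
    (Finset.range 3) (fun i hi => Finset.mem_range.mpr (by simpa using allB_spec toLabs i hi))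
  exact ⟨c, hsub.congr_n toN_eq⟩

theorem orbLev_tr_sextets : ∃ c : Finset (Finset Cfsg.GolayPt) → ℕ,
    OrbLev ↥(MulAction.stabilizer (↥Cfsg.M24) baseT) Cfsg.sextets c (Finset.range 4) tsN := by
  have hgood : ∀ i < 1771, goodS (tsObj i) = true := allB_spec tsGood
  have hinj : ∀ i < 1771, ∀ j < 1771, denS (tsObj i) = denS (tsObj j) → i = j :=
    fun i hi j hj h => inj_of_sorted tsSorted i hi j hj (denS_inj (hgood i hi) (hgood j hj) h)
  have htr := cert_trans trS denS permT relS (denS_hact trS inf_le_left) relS_sound trGens_rep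
    trGens_mem 1771 tsObj tsLab tsPar tsGen tsDep tsRoot tsChk
  obtain ⟨c, hsub⟩ := orbLev_of_labels (H := ↥(MulAction.stabilizer (↥Cfsg.M24) baseT))
    Cfsg.sextets (Set.toFinite _) (fun h y hy => M24_smul_mem_sextets h.1 y hy) 1771
    (fun i => denS (tsObj i)) tsLab
    (fun i hi => denS_mem (hgood i hi)) ncard_sextets hinj
    (fun i hi j hj hij => by
      obtain ⟨u, hu, huij⟩ := htr i hi j hj hij
      exact ⟨⟨⟨u, hu.1⟩, hu.2⟩, huij⟩)
    (Finset.range 4) (fun i hi => Finset.mem_range.mpr (by simpa using allB_spec tsLabs i hi))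
  exact ⟨c, hsub.congr_n tsN_eq⟩

/-- Orbits of a trio stabiliser on octads. -/
theorem orbLev_trio_octads {T : Finset (Finset Cfsg.GolayPt)} (hT : T ∈ Cfsg.trios) :
    ∃ c : Finset Cfsg.GolayPt → ℕ,
      OrbLev ↥(MulAction.stabilizer (↥Cfsg.M24) T) Cfsg.octads c (Finset.range 3) toN := by
  obtain ⟨c, h⟩ := orbLev_tr_octads
  rw [← orbit_baseT] at hT
  obtain ⟨g, rfl⟩ := hT
  exact ⟨_, h.smul_stab g M24_smul_mem_octads⟩

/-- Orbits of a trio stabiliser on sextets. -/
theorem orbLev_trio_sextets {T : Finset (Finset Cfsg.GolayPt)} (hT : T ∈ Cfsg.trios) :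
    ∃ c : Finset (Finset Cfsg.GolayPt) → ℕ,
      OrbLev ↥(MulAction.stabilizer (↥Cfsg.M24) T) Cfsg.sextets c (Finset.range 4) tsN := by
  obtain ⟨c, h⟩ := orbLev_tr_sextets
  rw [← orbit_baseT] at hT
  obtain ⟨g, rfl⟩ := hT
  exact ⟨_, h.smul_stab g M24_smul_mem_sextets⟩

/-! ### The stabiliser of the base pair of dodecads -/

theorem orbLev_dp_sextets : ∃ c : Finset (Finset Cfsg.GolayPt) → ℕ,
    OrbLev ↥(MulAction.stabilizer (↥Cfsg.M24) (pairOf baseDod)) Cfsg.sextets c (Finset.range 3)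
      dsN := by
  have hgood : ∀ i < 1771, goodS (dsObj i) = true := allB_spec dsGood
  have hinj : ∀ i < 1771, ∀ j < 1771, denS (dsObj i) = denS (dsObj j) → i = j :=
    fun i hi j hj h => inj_of_sorted dsSorted i hi j hj (denS_inj (hgood i hi) (hgood j hj) h)
  have htr := cert_trans dpS denS permT relS (denS_hact dpS inf_le_left) relS_sound dpGens_rep
    dpGens_mem 1771 dsObj dsLab dsPar dsGen dsDep dsRoot dsChk
  obtain ⟨c, hsub⟩ := orbLev_of_labels
    (H := ↥(MulAction.stabilizer (↥Cfsg.M24) (pairOf baseDod)))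
    Cfsg.sextets (Set.toFinite _) (fun h y hy => M24_smul_mem_sextets h.1 y hy) 1771
    (fun i => denS (dsObj i)) dsLab
    (fun i hi => denS_mem (hgood i hi)) ncard_sextets hinj
    (fun i hi j hj hij => by
      obtain ⟨u, hu, huij⟩ := htr i hi j hj hij
      exact ⟨⟨⟨u, hu.1⟩, hu.2⟩, huij⟩)
    (Finset.range 3) (fun i hi => Finset.mem_range.mpr (by simpa using allB_spec dsLabs i hi))
  exact ⟨c, hsub.congr_n dsN_eq⟩

/-- Orbits of the stabiliser of a complementary pair of dodecads on sextets. -/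
theorem orbLev_dodpair_sextets {d : Finset Cfsg.GolayPt} (hd : d ∈ Cfsg.dodecads) :
    ∃ c : Finset (Finset Cfsg.GolayPt) → ℕ,
      OrbLev ↥(MulAction.stabilizer (↥Cfsg.M24) (pairOf d)) Cfsg.sextets c (Finset.range 3)
        dsN := by
  obtain ⟨c, h⟩ := orbLev_dp_sextets
  obtain ⟨g, rfl⟩ := Cfsg.Agent.Lib.Helper6.M12.dodecad_transitive baseDod_mem hd
  have h2 := h.smul_stab g M24_smul_mem_sextets
  rw [smul_pairOf] at h2
  exact ⟨_, h2⟩

end Cfsg.Agent.Lib.Helper26
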