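import Cfsg.Agent.Lib.Helper26.QuartChk
import Cfsg.Agent.Lib.Helper6.M12

set_option autoImplicit false

open scoped Pointwise

namespace Cfsg.Agent.Lib.Helper26

open Cfsg.Agent.Lib.Helper7 Cfsg.Agent.Lib.Helper93

theorem triL_lt (i : ℕ) : triL i < 2 ^ 24 := Nat.mod_lt _ (by norm_num)

/-- Every triple of points of the base dodecad is in the table of triples. -/
theorem mem_triL {t : Finset Cfsg.GolayPt} (ht : t.card = 3) (hsub : t ⊆ baseDod) :
    ∃ i < 220, t = Cfsg.Agent.Lib.Helper7.setOf (triL i) := by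
  classical
  have hfacts : ∀ i < 220, popc (triL i) = 3 ∧ triL i &&& 28637 = triL i ∧
      (triL i < triL (i + 1) ∨ i = 219) := by
    intro i hi
    have h := allB_spec triOK i hi
    simp only [Bool.and_eq_true, beq_iff_eq, decide_eq_true_eq] at h
    exact ⟨h.1.1, h.1.2, h.2⟩
  have hsorted : allB (fun i => decide (triL i < triL (i + 1))) (220 - 1) = true := by
    have key : ∀ n, n ≤ 219 → allB (fun i => decide (triL i < triL (i + 1))) n = true := by
      intro n
      induction n with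
      | zero => intro _; rfl
      | succ n ih =>
        intro hn
        simp only [allB, Bool.and_eq_true, decide_eq_true_eq]
        refine ⟨?_, ih (by omega)⟩
        rcases (hfacts n (by omega)).2.2 with h | h
        · exact h
        · omega
    exact key 219 le_rfl
  have hinj := inj_of_sorted hsorted
  have hsubset : (Finset.range 220).image (fun i => Cfsg.Agent.Lib.Helper7.setOf (triL i))
      ⊆ Finset.powersetCard 3 baseDod := by
    intro u hu
    obtain ⟨i, hi, rfl⟩ := Finset.mem_image.mp hu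
    have h := hfacts i (Finset.mem_range.mp hi)
    rw [Finset.mem_powersetCard]
    exact ⟨setOf_subset_of_and h.2.1, by rw [card_setOf, h.1]⟩
  have hcard : ((Finset.range 220).image
      (fun i => Cfsg.Agent.Lib.Helper7.setOf (triL i))).card = 220 := by
    rw [Finset.card_image_of_injOn, Finset.card_range]
    intro i hi j hj e
    exact hinj i (Finset.mem_range.mp (Finset.mem_coe.mp hi)) j
      (Finset.mem_range.mp (Finset.mem_coe.mp hj)) (setOf_injective (triL_lt i) (triL_lt j) e)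
  have h12 : baseDod.card = 12 := baseDod_mem.2
  have heq := Finset.eq_of_subset_of_card_le hsubset (by
    rw [hcard, Finset.card_powersetCard, h12]
    decide)
  have htm : t ∈ Finset.powersetCard 3 baseDod := Finset.mem_powersetCard.mpr ⟨hsub, ht⟩
  rw [← heq] at htm
  obtain ⟨i, hi, rfl⟩ := Finset.mem_image.mp htm
  exact ⟨i, Finset.mem_range.mp hi, rfl⟩

theorem memQ_sound {x q : ℕ} (h : memQ x q = true) :
    Cfsg.Agent.Lib.Helper7.setOf x ∈ denQ (qObj q) := by
  obtain ⟨k, hk, e⟩ := anyB_iff.mp h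
  rw [beq_iff_eq] at e
  exact (mem_denQ _ _).mpr ⟨k, hk, by rw [e]⟩

theorem card_denQ_qObj {q : ℕ} (hq : q < 220) : (denQ (qObj q)).card = 4 := (qObj_mem hq).1

/-- Two disjoint triples with union a hexad of the base dodecad lie in exactly one quartet, which
is in the table. -/
theorem base_pair {t u : Finset Cfsg.GolayPt} (ht : t.card = 3) (hd : Disjoint t u)
    (hh : t ∪ u ∈ Cfsg.hexadsOn baseDod) :
    ∃ q < 220, t ∈ denQ (qObj q) ∧ u ∈ denQ (qObj q) ∧
      ∀ Q ∈ Cfsg.quartets baseDod, t ∈ Q → u ∈ Q → Q = denQ (qObj q) := by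
  have htsub : t ⊆ baseDod := by
    obtain ⟨-, o, -, hod⟩ := hh
    intro x hx
    have hx' : x ∈ o ∩ baseDod := by
      rw [hod]
      exact Finset.mem_union_left _ hx
    exact (Finset.mem_inter.mp hx').2
  obtain ⟨a, ha, hta⟩ := hexOn_exists hh
  obtain ⟨i, hi, rfl⟩ := mem_triL ht htsub
  have hsub : Cfsg.Agent.Lib.Helper7.setOf (triL i) ⊆ Cfsg.Agent.Lib.Helper7.setOf (hexL a) := by
    rw [← hta]
    exact Finset.subset_union_left
  have hand : hexL a &&& triL i = triL i := and_eq_of_subset (triL_lt i) hsub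
  have hu : u = Cfsg.Agent.Lib.Helper7.setOf (hexL a ^^^ triL i) := by
    rw [setOf_xor_sub hsub, ← hta, Finset.union_sdiff_cancel_left hd]
  have hchk := allB_spec (allB_spec exOK_eq a ha) i hi
  rw [hand] at hchk
  simp only [beq_self_eq_true, Bool.not_true, Bool.false_or, Bool.and_eq_true,
    decide_eq_true_eq] at hchk
  obtain ⟨⟨⟨hq, hm1⟩, hm2⟩, hall⟩ := hchk
  refine ⟨exq a i, hq, memQ_sound hm1, by rw [hu]; exact memQ_sound hm2, ?_⟩
  intro Q hQ htQ huQ
  apply Finset.eq_of_subset_of_card_le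
  · intro x hx
    by_cases hxt : x = Cfsg.Agent.Lib.Helper7.setOf (triL i)
    · rw [hxt]
      exact memQ_sound hm1
    by_cases hxu : x = u
    · rw [hxu, hu]
      exact memQ_sound hm2
    have hdt : Disjoint (Cfsg.Agent.Lib.Helper7.setOf (triL i)) x :=
      quartet_disjoint hQ htQ hx (Ne.symm hxt)
    have hdu : Disjoint u x := quartet_disjoint hQ huQ hx (Ne.symm hxu)
    obtain ⟨b, hb, htb⟩ := hexOn_exists (hQ.2.2 _ htQ x hx (Ne.symm hxt))
    have hsubb : Cfsg.Agent.Lib.Helper7.setOf (triL i)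
        ⊆ Cfsg.Agent.Lib.Helper7.setOf (hexL b) := by
      rw [← htb]
      exact Finset.subset_union_left
    have handb : hexL b &&& triL i = triL i := and_eq_of_subset (triL_lt i) hsubb
    have hx' : x = Cfsg.Agent.Lib.Helper7.setOf (hexL b ^^^ triL i) := by
      rw [setOf_xor_sub hsubb, ← htb, Finset.union_sdiff_cancel_left hdt]
    have hXlt : hexL b ^^^ triL i < 2 ^ 24 := Nat.xor_lt_two_pow (hexL_lt b) (triL_lt i)
    have hUlt : hexL a ^^^ triL i < 2 ^ 24 := Nat.xor_lt_two_pow (hexL_lt a) (triL_lt i)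
    have hzero : (hexL b ^^^ triL i) &&& hexL a = 0 := by
      apply setOf_injective (Nat.and_lt_two_pow _ (hexL_lt a)) (by norm_num)
      rw [← setOf_inter, setOf_zero, ← hx', ← hta, Finset.inter_union_distrib_left,
        Finset.disjoint_iff_inter_eq_empty.mp hdt.symm,
        Finset.disjoint_iff_inter_eq_empty.mp hdu.symm, Finset.empty_union]
    have hhex : isHex ((hexL a ^^^ triL i) ||| (hexL b ^^^ triL i)) = true := by
      apply isHex_of_hexOn (Nat.or_lt_two_pow hUlt hXlt)
      rw [setOf_union, ← hu, ← hx']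
      exact hQ.2.2 u huQ x hx (Ne.symm hxu)
    have h1 := allB_spec hall b hb
    rw [handb, hzero, hhex] at h1
    simp only [beq_self_eq_true, Bool.not_true, Bool.false_or] at h1
    rw [hx']
    exact memQ_sound h1
  · rw [card_denQ_qObj hq, hQ.1]

/-- The quartets of the base dodecad are those of the table. -/
theorem quartets_base_iff (Q : Finset (Finset Cfsg.GolayPt)) :
    Q ∈ Cfsg.quartets baseDod ↔ ∃ q < 220, Q = denQ (qObj q) := by
  constructor
  · intro hQ
    obtain ⟨t, ht, u, hu, hne⟩ := Finset.one_lt_card.mp (by rw [hQ.1]; norm_num)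
    obtain ⟨q, hq, -, -, huniq⟩ := base_pair (hQ.2.1 t ht).1 (quartet_disjoint hQ ht hu hne)
      (hQ.2.2 t ht u hu hne)
    exact ⟨q, hq, huniq Q hQ ht hu⟩
  · rintro ⟨q, hq, rfl⟩
    exact qObj_mem hq

theorem ncard_quartets_base : (Cfsg.quartets baseDod).ncard = 220 := by
  have hset : Cfsg.quartets baseDod = (fun i => denQ (qObj i)) '' (↑(Finset.range 220) : Set ℕ) := by
    ext Q
    rw [quartets_base_iff]
    constructor
    · rintro ⟨q, hq, rfl⟩
      exact ⟨q, Finset.mem_coe.mpr (Finset.mem_range.mpr hq), rfl⟩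
    · rintro ⟨q, hq, rfl⟩
      exact ⟨q, Finset.mem_range.mp (Finset.mem_coe.mp hq), rfl⟩
  rw [hset, Set.InjOn.ncard_image, Set.ncard_coe_finset, Finset.card_range]
  intro i hi j hj e
  exact qObj_inj i (Finset.mem_range.mp (Finset.mem_coe.mp hi)) j
    (Finset.mem_range.mp (Finset.mem_coe.mp hj)) e

/-! ### The stabiliser of the base dodecad is transitive on its quartets -/

/-- The stabiliser of the base dodecad in the group of the code. -/
noncomputable def dqG : Subgroup (Equiv.Perm Cfsg.GolayPt) :=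
  Cfsg.M24 ⊓ MulAction.stabilizer (Equiv.Perm Cfsg.GolayPt) baseDod

/-- The stabiliser of the base dodecad and the first quartet in the group of the code. -/
noncomputable def dqH : Subgroup (Equiv.Perm Cfsg.GolayPt) :=
  Cfsg.M24 ⊓ MulAction.stabilizer (Equiv.Perm Cfsg.GolayPt) baseDod ⊓
    MulAction.stabilizer (Equiv.Perm Cfsg.GolayPt) (denQ (qObj 0))

/-- Elements of the stabiliser of the base dodecad. -/
noncomputable def qgGens : List (Equiv.Perm Cfsg.GolayPt) := qgWords.map (evalW letters2)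

/-- Elements of the stabiliser of the base dodecad and the first quartet. -/
noncomputable def qhGens : List (Equiv.Perm Cfsg.GolayPt) := qhWords.map (evalW letters2)

theorem qgGens_rep : List.Forall₂ (fun σ t => RepT σ⁻¹ t) qgGens qgTinv := by
  rw [← qgTinv_eq]
  exact rep_inv_words qgWords

theorem qhGens_rep : List.Forall₂ (fun σ t => RepT σ⁻¹ t) qhGens qhTinv := by
  rw [← qhTinv_eq]
  exact rep_inv_words qhWords

theorem qgGens_mem : ∀ σ ∈ qgGens, σ ∈ dqG := by
  intro σ hσ
  have hM : σ ∈ Cfsg.M24 := words_mem_M24 qgWords σ hσ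
  refine ⟨hM, ?_⟩
  obtain ⟨t, ht, hR⟩ := forall₂_mem_left qgGens_rep hσ
  show σ • baseDod = baseDod
  have h1 := List.all_eq_true.mp qgFix t ht
  rw [beq_iff_eq] at h1
  rw [baseDod, smul_setOf hR, h1]

theorem qhGens_mem : ∀ σ ∈ qhGens, σ ∈ dqH := by
  intro σ hσ
  have hM : σ ∈ Cfsg.M24 := words_mem_M24 qhWords σ hσ
  obtain ⟨t, ht, hR⟩ := forall₂_mem_left qhGens_rep hσ
  have h1 := List.all_eq_true.mp qhFix t ht
  rw [Bool.and_eq_true, beq_iff_eq] at h1
  refine ⟨⟨hM, ?_⟩, ?_⟩
  · show σ • baseDod = baseDod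
    rw [baseDod, smul_setOf hR, h1.1]
  · show σ • denQ (qObj 0) = denQ (qObj 0)
    rw [smul_denQ hR]
    exact relQ_sound _ _ h1.2

theorem quartet_trans_base : ∀ i < 220, ∀ j < 220,
    ∃ u ∈ dqG, u • denQ (qObj i) = denQ (qObj j) := by
  intro i hi j hj
  exact cert_trans dqG denQ actQ relQ (fun _ _ _ c hR => smul_denQ hR c) relQ_sound qgGens_rep
    qgGens_mem 220 qObj (fun _ => 0) qgPar qgGen qgDep (fun _ => 0) qgChk i hi j hj rfl

theorem quartet_trans_H : ∀ i < 220, ∀ j < 220, qhLab i = qhLab j →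
    ∃ u ∈ dqH, u • denQ (qObj i) = denQ (qObj j) :=
  cert_trans dqH denQ actQ relQ (fun _ _ _ c hR => smul_denQ hR c) relQ_sound qhGens_rep
    qhGens_mem 220 qObj qhLab qhPar qhGen qhDep qhRoot qhChk

/-! ### Reduction of a dodecad with a quartet to the base pair -/

/-- Every dodecad with one of its quartets is the image of the base pair. -/
theorem exists_base_quartet {d : Finset Cfsg.GolayPt} (hd : d ∈ Cfsg.dodecads)
    {Q : Finset (Finset Cfsg.GolayPt)} (hQ : Q ∈ Cfsg.quartets d) :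
    ∃ g ∈ Cfsg.M24, g • baseDod = d ∧ g • denQ (qObj 0) = Q := by
  obtain ⟨g₁, hg₁⟩ := Cfsg.Agent.Lib.Helper6.M12.dodecad_transitive baseDod_mem hd
  have hg₁' : (g₁ : Equiv.Perm Cfsg.GolayPt) • baseDod = d := hg₁
  have h1 : (g₁ : Equiv.Perm Cfsg.GolayPt)⁻¹ • Q ∈ Cfsg.quartets baseDod := by
    have h2 := quartets_smul (Cfsg.M24.inv_mem g₁.2) hQ
    rwa [← hg₁', inv_smul_smul] at h2
  obtain ⟨q, hq, hQq⟩ := (quartets_base_iff _).mp h1
  obtain ⟨u, hu, hu2⟩ := quartet_trans_base 0 (by norm_num) q hq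
  refine ⟨g₁ * u, Cfsg.M24.mul_mem g₁.2 hu.1, ?_, ?_⟩
  · have hu3 : u • baseDod = baseDod := hu.2
    rw [mul_smul, hu3, hg₁']
  · rw [mul_smul, hu2, ← hQq, smul_inv_smul]

theorem exists_base_dod {d : Finset Cfsg.GolayPt} (hd : d ∈ Cfsg.dodecads) :
    ∃ g ∈ Cfsg.M24, g • baseDod = d := by
  obtain ⟨g₁, hg₁⟩ := Cfsg.Agent.Lib.Helper6.M12.dodecad_transitive baseDod_mem hd
  exact ⟨g₁, g₁.2, hg₁⟩

/-- The quartets of the image of a dodecad are the images of its quartets. -/
theorem quartets_smul_iff {g : Equiv.Perm Cfsg.GolayPt} (hg : g ∈ Cfsg.M24)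
    (d : Finset Cfsg.GolayPt) (Q : Finset (Finset Cfsg.GolayPt)) :
    Q ∈ Cfsg.quartets (g • d) ↔ g⁻¹ • Q ∈ Cfsg.quartets d := by
  constructor
  · intro h
    have h1 := quartets_smul (Cfsg.M24.inv_mem hg) h
    rwa [inv_smul_smul] at h1
  · intro h
    have h1 := quartets_smul hg h
    rwa [smul_inv_smul] at h1

end Cfsg.Agent.Lib.Helper26
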