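import Cfsg.Agent.Lib.Helper26.Quartet
import Cfsg.Agent.Lib.Helper26.QuartData

set_option autoImplicit false

open scoped Pointwise

namespace Cfsg.Agent.Lib.Helper26

open Cfsg.Agent.Lib.Helper7 Cfsg.Agent.Lib.Helper93

/-- The hexads of the base dodecad. -/
def hexL (k : ℕ) : ℕ := fld hexBig 24 0 24 k

/-- Indices of octads cutting the base dodecad in the hexads. -/
def hexK (k : ℕ) : ℕ := fld hexKBig 12 0 12 k

/-- The triples of points of the base dodecad. -/
def triL (i : ℕ) : ℕ := fld triBig 24 0 24 i

/-- The quartets of the base dodecad. -/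
def qObj (i : ℕ) : ℕ := fld qBig 160 0 96 i

/-- Class of a quartet under the stabiliser of the base dodecad and the first quartet. -/
def qhLab (i : ℕ) : ℕ := fld qBig 160 96 3 i

/-- Parent of a quartet (stabiliser of the base dodecad and the first quartet). -/
def qhPar (i : ℕ) : ℕ := fld qBig 160 99 8 i

/-- Generator leading to a quartet (stabiliser of the base dodecad and the first quartet). -/
def qhGen (i : ℕ) : ℕ := fld qBig 160 107 4 i

/-- Depth of a quartet (stabiliser of the base dodecad and the first quartet). -/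
def qhDep (i : ℕ) : ℕ := fld qBig 160 111 8 i

/-- Parent of a quartet (stabiliser of the base dodecad). -/
def qgPar (i : ℕ) : ℕ := fld qBig 160 119 8 i

/-- Generator leading to a quartet (stabiliser of the base dodecad). -/
def qgGen (i : ℕ) : ℕ := fld qBig 160 127 4 i

/-- Depth of a quartet (stabiliser of the base dodecad). -/
def qgDep (i : ℕ) : ℕ := fld qBig 160 131 8 i

/-- Root position of a class of quartets. -/
def qhRoot (l : ℕ) : ℕ := qhRoots.getD l 0

/-- The bitmask is one of the hexads of the base dodecad. -/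
def isHex (m : ℕ) : Bool := anyB (fun k => hexL k == m) 132

theorem hexL_lt (k : ℕ) : hexL k < 2 ^ 24 := Nat.mod_lt _ (by norm_num)

set_option maxRecDepth 1000000 in
theorem hex_chk1 : allB (fun k => popc (enc (hexK k)) == 8 &&
    (enc (hexK k) &&& 28637 == hexL k) && popc (hexL k) == 6 && decide (hexK k < 4096)) 132
      = true := by
  decide +kernel

set_option maxRecDepth 1000000 in
theorem hex_chk2 : allB (fun k => !(popc (enc k) == 8 && popc (enc k &&& 28637) == 6) ||
    isHex (enc k &&& 28637)) 4096 = true := by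
  decide +kernel

theorem hexOn_of_isHex {m : ℕ} (h : isHex m = true) :
    Cfsg.Agent.Lib.Helper7.setOf m ∈ Cfsg.hexadsOn baseDod := by
  obtain ⟨k, hk, hkm⟩ := anyB_iff.mp h
  rw [beq_iff_eq] at hkm
  have h1 := allB_spec hex_chk1 k hk
  simp only [Bool.and_eq_true, beq_iff_eq, decide_eq_true_eq] at h1
  obtain ⟨⟨⟨h8, hand⟩, h6⟩, hlt⟩ := h1
  refine ⟨by rw [card_setOf, ← hkm, h6], Cfsg.Agent.Lib.Helper7.setOf (enc (hexK k)),
    (mem_octads_iff_enc _).mpr ⟨hexK k, hlt, h8, rfl⟩, ?_⟩
  rw [baseDod, setOf_inter, hand, hkm]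

theorem hexOn_exists {h : Finset Cfsg.GolayPt} (hh : h ∈ Cfsg.hexadsOn baseDod) :
    ∃ k < 132, h = Cfsg.Agent.Lib.Helper7.setOf (hexL k) := by
  obtain ⟨hc, o, ho, hod⟩ := hh
  obtain ⟨k, hk, h8, rfl⟩ := (mem_octads_iff_enc o).mp ho
  rw [baseDod, setOf_inter] at hod
  have h6 : popc (enc k &&& 28637) = 6 := by rw [← card_setOf, hod, hc]
  have h2 := allB_spec hex_chk2 k hk
  rw [h8, h6] at h2
  simp only [beq_self_eq_true, Bool.and_self, Bool.not_true, Bool.false_or] at h2
  obtain ⟨j, hj, hjm⟩ := anyB_iff.mp h2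
  rw [beq_iff_eq] at hjm
  exact ⟨j, hj, by rw [hjm, hod]⟩

theorem isHex_of_hexOn {m : ℕ} (hm : m < 2 ^ 24)
    (h : Cfsg.Agent.Lib.Helper7.setOf m ∈ Cfsg.hexadsOn baseDod) : isHex m = true := by
  obtain ⟨k, hk, e⟩ := hexOn_exists h
  have e' := setOf_injective hm (hexL_lt k) e
  exact anyB_iff.mpr ⟨k, hk, by rw [beq_iff_eq, e']⟩

/-- A code of a quartet of the base dodecad, in normal form. -/
def goodQ (c : ℕ) : Bool :=
  sortedQ c && allB (fun k => popc (qf c k) == 3 && (qf c k &&& 28637 == qf c k)) 4 &&
    allB (fun k => allB (fun j => k == j || isHex (qf c k ||| qf c j)) 4) 4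

theorem qf_strict {c : ℕ} (h : sortedQ c = true) : ∀ k < 4, ∀ j < 4, qf c k = qf c j → k = j := by
  unfold sortedQ at h
  simp only [Bool.and_eq_true, decide_eq_true_eq] at h
  obtain ⟨⟨⟨-, h01⟩, h12⟩, h23⟩ := h
  intro k hk j hj e
  interval_cases k <;> interval_cases j <;> first | rfl | omega

theorem denQ_mem {c : ℕ} (h : goodQ c = true) : denQ c ∈ Cfsg.quartets baseDod := by
  unfold goodQ at h
  simp only [Bool.and_eq_true] at h
  obtain ⟨⟨hs, h3⟩, hh⟩ := h
  refine ⟨?_, ?_, ?_⟩
  · unfold denQ
    rw [Finset.card_image_of_injOn, Finset.card_range]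
    intro k hk j hj e
    exact qf_strict hs k (Finset.mem_range.mp (Finset.mem_coe.mp hk)) j
      (Finset.mem_range.mp (Finset.mem_coe.mp hj)) (setOf_injective (qf_lt c k) (qf_lt c j) e)
  · intro t ht
    obtain ⟨k, hk, rfl⟩ := (mem_denQ c t).mp ht
    have h4 := allB_spec h3 k hk
    simp only [Bool.and_eq_true, beq_iff_eq] at h4
    exact ⟨by rw [card_setOf, h4.1], setOf_subset_of_and h4.2⟩
  · intro t ht u hu hne
    obtain ⟨k, hk, rfl⟩ := (mem_denQ c t).mp ht
    obtain ⟨j, hj, rfl⟩ := (mem_denQ c u).mp hu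
    have h4 := allB_spec (allB_spec hh k hk) j hj
    simp only [Bool.or_eq_true, beq_iff_eq] at h4
    rcases h4 with h4 | h4
    · exact absurd (by rw [h4]) hne
    · rw [← setOf_union]
      exact hexOn_of_isHex h4

set_option maxRecDepth 1000000 in
theorem qGood : allB (fun i => goodQ (qObj i)) 220 = true := by
  decide +kernel

set_option maxRecDepth 1000000 in
theorem qSorted : allB (fun i => decide (qObj i < qObj (i + 1))) (220 - 1) = true := by
  decide +kernel

theorem qObj_mem {i : ℕ} (hi : i < 220) : denQ (qObj i) ∈ Cfsg.quartets baseDod :=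
  denQ_mem (allB_spec qGood i hi)

theorem qObj_inj : ∀ i < 220, ∀ j < 220, denQ (qObj i) = denQ (qObj j) → i = j := by
  intro i hi j hj h
  have h1 := allB_spec qGood i hi
  have h2 := allB_spec qGood j hj
  unfold goodQ at h1 h2
  simp only [Bool.and_eq_true] at h1 h2
  exact inj_of_sorted qSorted i hi j hj (denQ_inj h1.1.1 h2.1.1 h)

/-! ### Certificates for the two stabilisers -/

theorem qgTinv_eq : qgWords.map (fun w => invT (evalT ltabs2 w)) = qgTinv := by
  decide +kernel

theorem qhTinv_eq : qhWords.map (fun w => invT (evalT ltabs2 w)) = qhTinv := by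
  decide +kernel

theorem qgFix : qgTinv.all (fun t => permT t 28637 == 28637) = true := by
  decide +kernel

theorem qhFix : qhTinv.all (fun t => permT t 28637 == 28637 && relQ (actQ t (qObj 0)) (qObj 0))
    = true := by
  decide +kernel

set_option maxRecDepth 1000000 in
theorem qgChk : allB (stepOK actQ relQ qgTinv 220 qObj (fun _ => 0) qgPar qgGen qgDep
    (fun _ => 0)) 220 = true := by
  decide +kernel

set_option maxRecDepth 1000000 in
theorem qhChk : allB (stepOK actQ relQ qhTinv 220 qObj qhLab qhPar qhGen qhDep qhRoot) 220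
    = true := by
  decide +kernel

set_option maxRecDepth 1000000 in
theorem qhLabs : allB (fun i => decide (qhLab i < 5)) 220 = true := by
  decide +kernel

set_option maxRecDepth 1000000 in
theorem qhCounts : cntL (fun i => qhLab i == 0) 220 = 1 ∧ cntL (fun i => qhLab i == 1) 220 = 12 ∧
    cntL (fun i => qhLab i == 2) 220 = 27 ∧ cntL (fun i => qhLab i == 3) 220 = 72 ∧
    cntL (fun i => qhLab i == 4) 220 = 108 := by
  refine ⟨?_, ?_, ?_, ?_, ?_⟩ <;> decide +kernel

/-! ### Checks on the triples -/

set_option maxRecDepth 1000000 in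
theorem triOK : allB (fun i => popc (triL i) == 3 && (triL i &&& 28637 == triL i) &&
    decide (triL i < triL (i + 1) ∨ i = 219)) 220 = true := by
  decide +kernel

/-- The quartet of the table containing a triple and the rest of a hexad containing it. -/
def exq (a i : ℕ) : ℕ := fld exBig 8 0 8 (220 * a + i)

/-- The bitmask is a field of the quartet number `q`. -/
def memQ (x q : ℕ) : Bool := anyB (fun k => qf (qObj q) k == x) 4

/-- For a triple inside a hexad: the quartet of the table contains the triple and the rest of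
the hexad, and every triple forming hexads with both is in that quartet. -/
def exOK : Bool := allB (fun a => allB (fun i => !(hexL a &&& triL i == triL i) ||
  (decide (exq a i < 220) && memQ (triL i) (exq a i) && memQ (hexL a ^^^ triL i) (exq a i) &&
    allB (fun b => !(hexL b &&& triL i == triL i) || !((hexL b ^^^ triL i) &&& hexL a == 0) ||
      !(isHex ((hexL a ^^^ triL i) ||| (hexL b ^^^ triL i))) ||
      memQ (hexL b ^^^ triL i) (exq a i)) 132)) 220) 132

set_option maxRecDepth 1000000 in
theorem exOK_eq : exOK = true := by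
  decide +kernel

end Cfsg.Agent.Lib.Helper26
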