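import Cfsg.Agent.Lib.Helper26.QuartBase

set_option autoImplicit false

open scoped Pointwise

namespace Cfsg.Agent.Lib.Helper26

open Cfsg.Agent.Lib.Helper7 Cfsg.Agent.Lib.Helper93

/-- The number of quartets of a dodecad. -/
theorem ncard_quartets {d : Finset Cfsg.GolayPt} (hd : d ∈ Cfsg.dodecads) :
    (Cfsg.quartets d).ncard = 220 := by
  obtain ⟨g, hg, rfl⟩ := exists_base_dod hd
  have hset : Cfsg.quartets (g • baseDod) = (fun Q => g • Q) '' Cfsg.quartets baseDod := by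
    ext Q
    rw [quartets_smul_iff hg]
    constructor
    · intro h
      exact ⟨g⁻¹ • Q, h, smul_inv_smul g Q⟩
    · rintro ⟨Q', hQ', rfl⟩
      show g⁻¹ • g • Q' ∈ Cfsg.quartets baseDod
      rw [inv_smul_smul]
      exact hQ'
  rw [hset, Set.ncard_image_of_injective _ (MulAction.injective g), ncard_quartets_base]

/-- The stabiliser of a dodecad is transitive on its quartets. -/
theorem quartet_transitive {d : Finset Cfsg.GolayPt} (hd : d ∈ Cfsg.dodecads)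
    {Q Q' : Finset (Finset Cfsg.GolayPt)} (hQ : Q ∈ Cfsg.quartets d)
    (hQ' : Q' ∈ Cfsg.quartets d) :
    ∃ g : Equiv.Perm Cfsg.GolayPt, g ∈ Cfsg.M24 ∧ g • d = d ∧ g • Q = Q' := by
  obtain ⟨g, hg, rfl⟩ := exists_base_dod hd
  obtain ⟨i, hi, hQi⟩ := (quartets_base_iff _).mp ((quartets_smul_iff hg _ _).mp hQ)
  obtain ⟨j, hj, hQj⟩ := (quartets_base_iff _).mp ((quartets_smul_iff hg _ _).mp hQ')
  obtain ⟨u, hu, hu2⟩ := quartet_trans_base i hi j hj
  have hu3 : u • baseDod = baseDod := hu.2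
  refine ⟨g * u * g⁻¹, Cfsg.M24.mul_mem (Cfsg.M24.mul_mem hg hu.1) (Cfsg.M24.inv_mem hg), ?_, ?_⟩
  · rw [mul_smul, mul_smul, inv_smul_smul, hu3]
  · rw [mul_smul, mul_smul, hQi, hu2, ← hQj, smul_inv_smul]

/-- The stabiliser of a dodecad and one of its quartets has order 432. -/
theorem card_stab_quartet {d : Finset Cfsg.GolayPt} (hd : d ∈ Cfsg.dodecads)
    {Q : Finset (Finset Cfsg.GolayPt)} (hQ : Q ∈ Cfsg.quartets d) :
    Nat.card ↥(MulAction.stabilizer (↥Cfsg.M24) d ⊓ MulAction.stabilizer (↥Cfsg.M24) Q) = 432 := by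
  have horb : MulAction.orbit ↥(MulAction.stabilizer (↥Cfsg.M24) d) Q = Cfsg.quartets d := by
    ext Q'
    constructor
    · rintro ⟨a, rfl⟩
      have h1 := quartets_smul a.1.2 hQ
      have h2 : ((a : ↥Cfsg.M24) : Equiv.Perm Cfsg.GolayPt) • d = d := a.2
      rw [h2] at h1
      exact h1
    · intro hQ'
      obtain ⟨g, hg, hgd, hgQ⟩ := quartet_transitive hd hQ hQ'
      exact ⟨⟨⟨g, hg⟩, hgd⟩, hgQ⟩
  have h1 := Subgroup.card_mul_index
    (MulAction.stabilizer ↥(MulAction.stabilizer (↥Cfsg.M24) d) Q)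
  rw [MulAction.index_stabilizer, horb, ncard_quartets hd,
    Cfsg.Agent.Lib.Helper6.M12.card_stab_dodecad hd] at h1
  have e : ↥(MulAction.stabilizer ↥(MulAction.stabilizer (↥Cfsg.M24) d) Q) ≃
      ↥(MulAction.stabilizer (↥Cfsg.M24) d ⊓ MulAction.stabilizer (↥Cfsg.M24) Q) :=
    { toFun := fun x => ⟨x.1.1, ⟨x.1.2, x.2⟩⟩
      invFun := fun y => ⟨⟨y.1, y.2.1⟩, y.2.2⟩
      left_inv := fun _ => rfl
      right_inv := fun _ => rfl }
  rw [← Nat.card_congr e]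
  omega

/-- Sizes of the orbits of the stabiliser of a dodecad and a quartet on the quartets. -/
def qN (i : ℕ) : ℕ :=
  if i = 0 then 1 else if i = 1 then 12 else if i = 2 then 27 else if i = 3 then 72
  else if i = 4 then 108 else 0

theorem orbLev_base_quartet : ∃ c : Finset (Finset Cfsg.GolayPt) → ℕ,
    OrbLev ↥(MulAction.stabilizer (↥Cfsg.M24) baseDod ⊓
      MulAction.stabilizer (↥Cfsg.M24) (denQ (qObj 0))) (Cfsg.quartets baseDod) c
      (Finset.range 5) qN := by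
  obtain ⟨c, hsub⟩ := orbLev_of_labels
    (H := ↥(MulAction.stabilizer (↥Cfsg.M24) baseDod ⊓
      MulAction.stabilizer (↥Cfsg.M24) (denQ (qObj 0))))
    (Cfsg.quartets baseDod) (Set.toFinite _)
    (fun h y hy => by
      have h1 := quartets_smul h.1.2 hy
      have h2 : ((h : ↥Cfsg.M24) : Equiv.Perm Cfsg.GolayPt) • baseDod = baseDod := h.2.1
      rw [h2] at h1
      exact h1) 220
    (fun i => denQ (qObj i)) qhLab (fun i hi => qObj_mem hi) ncard_quartets_base qObj_inj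
    (fun i hi j hj hij => by
      obtain ⟨u, hu, huij⟩ := quartet_trans_H i hi j hj hij
      exact ⟨⟨⟨u, hu.1.1⟩, ⟨hu.1.2, hu.2⟩⟩, huij⟩)
    (Finset.range 5) (fun i hi => Finset.mem_range.mpr (by simpa using allB_spec qhLabs i hi))
  refine ⟨c, hsub.congr_n ?_⟩
  intro j hj
  rw [cntL_eq']
  obtain ⟨h0, h1, h2, h3, h4⟩ := qhCounts
  rw [Finset.mem_range] at hj
  interval_cases j
  · exact h0
  · exact h1
  · exact h2
  · exact h3
  · exact h4

/-- The orbits of the stabiliser of a dodecad and a quartet on the quartets. -/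
theorem orbLev_quartet {d : Finset Cfsg.GolayPt} (hd : d ∈ Cfsg.dodecads)
    {Q : Finset (Finset Cfsg.GolayPt)} (hQ : Q ∈ Cfsg.quartets d) :
    ∃ c : Finset (Finset Cfsg.GolayPt) → ℕ,
      OrbLev ↥(MulAction.stabilizer (↥Cfsg.M24) d ⊓ MulAction.stabilizer (↥Cfsg.M24) Q)
        (Cfsg.quartets d) c (Finset.range 5) qN := by
  obtain ⟨c, h⟩ := orbLev_base_quartet
  obtain ⟨g, hg, rfl, rfl⟩ := exists_base_quartet hd hQ
  refine ⟨_, OrbLev.conj (G := ↥Cfsg.M24) (⟨g, hg⟩ : ↥Cfsg.M24) ?_ ?_ ?_ ?_ h⟩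
  · intro k hk
    have hk1 : k • baseDod = baseDod := hk.1
    have hk2 : k • denQ (qObj 0) = denQ (qObj 0) := hk.2
    constructor
    · show ((⟨g, hg⟩ : ↥Cfsg.M24) * k * (⟨g, hg⟩ : ↥Cfsg.M24)⁻¹) • (⟨g, hg⟩ : ↥Cfsg.M24) • baseDod
        = (⟨g, hg⟩ : ↥Cfsg.M24) • baseDod
      rw [mul_smul, inv_smul_smul, mul_smul, hk1]
    · show ((⟨g, hg⟩ : ↥Cfsg.M24) * k * (⟨g, hg⟩ : ↥Cfsg.M24)⁻¹) •
        (⟨g, hg⟩ : ↥Cfsg.M24) • denQ (qObj 0) = (⟨g, hg⟩ : ↥Cfsg.M24) • denQ (qObj 0)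
      rw [mul_smul, inv_smul_smul, mul_smul, hk2]
  · intro y hy
    exact quartets_smul hg hy
  · intro y hy
    exact (quartets_smul_iff hg _ _).mp hy
  · intro k hk y hy
    have h1 := quartets_smul k.2 hy
    have h2 : (k : Equiv.Perm Cfsg.GolayPt) • g • baseDod = g • baseDod := hk.1
    rw [h2] at h1
    exact h1

end Cfsg.Agent.Lib.Helper26
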