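import Cfsg.Agent.Lib.Helper26.SextetOrb
import Cfsg.Agent.Lib.Helper26.SxStrData
import Cfsg.Agent.S1554

set_option autoImplicit false

open scoped Pointwise

namespace Cfsg.Agent.Lib.Helper26

open Cfsg.Agent.Lib.Helper7 Cfsg.Agent.Lib.Helper93

theorem perm_inv_apply {α : Type*} (σ : Equiv.Perm α) (x : α) : σ⁻¹ (σ x) = x :=
  Equiv.symm_apply_apply σ x

theorem perm_apply_inv {α : Type*} (σ : Equiv.Perm α) (x : α) : σ (σ⁻¹ x) = x :=
  Equiv.apply_symm_apply σ x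

/-! ### Sextets: basic facts -/

theorem sextet_disjoint {S : Finset (Finset Cfsg.GolayPt)} (hS : S ∈ Cfsg.sextets)
    {t u : Finset Cfsg.GolayPt} (ht : t ∈ S) (hu : u ∈ S) (h : t ≠ u) : Disjoint t u := by
  have h8 : (t ∪ u).card = 8 := (hS.2.2 t ht u hu h).2
  have h1 := Finset.card_union_add_card_inter t u
  rw [h8, hS.2.1 t ht, hS.2.1 u hu] at h1
  rw [Finset.disjoint_iff_inter_eq_empty, ← Finset.card_eq_zero]
  omega

theorem sextet_cover {S : Finset (Finset Cfsg.GolayPt)} (hS : S ∈ Cfsg.sextets)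
    (x : Cfsg.GolayPt) : ∃ t ∈ S, x ∈ t := by
  classical
  have hcard : (S.biUnion id).card = 24 := by
    rw [Finset.card_biUnion]
    · have h4 : ∀ t ∈ S, (id t).card = 4 := hS.2.1
      rw [Finset.sum_congr rfl h4]
      simp [hS.1]
    · intro t ht u hu h
      exact sextet_disjoint hS ht hu h
  have huniv : S.biUnion id = Finset.univ :=
    Finset.eq_univ_of_card _ (by rw [hcard, card_golayPt])
  have hx : x ∈ S.biUnion id := by
    rw [huniv]
    exact Finset.mem_univ x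
  obtain ⟨t, ht, hxt⟩ := Finset.mem_biUnion.mp hx
  exact ⟨t, ht, hxt⟩

/-! ### Swapping two tetrads -/

/-- Any two tetrads of `S` are swapped by an element of the group of the code fixing the others. -/
def SwapProp (S : Finset (Finset Cfsg.GolayPt)) : Prop :=
  ∀ a ∈ S, ∀ b ∈ S, ∃ g ∈ Cfsg.M24, g • a = b ∧ g • b = a ∧ ∀ t ∈ S, t ≠ a → t ≠ b → g • t = t

theorem SwapProp.smul {S : Finset (Finset Cfsg.GolayPt)} (h : SwapProp S)
    {σ : Equiv.Perm Cfsg.GolayPt} (hσ : σ ∈ Cfsg.M24) : SwapProp (σ • S) := by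
  intro a ha b hb
  obtain ⟨a', ha', rfl⟩ := Finset.mem_smul_finset.mp ha
  obtain ⟨b', hb', rfl⟩ := Finset.mem_smul_finset.mp hb
  obtain ⟨g, hg, hab, hba, hfix⟩ := h a' ha' b' hb'
  refine ⟨σ * g * σ⁻¹, Cfsg.M24.mul_mem (Cfsg.M24.mul_mem hσ hg) (Cfsg.M24.inv_mem hσ), ?_, ?_, ?_⟩
  · rw [mul_smul, mul_smul, inv_smul_smul, hab]
  · rw [mul_smul, mul_smul, inv_smul_smul, hba]
  · intro t ht hta htb
    obtain ⟨t', ht', rfl⟩ := Finset.mem_smul_finset.mp ht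
    rw [mul_smul, mul_smul, inv_smul_smul,
      hfix t' ht' (fun h => hta (by rw [h])) (fun h => htb (by rw [h]))]

/-- An element with the swapping property stabilises the set. -/
theorem smul_eq_of_swap {S : Finset (Finset Cfsg.GolayPt)} {g : Equiv.Perm Cfsg.GolayPt}
    {a b : Finset Cfsg.GolayPt} (ha : a ∈ S) (hb : b ∈ S) (hab : g • a = b) (hba : g • b = a)
    (hfix : ∀ t ∈ S, t ≠ a → t ≠ b → g • t = t) : g • S = S := by
  apply Finset.eq_of_subset_of_card_le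
  · intro t ht
    obtain ⟨u, hu, rfl⟩ := Finset.mem_smul_finset.mp ht
    by_cases h1 : u = a
    · rw [h1, hab]
      exact hb
    · by_cases h2 : u = b
      · rw [h2, hba]
        exact ha
      · rw [hfix u hu h1 h2]
        exact hu
  · rw [Finset.card_smul_finset]

/-! ### Elements acting on each tetrad as a translation -/

/-- The permutation `g` preserves each splitting of a tetrad of `S` into two pairs. -/
def InN (S : Finset (Finset Cfsg.GolayPt)) (g : Equiv.Perm Cfsg.GolayPt) : Prop :=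
  ∀ t ∈ S, ∀ d ⊆ t, d.card = 2 → g • d = d ∨ g • d = t \ d

theorem InN.one (S : Finset (Finset Cfsg.GolayPt)) : InN S 1 :=
  fun _ _ d _ _ => Or.inl (one_smul _ d)

theorem InN.mul {S : Finset (Finset Cfsg.GolayPt)} (hS : ∀ t ∈ S, t.card = 4)
    {g h : Equiv.Perm Cfsg.GolayPt} (hg : InN S g) (hh : InN S h) : InN S (g * h) := by
  intro t ht d hd hd2
  rw [mul_smul]
  rcases hh t ht d hd hd2 with h1 | h1
  · rw [h1]
    exact hg t ht d hd hd2
  · rw [h1]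
    have hc : (t \ d).card = 2 := by rw [Finset.card_sdiff_of_subset hd, hS t ht, hd2]
    rcases hg t ht (t \ d) Finset.sdiff_subset hc with h2 | h2
    · exact Or.inr h2
    · left
      rw [h2, Finset.sdiff_sdiff_eq_self hd]

theorem InN.apply_mem {S : Finset (Finset Cfsg.GolayPt)} (hS : ∀ t ∈ S, t.card = 4)
    {g : Equiv.Perm Cfsg.GolayPt} (hg : InN S g) {t : Finset Cfsg.GolayPt} (ht : t ∈ S)
    {x : Cfsg.GolayPt} (hx : x ∈ t) : g x ∈ t := by
  have h1 : 1 < t.card := by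
    rw [hS t ht]
    norm_num
  obtain ⟨y, hy, hyx⟩ := Finset.exists_mem_ne h1 x
  have hd : ({x, y} : Finset Cfsg.GolayPt) ⊆ t := by
    intro z hz
    rw [Finset.mem_insert, Finset.mem_singleton] at hz
    rcases hz with rfl | rfl <;> assumption
  have hd2 : ({x, y} : Finset Cfsg.GolayPt).card = 2 := Finset.card_pair hyx.symm
  have hgx : g x ∈ g • ({x, y} : Finset Cfsg.GolayPt) :=
    Finset.smul_mem_smul_finset (Finset.mem_insert_self x _)
  rcases hg t ht _ hd hd2 with h2 | h2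
  · rw [h2] at hgx
    exact hd hgx
  · rw [h2] at hgx
    exact (Finset.mem_sdiff.mp hgx).1

theorem InN.fix {S : Finset (Finset Cfsg.GolayPt)}
    {g : Equiv.Perm Cfsg.GolayPt} (hg : InN S g) {t : Finset Cfsg.GolayPt} (ht : t ∈ S)
    {p : Cfsg.GolayPt} (hp : p ∈ t) (hgp : g p = p) {q : Cfsg.GolayPt} (hq : q ∈ t) :
    g q = q := by
  by_contra hne
  have hpq : p ≠ q := by
    rintro rfl
    exact hne hgp
  have hd : ({p, q} : Finset Cfsg.GolayPt) ⊆ t := by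
    intro z hz
    rw [Finset.mem_insert, Finset.mem_singleton] at hz
    rcases hz with rfl | rfl <;> assumption
  have hd2 : ({p, q} : Finset Cfsg.GolayPt).card = 2 := Finset.card_pair hpq
  have hsm : g • ({p, q} : Finset Cfsg.GolayPt) = {p, g q} := by
    rw [Finset.smul_finset_insert, Finset.smul_finset_singleton, Equiv.Perm.smul_def,
      Equiv.Perm.smul_def, hgp]
  rcases hg t ht _ hd hd2 with h1 | h1
  · rw [hsm] at h1
    have h2 : g q ∈ ({p, q} : Finset Cfsg.GolayPt) := by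
      rw [← h1]
      simp
    rw [Finset.mem_insert, Finset.mem_singleton] at h2
    rcases h2 with h2 | h2
    · exact hpq (g.injective (hgp.trans h2.symm))
    · exact hne h2
  · rw [hsm] at h1
    have h2 : p ∈ t \ ({p, q} : Finset Cfsg.GolayPt) := by
      rw [← h1]
      simp
    simp at h2

theorem InN.sq {S : Finset (Finset Cfsg.GolayPt)} (hS : S ∈ Cfsg.sextets)
    {g : Equiv.Perm Cfsg.GolayPt} (hg : InN S g) : g * g = 1 := by
  refine Equiv.ext fun x => ?_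
  obtain ⟨t, ht, hx⟩ := sextet_cover hS x
  show g (g x) = x
  by_cases hgx : g x = x
  · rw [hgx, hgx]
  · have hy : g x ∈ t := hg.apply_mem hS.2.1 ht hx
    have hd : ({x, g x} : Finset Cfsg.GolayPt) ⊆ t := by
      intro z hz
      rw [Finset.mem_insert, Finset.mem_singleton] at hz
      rcases hz with rfl | rfl <;> assumption
    have hd2 : ({x, g x} : Finset Cfsg.GolayPt).card = 2 := Finset.card_pair (Ne.symm hgx)
    have hsm : g • ({x, g x} : Finset Cfsg.GolayPt) = {g x, g (g x)} := by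
      rw [Finset.smul_finset_insert, Finset.smul_finset_singleton, Equiv.Perm.smul_def,
        Equiv.Perm.smul_def]
    rcases hg t ht _ hd hd2 with h1 | h1
    · rw [hsm] at h1
      have h2 : g (g x) ∈ ({x, g x} : Finset Cfsg.GolayPt) := by
        rw [← h1]
        simp
      rw [Finset.mem_insert, Finset.mem_singleton] at h2
      rcases h2 with h2 | h2
      · exact h2
      · exact absurd (g.injective h2) hgx
    · rw [hsm] at h1
      have h2 : g x ∈ t \ ({x, g x} : Finset Cfsg.GolayPt) := by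
        rw [← h1]
        simp
      simp at h2

theorem InN.inv {S : Finset (Finset Cfsg.GolayPt)} (hS : S ∈ Cfsg.sextets)
    {g : Equiv.Perm Cfsg.GolayPt} (hg : InN S g) : InN S g⁻¹ := by
  rw [inv_eq_of_mul_eq_one_left (hg.sq hS)]
  exact hg

theorem InN.conj {S : Finset (Finset Cfsg.GolayPt)} {g : Equiv.Perm Cfsg.GolayPt}
    (hg : InN S g) (σ : Equiv.Perm Cfsg.GolayPt) : InN (σ • S) (σ * g * σ⁻¹) := by
  intro t ht d hd hd2
  obtain ⟨t', ht', rfl⟩ := Finset.mem_smul_finset.mp ht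
  have hd' : σ⁻¹ • d ⊆ t' := Finset.subset_smul_finset_iff.mp hd
  have hd2' : (σ⁻¹ • d).card = 2 := by rw [Finset.card_smul_finset, hd2]
  rw [mul_smul, mul_smul]
  rcases hg t' ht' _ hd' hd2' with h1 | h1
  · left
    rw [h1, smul_inv_smul]
  · right
    rw [h1, Finset.smul_finset_sdiff, smul_inv_smul]

theorem InN.smul_tet {S : Finset (Finset Cfsg.GolayPt)} (hS : ∀ t ∈ S, t.card = 4)
    {g : Equiv.Perm Cfsg.GolayPt} (hg : InN S g) {t : Finset Cfsg.GolayPt} (ht : t ∈ S) :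
    g • t = t := by
  apply Finset.eq_of_subset_of_card_le
  · intro y hy
    obtain ⟨x, hx, rfl⟩ := Finset.mem_smul_finset.mp hy
    exact hg.apply_mem hS ht hx
  · rw [Finset.card_smul_finset]

theorem InN.smul_set {S : Finset (Finset Cfsg.GolayPt)} (hS : ∀ t ∈ S, t.card = 4)
    {g : Equiv.Perm Cfsg.GolayPt} (hg : InN S g) : g • S = S := by
  ext t
  constructor
  · intro h
    obtain ⟨u, hu, rfl⟩ := Finset.mem_smul_finset.mp h
    rw [hg.smul_tet hS hu]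
    exact hu
  · intro h
    exact Finset.mem_smul_finset.mpr ⟨t, h, hg.smul_tet hS h⟩

/-- The elements acting on each tetrad as a translation are sharply transitive on the triples of
points of three tetrads. -/
def NTrans (S : Finset (Finset Cfsg.GolayPt)) : Prop :=
  ∃ t₁ ∈ S, ∃ t₂ ∈ S, ∃ t₃ ∈ S, t₁ ≠ t₂ ∧ t₃ ≠ t₁ ∧ t₃ ≠ t₂ ∧
    ∃ p₁ ∈ t₁, ∃ p₂ ∈ t₂, ∃ p₃ ∈ t₃, ∀ x₁ ∈ t₁, ∀ x₂ ∈ t₂, ∀ x₃ ∈ t₃,
      ∃ g ∈ Cfsg.M24, InN S g ∧ g p₁ = x₁ ∧ g p₂ = x₂ ∧ g p₃ = x₃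

theorem NTrans.smul {S : Finset (Finset Cfsg.GolayPt)} (h : NTrans S)
    {σ : Equiv.Perm Cfsg.GolayPt} (hσ : σ ∈ Cfsg.M24) : NTrans (σ • S) := by
  obtain ⟨t₁, ht₁, t₂, ht₂, t₃, ht₃, h12, h31, h32, p₁, hp₁, p₂, hp₂, p₃, hp₃, H⟩ := h
  refine ⟨σ • t₁, Finset.smul_mem_smul_finset ht₁, σ • t₂, Finset.smul_mem_smul_finset ht₂,
    σ • t₃, Finset.smul_mem_smul_finset ht₃, fun h => h12 (smul_left_cancel σ h),
    fun h => h31 (smul_left_cancel σ h), fun h => h32 (smul_left_cancel σ h),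
    σ p₁, Finset.smul_mem_smul_finset hp₁, σ p₂, Finset.smul_mem_smul_finset hp₂,
    σ p₃, Finset.smul_mem_smul_finset hp₃, ?_⟩
  intro x₁ hx₁ x₂ hx₂ x₃ hx₃
  obtain ⟨g, hg, hN, e1, e2, e3⟩ := H (σ⁻¹ x₁) (Finset.inv_smul_mem_iff.mpr hx₁)
    (σ⁻¹ x₂) (Finset.inv_smul_mem_iff.mpr hx₂) (σ⁻¹ x₃) (Finset.inv_smul_mem_iff.mpr hx₃)
  refine ⟨σ * g * σ⁻¹, Cfsg.M24.mul_mem (Cfsg.M24.mul_mem hσ hg) (Cfsg.M24.inv_mem hσ),
    hN.conj σ, ?_, ?_, ?_⟩
  · show σ (g (σ⁻¹ (σ p₁))) = x₁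
    rw [perm_inv_apply, e1, perm_apply_inv]
  · show σ (g (σ⁻¹ (σ p₂))) = x₂
    rw [perm_inv_apply, e2, perm_apply_inv]
  · show σ (g (σ⁻¹ (σ p₃))) = x₃
    rw [perm_inv_apply, e3, perm_apply_inv]

/-- The group of elements acting on each tetrad as a translation has order 64. -/
theorem card_of_NTrans {S : Finset (Finset Cfsg.GolayPt)} (hS : S ∈ Cfsg.sextets)
    (hT : NTrans S) (N : Subgroup ↥(MulAction.stabilizer (↥Cfsg.M24) S))
    (hN : ∀ g : ↥(MulAction.stabilizer (↥Cfsg.M24) S),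
      g ∈ N ↔ InN S ((g : ↥Cfsg.M24) : Equiv.Perm Cfsg.GolayPt)) : Nat.card N = 64 := by
  classical
  obtain ⟨t₁, ht₁, t₂, ht₂, t₃, ht₃, h12, h31, h32, p₁, hp₁, p₂, hp₂, p₃, hp₃, H⟩ := hT
  have hS4 := hS.2.1
  let f : ↥N → ↥t₁ × ↥t₂ × ↥t₃ := fun g =>
    (⟨((g : ↥(MulAction.stabilizer (↥Cfsg.M24) S)) : ↥Cfsg.M24).1 p₁,
        ((hN g.1).mp g.2).apply_mem hS4 ht₁ hp₁⟩,
      ⟨((g : ↥(MulAction.stabilizer (↥Cfsg.M24) S)) : ↥Cfsg.M24).1 p₂,
        ((hN g.1).mp g.2).apply_mem hS4 ht₂ hp₂⟩,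
      ⟨((g : ↥(MulAction.stabilizer (↥Cfsg.M24) S)) : ↥Cfsg.M24).1 p₃,
        ((hN g.1).mp g.2).apply_mem hS4 ht₃ hp₃⟩)
  have hbij : Function.Bijective f := by
    constructor
    · intro g g' hgg
      have e1 : g.1.1.1 p₁ = g'.1.1.1 p₁ := congrArg (fun z => (z.1 : Cfsg.GolayPt)) hgg
      have e2 : g.1.1.1 p₂ = g'.1.1.1 p₂ := congrArg (fun z => (z.2.1 : Cfsg.GolayPt)) hgg
      have e3 : g.1.1.1 p₃ = g'.1.1.1 p₃ := congrArg (fun z => (z.2.2 : Cfsg.GolayPt)) hgg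
      have hg := (hN g.1).mp g.2
      have hg' := (hN g'.1).mp g'.2
      have hh : InN S ((g.1.1.1)⁻¹ * g'.1.1.1) := (hg.inv hS).mul hS4 hg'
      have f1 : ((g.1.1.1)⁻¹ * g'.1.1.1) p₁ = p₁ := by
        show (g.1.1.1)⁻¹ (g'.1.1.1 p₁) = p₁
        rw [← e1, perm_inv_apply]
      have f2 : ((g.1.1.1)⁻¹ * g'.1.1.1) p₂ = p₂ := by
        show (g.1.1.1)⁻¹ (g'.1.1.1 p₂) = p₂
        rw [← e2, perm_inv_apply]
      have f3 : ((g.1.1.1)⁻¹ * g'.1.1.1) p₃ = p₃ := by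
        show (g.1.1.1)⁻¹ (g'.1.1.1 p₃) = p₃
        rw [← e3, perm_inv_apply]
      have ho : t₁ ∪ t₂ ∈ Cfsg.octads := hS.2.2 t₁ ht₁ t₂ ht₂ h12
      have hp3 : p₃ ∉ t₁ ∪ t₂ := by
        rw [Finset.mem_union]
        rintro (h | h)
        · exact Finset.disjoint_left.mp (sextet_disjoint hS ht₃ ht₁ h31) hp₃ h
        · exact Finset.disjoint_left.mp (sextet_disjoint hS ht₃ ht₂ h32) hp₃ h
      have hmem : (g.1.1.1)⁻¹ * g'.1.1.1 ∈ Cfsg.M24 ⊓
          fixingSubgroup (Equiv.Perm Cfsg.GolayPt) ((t₁ ∪ t₂ : Finset Cfsg.GolayPt) : Set Cfsg.GolayPt) := by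
        refine ⟨Cfsg.M24.mul_mem (Cfsg.M24.inv_mem g.1.1.2) g'.1.1.2, ?_⟩
        show (g.1.1.1)⁻¹ * g'.1.1.1 ∈ fixingSubgroup (Equiv.Perm Cfsg.GolayPt)
          ((t₁ ∪ t₂ : Finset Cfsg.GolayPt) : Set Cfsg.GolayPt)
        rw [mem_fixingSubgroup_iff]
        intro q hq
        rw [Finset.mem_coe, Finset.mem_union] at hq
        rcases hq with hq | hq
        · exact hh.fix ht₁ hp₁ f1 hq
        · exact hh.fix ht₂ hp₂ f2 hq
      have h1 := Cfsg.Agent.S1554.pointwise_free ho hmem hp3 f3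
      have h2 : g.1.1.1 = g'.1.1.1 := by
        rw [← mul_right_inj (g.1.1.1)⁻¹, inv_mul_cancel, h1]
      exact Subtype.ext (Subtype.ext (Subtype.ext h2))
    · rintro ⟨⟨x₁, hx₁⟩, ⟨x₂, hx₂⟩, ⟨x₃, hx₃⟩⟩
      obtain ⟨g, hg, hgN, e1, e2, e3⟩ := H x₁ hx₁ x₂ hx₂ x₃ hx₃
      have hst : (⟨g, hg⟩ : ↥Cfsg.M24) ∈ MulAction.stabilizer (↥Cfsg.M24) S :=
        hgN.smul_set hS4
      refine ⟨⟨⟨⟨g, hg⟩, hst⟩, (hN _).mpr hgN⟩, ?_⟩
      exact Prod.ext (Subtype.ext e1) (Prod.ext (Subtype.ext e2) (Subtype.ext e3))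
  rw [Nat.card_eq_of_bijective f hbij, Nat.card_prod, Nat.card_prod, Nat.card_eq_fintype_card,
    Nat.card_eq_fintype_card, Nat.card_eq_fintype_card, Fintype.card_coe, Fintype.card_coe,
    Fintype.card_coe, hS4 t₁ ht₁, hS4 t₂ ht₂, hS4 t₃ ht₃]

end Cfsg.Agent.Lib.Helper26
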