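import Cfsg.Agent.Lib.Helper26.QuartOrb
import Cfsg.Agent.Lib.Helper26.SxStr

set_option autoImplicit false

open scoped Pointwise

namespace Cfsg.Agent.Lib.Helper26

open Cfsg.Agent.Lib.Helper7 Cfsg.Agent.Lib.Helper93

/-- The plane over the field of three elements. -/
abbrev V2 : Type := Fin 2 → ZMod 3

/-- The points outside a dodecad which lie in an octad with two of the triples of a quartet. -/
def quartR (d : Finset Cfsg.GolayPt) (Q : Finset (Finset Cfsg.GolayPt)) : Set Cfsg.GolayPt :=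
  {p | p ∉ d ∧ ∃ t ∈ Q, ∃ u ∈ Q, t ≠ u ∧ ∃ o ∈ Cfsg.octads, t ⊆ o ∧ u ⊆ o ∧ p ∈ o}

theorem quartR_smul {g : Equiv.Perm Cfsg.GolayPt} (hg : g ∈ Cfsg.M24)
    {d : Finset Cfsg.GolayPt} {Q : Finset (Finset Cfsg.GolayPt)} {p : Cfsg.GolayPt}
    (hp : p ∈ quartR d Q) : g p ∈ quartR (g • d) (g • Q) := by
  obtain ⟨hpd, t, ht, u, hu, htu, o, ho, hto, huo, hpo⟩ := hp
  refine ⟨?_, g • t, Finset.smul_mem_smul_finset ht, g • u, Finset.smul_mem_smul_finset hu, ?_,
    g • o, smul_mem_octads hg ho, ?_, ?_, ?_⟩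
  · intro h
    have h1 : g • p ∈ g • d := h
    rw [Finset.smul_mem_smul_finset_iff] at h1
    exact hpd h1
  · intro h
    exact htu (MulAction.injective g h)
  · exact Finset.smul_finset_subset_smul_finset_iff.mpr hto
  · exact Finset.smul_finset_subset_smul_finset_iff.mpr huo
  · show g • p ∈ g • o
    exact Finset.smul_mem_smul_finset hpo

/-- Three points lying with the three special points in an octad. -/
def QLine (d : Finset Cfsg.GolayPt) (Q : Finset (Finset Cfsg.GolayPt))
    (x y z : Cfsg.GolayPt) : Prop :=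
  z ≠ x ∧ z ≠ y ∧ ∃ o ∈ Cfsg.octads, (∀ p ∈ quartR d Q, p ∈ o) ∧ x ∈ o ∧ y ∈ o ∧ z ∈ o

theorem QLine.smul {g : Equiv.Perm Cfsg.GolayPt} (hg : g ∈ Cfsg.M24)
    {d : Finset Cfsg.GolayPt} {Q : Finset (Finset Cfsg.GolayPt)} {x y z : Cfsg.GolayPt}
    (h : QLine d Q x y z) : QLine (g • d) (g • Q) (g x) (g y) (g z) := by
  obtain ⟨hzx, hzy, o, ho, hR, hx, hy, hz⟩ := h
  refine ⟨fun e => hzx (g.injective e), fun e => hzy (g.injective e), g • o,
    smul_mem_octads hg ho, ?_, ?_, ?_, ?_⟩
  · intro p hp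
    have h1 := quartR_smul (Cfsg.M24.inv_mem hg) hp
    rw [inv_smul_smul, inv_smul_smul] at h1
    have h3 : g • (g⁻¹ p) ∈ g • o := Finset.smul_mem_smul_finset (hR _ h1)
    rwa [Equiv.Perm.smul_def, perm_apply_inv] at h3
  · show g • x ∈ g • o
    exact Finset.smul_mem_smul_finset hx
  · show g • y ∈ g • o
    exact Finset.smul_mem_smul_finset hy
  · show g • z ∈ g • o
    exact Finset.smul_mem_smul_finset hz

/-- A labelling of the nine remaining points by the plane, with the lines of the plane being the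
triples lying with the three special points in an octad. -/
structure AffProp (d : Finset Cfsg.GolayPt) (Q : Finset (Finset Cfsg.GolayPt))
    (l : V2 → Cfsg.GolayPt) : Prop where
  inj : Function.Injective l
  out : ∀ v, l v ∉ d
  notR : ∀ v, l v ∉ quartR d Q
  cover : ∀ p, p ∉ d → p ∉ quartR d Q → ∃ v, l v = p
  line : ∀ u v w, u ≠ v → (QLine d Q (l u) (l v) (l w) ↔ w = -(u + v))

theorem AffProp.smul {d : Finset Cfsg.GolayPt} {Q : Finset (Finset Cfsg.GolayPt)}
    {l : V2 → Cfsg.GolayPt} (h : AffProp d Q l) {g : Equiv.Perm Cfsg.GolayPt}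
    (hg : g ∈ Cfsg.M24) : AffProp (g • d) (g • Q) (fun v => g (l v)) where
  inj := fun u v e => h.inj (g.injective e)
  out := fun v hv => h.out v ((Finset.smul_mem_smul_finset_iff g).mp hv)
  notR := fun v hv => by
    have h1 := quartR_smul (Cfsg.M24.inv_mem hg) hv
    rw [inv_smul_smul, inv_smul_smul, perm_inv_apply] at h1
    exact h.notR v h1
  cover := fun p hp hpR => by
    have h1 : g⁻¹ p ∉ d := by
      intro h1
      have h2 : g • (g⁻¹ p) ∈ g • d := Finset.smul_mem_smul_finset h1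
      rw [Equiv.Perm.smul_def, perm_apply_inv] at h2
      exact hp h2
    have h2 : g⁻¹ p ∉ quartR d Q := by
      intro h1
      have h2 := quartR_smul hg h1
      rw [perm_apply_inv] at h2
      exact hpR h2
    obtain ⟨v, hv⟩ := h.cover (g⁻¹ p) h1 h2
    exact ⟨v, by rw [hv, perm_apply_inv]⟩
  line := fun u v w huv => by
    rw [← h.line u v w huv]
    constructor
    · intro h1
      have h2 := h1.smul (Cfsg.M24.inv_mem hg)
      rwa [inv_smul_smul, inv_smul_smul, perm_inv_apply, perm_inv_apply, perm_inv_apply] at h2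
    · intro h1
      exact h1.smul hg

section Stab

variable {d : Finset Cfsg.GolayPt} {Q : Finset (Finset Cfsg.GolayPt)} {l : V2 → Cfsg.GolayPt}

theorem AffProp.stab (hA : AffProp d Q l)
    (h : ↥(MulAction.stabilizer (↥Cfsg.M24) d ⊓ MulAction.stabilizer (↥Cfsg.M24) Q)) :
    AffProp d Q (fun v => ((h : ↥Cfsg.M24) : Equiv.Perm Cfsg.GolayPt) (l v)) := by
  have h1 := hA.smul (h : ↥Cfsg.M24).2
  have hd : ((h : ↥Cfsg.M24) : Equiv.Perm Cfsg.GolayPt) • d = d := h.2.1
  have hQ : ((h : ↥Cfsg.M24) : Equiv.Perm Cfsg.GolayPt) • Q = Q := h.2.2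
  rwa [hd, hQ] at h1

theorem AffProp.exists_perm (hA : AffProp d Q l)
    (h : ↥(MulAction.stabilizer (↥Cfsg.M24) d ⊓ MulAction.stabilizer (↥Cfsg.M24) Q)) (v : V2) :
    ∃ w, l w = ((h : ↥Cfsg.M24) : Equiv.Perm Cfsg.GolayPt) (l v) :=
  hA.cover _ ((hA.stab h).out v) ((hA.stab h).notR v)

/-- The permutation of the plane induced by an element of the stabiliser. -/
noncomputable def aperm (hA : AffProp d Q l)
    (h : ↥(MulAction.stabilizer (↥Cfsg.M24) d ⊓ MulAction.stabilizer (↥Cfsg.M24) Q)) (v : V2) :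
    V2 :=
  Classical.choose (hA.exists_perm h v)

theorem aperm_spec (hA : AffProp d Q l)
    (h : ↥(MulAction.stabilizer (↥Cfsg.M24) d ⊓ MulAction.stabilizer (↥Cfsg.M24) Q)) (v : V2) :
    l (aperm hA h v) = ((h : ↥Cfsg.M24) : Equiv.Perm Cfsg.GolayPt) (l v) :=
  Classical.choose_spec (hA.exists_perm h v)

theorem aperm_unique (hA : AffProp d Q l)
    (h : ↥(MulAction.stabilizer (↥Cfsg.M24) d ⊓ MulAction.stabilizer (↥Cfsg.M24) Q)) {v w : V2}
    (e : l w = ((h : ↥Cfsg.M24) : Equiv.Perm Cfsg.GolayPt) (l v)) : aperm hA h v = w :=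
  hA.inj ((aperm_spec hA h v).trans e.symm)

theorem aperm_one (hA : AffProp d Q l) (v : V2) : aperm hA 1 v = v :=
  aperm_unique hA 1 rfl

theorem aperm_mul (hA : AffProp d Q l)
    (h h' : ↥(MulAction.stabilizer (↥Cfsg.M24) d ⊓ MulAction.stabilizer (↥Cfsg.M24) Q)) (v : V2) :
    aperm hA (h * h') v = aperm hA h (aperm hA h' v) := by
  apply aperm_unique
  rw [aperm_spec hA h (aperm hA h' v), aperm_spec hA h' v]
  rfl

theorem aperm_injective (hA : AffProp d Q l)
    (h : ↥(MulAction.stabilizer (↥Cfsg.M24) d ⊓ MulAction.stabilizer (↥Cfsg.M24) Q)) :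
    Function.Injective (aperm hA h) := by
  intro u v e
  have h1 := aperm_spec hA h u
  rw [e, aperm_spec hA h v] at h1
  exact (hA.inj (Equiv.injective _ h1)).symm

theorem V2_neg_add_self : ∀ x : V2, -(x + x) = x := by decide

theorem aperm_third (hA : AffProp d Q l)
    (h : ↥(MulAction.stabilizer (↥Cfsg.M24) d ⊓ MulAction.stabilizer (↥Cfsg.M24) Q)) (u v : V2) :
    aperm hA h (-(u + v)) = -(aperm hA h u + aperm hA h v) := by
  by_cases huv : u = v
  · subst huv
    rw [V2_neg_add_self, V2_neg_add_self]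
  · have h1 : QLine d Q (((h : ↥Cfsg.M24) : Equiv.Perm Cfsg.GolayPt) (l u))
        (((h : ↥Cfsg.M24) : Equiv.Perm Cfsg.GolayPt) (l v))
        (((h : ↥Cfsg.M24) : Equiv.Perm Cfsg.GolayPt) (l (-(u + v)))) :=
      ((hA.stab h).line u v (-(u + v)) huv).mpr rfl
    rw [← aperm_spec hA h u, ← aperm_spec hA h v, ← aperm_spec hA h (-(u + v))] at h1
    exact (hA.line _ _ _ (fun e => huv (aperm_injective hA h e))).mp h1

/-- The linear part of the permutation of the plane induced by an element of the stabiliser. -/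
noncomputable def alin (hA : AffProp d Q l)
    (h : ↥(MulAction.stabilizer (↥Cfsg.M24) d ⊓ MulAction.stabilizer (↥Cfsg.M24) Q)) (v : V2) :
    V2 :=
  aperm hA h v - aperm hA h 0

theorem alin_add (hA : AffProp d Q l)
    (h : ↥(MulAction.stabilizer (↥Cfsg.M24) d ⊓ MulAction.stabilizer (↥Cfsg.M24) Q)) (u v : V2) :
    alin hA h (u + v) = alin hA h u + alin hA h v := by
  have h1 := aperm_third hA h (-(u + v)) 0
  have h2 := aperm_third hA h u v
  rw [add_zero, neg_neg] at h1
  unfold alin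
  rw [h1, h2]
  abel

theorem alin_one (hA : AffProp d Q l) (v : V2) : alin hA 1 v = v := by
  unfold alin
  rw [aperm_one, aperm_one, sub_zero]

theorem alin_sub (hA : AffProp d Q l)
    (h : ↥(MulAction.stabilizer (↥Cfsg.M24) d ⊓ MulAction.stabilizer (↥Cfsg.M24) Q)) (a b : V2) :
    alin hA h (a - b) = alin hA h a - alin hA h b := by
  have h1 := alin_add hA h (a - b) b
  rw [sub_add_cancel] at h1
  rw [h1, add_sub_cancel_right]

theorem alin_mul (hA : AffProp d Q l)
    (h h' : ↥(MulAction.stabilizer (↥Cfsg.M24) d ⊓ MulAction.stabilizer (↥Cfsg.M24) Q)) (v : V2) :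
    alin hA (h * h') v = alin hA h (alin hA h' v) := by
  show aperm hA (h * h') v - aperm hA (h * h') 0 = alin hA h (aperm hA h' v - aperm hA h' 0)
  rw [alin_sub, aperm_mul, aperm_mul]
  unfold alin
  abel

/-- The action of the stabiliser on the plane by linear parts. -/
noncomputable def ahom (hA : AffProp d Q l) :
    ↥(MulAction.stabilizer (↥Cfsg.M24) d ⊓ MulAction.stabilizer (↥Cfsg.M24) Q) →*
      AddMonoid.End V2 where
  toFun h := AddMonoidHom.mk' (alin hA h) (alin_add hA h)
  map_one' := AddMonoidHom.ext fun v => alin_one hA v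
  map_mul' h h' := AddMonoidHom.ext fun v => alin_mul hA h h' v

theorem ahom_apply (hA : AffProp d Q l)
    (h : ↥(MulAction.stabilizer (↥Cfsg.M24) d ⊓ MulAction.stabilizer (↥Cfsg.M24) Q)) (v : V2) :
    ahom hA h v = alin hA h v := rfl

/-- The matrix of an additive map of the plane over the field of three elements. -/
noncomputable def matHom2 : AddMonoid.End V2 →* Matrix (Fin 2) (Fin 2) (ZMod 3) where
  toFun f := LinearMap.toMatrix' (AddMonoidHom.toZModLinearMap 3 f)
  map_one' := by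
    have e : AddMonoidHom.toZModLinearMap 3 (1 : AddMonoid.End V2) = LinearMap.id :=
      LinearMap.ext fun _ => rfl
    rw [e, LinearMap.toMatrix'_id]
  map_mul' f g := by
    have e : AddMonoidHom.toZModLinearMap 3 (f * g)
        = (AddMonoidHom.toZModLinearMap 3 f) ∘ₗ (AddMonoidHom.toZModLinearMap 3 g) :=
      LinearMap.ext fun _ => rfl
    rw [e, LinearMap.toMatrix'_comp]

theorem matHom2_injective : Function.Injective matHom2 := fun _ _ h =>
  AddMonoidHom.toZModLinearMap_injective 3 (LinearMap.toMatrix'.injective h)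

theorem card_GL23 : Nat.card (GL (Fin 2) (ZMod 3)) = 48 := by
  rw [Matrix.card_GL_field]
  simp [Fin.prod_univ_two]

theorem smul_compl_of_stab {σ : Equiv.Perm Cfsg.GolayPt} {d : Finset Cfsg.GolayPt}
    (h : σ • d = d) : σ • dᶜ = dᶜ := by
  ext p
  rw [← Finset.inv_smul_mem_iff, Finset.mem_compl, Finset.mem_compl, not_iff_not]
  constructor
  · intro h1
    have h2 : σ • (σ⁻¹ • p) ∈ σ • d := Finset.smul_mem_smul_finset h1
    rwa [smul_inv_smul, h] at h2
  · intro h1
    rw [← h] at h1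
    rwa [Finset.inv_smul_mem_iff]

/-- The action on the plane is faithful. -/
theorem AffProp.faithful (hA : AffProp d Q l) (hd : d ∈ Cfsg.dodecads)
    {h h' : ↥(MulAction.stabilizer (↥Cfsg.M24) d ⊓ MulAction.stabilizer (↥Cfsg.M24) Q)}
    (e : ∀ v, aperm hA h v = aperm hA h' v) : h = h' := by
  have hfix : ∀ v, ((h : ↥Cfsg.M24) : Equiv.Perm Cfsg.GolayPt) (l v)
      = ((h' : ↥Cfsg.M24) : Equiv.Perm Cfsg.GolayPt) (l v) := by
    intro v
    rw [← aperm_spec hA h v, ← aperm_spec hA h' v, e v]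
  have hc : Fintype.card (Fin 5) ≤ Fintype.card V2 := by
    rw [Fintype.card_fin, Fintype.card_pi]
    simp [ZMod.card]
  obtain ⟨x⟩ := Function.Embedding.nonempty_of_card_le hc
  have h1 : ((h : ↥Cfsg.M24) : Equiv.Perm Cfsg.GolayPt) • d = d := h.2.1
  have h2 : ((h' : ↥Cfsg.M24) : Equiv.Perm Cfsg.GolayPt) • d = d := h'.2.1
  have key := Cfsg.Agent.Lib.Helper6.M12.stab_eq_of_agree (compl_mem_dodecads hd)
    (x.trans ⟨l, hA.inj⟩) (fun i => Finset.mem_compl.mpr (hA.out _))
    (g := (h : ↥Cfsg.M24)) (g' := (h' : ↥Cfsg.M24)) (smul_compl_of_stab h1)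
    (smul_compl_of_stab h2) (fun i => hfix _)
  exact Subtype.ext key

/-- The structure of the stabiliser of a dodecad and a quartet with a labelling of the nine
points by the plane. -/
theorem quartet_structure (hA : AffProp d Q l) (hd : d ∈ Cfsg.dodecads)
    (hcard : Nat.card ↥(MulAction.stabilizer (↥Cfsg.M24) d ⊓
      MulAction.stabilizer (↥Cfsg.M24) Q) = 432) :
    ∃ (N : Subgroup ↥(MulAction.stabilizer (↥Cfsg.M24) d ⊓ MulAction.stabilizer (↥Cfsg.M24) Q))
      (_ : N.Normal), Nat.card N = 9 ∧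
      Nonempty (↥(MulAction.stabilizer (↥Cfsg.M24) d ⊓ MulAction.stabilizer (↥Cfsg.M24) Q) ⧸ N ≃*
        GL (Fin 2) (ZMod 3)) := by
  classical
  let ρ : ↥(MulAction.stabilizer (↥Cfsg.M24) d ⊓ MulAction.stabilizer (↥Cfsg.M24) Q) →*
      GL (Fin 2) (ZMod 3) := (matHom2.comp (ahom hA)).toHomUnits
  have hker : ∀ g ∈ ρ.ker, ∀ v, aperm hA g v = v + aperm hA g 0 := by
    intro g hg v
    rw [MonoidHom.mem_ker] at hg
    have h3 : matHom2 (ahom hA g) = 1 := congrArg Units.val hg
    have h4 : ahom hA g = 1 := matHom2_injective (h3.trans matHom2.map_one.symm)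
    have h5 : alin hA g v = v := by
      rw [← ahom_apply, h4]
      rfl
    unfold alin at h5
    calc aperm hA g v = (aperm hA g v - aperm hA g 0) + aperm hA g 0 := by abel
      _ = v + aperm hA g 0 := by rw [h5]
  have hle : Nat.card ρ.ker ≤ 9 := by
    have hinj : Function.Injective (fun g : ρ.ker => aperm hA g.1 0) := by
      intro g g' e
      apply Subtype.ext
      apply hA.faithful hd
      intro v
      rw [hker g.1 g.2 v, hker g'.1 g'.2 v]
      exact congrArg (fun t => v + t) e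
    have h9 : Nat.card V2 = 9 := by
      rw [Nat.card_eq_fintype_card, Fintype.card_pi]
      simp [ZMod.card]
    have h10 := Nat.card_le_card_of_injective _ hinj
    omega
  have h1 := Subgroup.card_mul_index ρ.ker
  rw [Subgroup.index_ker, hcard] at h1
  have hle2 : Nat.card ρ.range ≤ 48 := by
    rw [← card_GL23]
    exact Subgroup.card_le_card_group _
  have hk : Nat.card ρ.ker = 9 := by
    by_contra hne
    have hlt : Nat.card ρ.ker ≤ 8 := by omega
    have h2 := Nat.mul_le_mul hlt hle2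
    omega
  have hr : Nat.card ρ.range = 48 := by
    rw [hk] at h1
    omega
  have hsurj : Function.Surjective ρ := by
    rw [← MonoidHom.range_eq_top]
    exact Subgroup.eq_top_of_card_eq _ (hr.trans card_GL23.symm)
  exact ⟨ρ.ker, MonoidHom.normal_ker ρ, hk,
    ⟨QuotientGroup.quotientKerEquivOfSurjective ρ hsurj⟩⟩

end Stab

end Cfsg.Agent.Lib.Helper26
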