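import Cfsg.Agent.Lib.Helper26.Cert2

set_option autoImplicit false

namespace Cfsg.Agent.Lib.Helper26

/-- Octads through pairs of triples of the base quartet (position `4 * i + j`). -/
def qsOO : List ℕ := [0, 2101096, 42232, 2147405, 2101096, 0, 2141072, 52005, 42232, 2141072, 0, 2121909, 2147405, 52005, 2121909, 0]

/-- The nine points of the plane, by the number of the vector. -/
def qsLpt : List ℕ := [1, 12, 16, 17, 18, 19, 23, 20, 22]

/-- Octads through the lines of the plane (position `9 * a + b`). -/
def qsLO : List ℕ := [0, 2201890, 2201890, 10650722, 6594610, 3719203, 10650722, 3719203, 6594610, 2201890, 0, 2201890, 6475812, 3444840, 11055264, 11055264, 3444840, 6475812, 2201890, 2201890, 0, 3375280, 10846245, 6915112, 10846245, 3375280, 6915112, 10650722, 6475812, 3375280, 0, 3050016, 3050016, 10650722, 3375280, 6475812, 6594610, 3444840, 10846245, 3050016, 0, 3050016, 10846245, 3444840, 6594610, 3719203, 11055264, 6915112, 3050016, 3050016, 0, 11055264, 3719203, 6915112, 10650722, 11055264, 10846245, 10650722, 10846245, 11055264, 0, 15762208, 15762208,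 3719203, 3444840, 3375280, 3375280, 3444840, 3719203, 15762208, 0, 15762208, 6594610, 6475812, 6915112, 6475812, 6594610, 6915112, 15762208, 15762208, 0]

/-- The points of the base dodecad. -/
def qsPts : List ℕ := [0, 2, 3, 4, 6, 7, 8, 9, 10, 11, 13, 14]

/-- Parents in the orbit of the points of the base dodecad. -/
def qsPar : List ℕ := [0, 0, 7, 2, 7, 8, 11, 1, 9, 0, 4, 1]

/-- Generators in the orbit of the points of the base dodecad. -/
def qsGen : List ℕ := [0, 0, 0, 0, 1, 0, 1, 1, 0, 1, 0, 0]

/-- Depths in the orbit of the points of the base dodecad. -/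
def qsDep : List ℕ := [0, 1, 3, 4, 3, 3, 3, 2, 2, 1, 4, 2]

end Cfsg.Agent.Lib.Helper26
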