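import Cfsg.Agent.Lib.Helper26.QuartStr
import Cfsg.Agent.Lib.Helper26.QuartStrData

set_option autoImplicit false

open scoped Pointwise

namespace Cfsg.Agent.Lib.Helper26

open Cfsg.Agent.Lib.Helper7 Cfsg.Agent.Lib.Helper93

/-- The triples of the base quartet. -/
def qsT (i : ℕ) : ℕ := qf (qObj 0) i

/-- The octad through two triples of the base quartet. -/
def qsO (i j : ℕ) : ℕ := qsOO.getD (4 * i + j) 0

/-- The points of the plane. -/
def lptB (a : ℕ) : ℕ := qsLpt.getD a 0

/-- The octad through a line of the plane. -/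
def lineO (a b : ℕ) : ℕ := qsLO.getD (9 * a + b) 0

/-- The number of the third point of a line. -/
def thr (a b : ℕ) : ℕ := ((6 - a % 3 - b % 3) % 3) + 3 * ((6 - a / 3 - b / 3) % 3)

theorem qsO_chk : allB (fun i => allB (fun j => (i == j) ||
    (isCode (qsO i j) && (popc (qsO i j) == 8) && decide (qsO i j < 16777216) &&
      (qsT i &&& qsO i j == qsT i) && (qsT j &&& qsO i j == qsT j) &&
      (popc (qsT i ||| qsT j) == 6) && (qsT i != qsT j) &&
      allB (fun k => !(qsO i j).testBit k || (28637 : ℕ).testBit k ||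
        (2129952 : ℕ).testBit k) 24)) 4) 4 = true := by
  decide +kernel

theorem qsR_chk : allB (fun k => !(2129952 : ℕ).testBit k || (!(28637 : ℕ).testBit k &&
    anyB (fun i => anyB (fun j => (i != j) && (qsO i j).testBit k) 4) 4)) 24 = true := by
  decide +kernel

theorem qsO_facts {i j : ℕ} (hi : i < 4) (hj : j < 4) (hij : i ≠ j) :
    Cfsg.Agent.Lib.Helper7.setOf (qsO i j) ∈ Cfsg.octads ∧
      Cfsg.Agent.Lib.Helper7.setOf (qsT i) ⊆ Cfsg.Agent.Lib.Helper7.setOf (qsO i j) ∧
      Cfsg.Agent.Lib.Helper7.setOf (qsT j) ⊆ Cfsg.Agent.Lib.Helper7.setOf (qsO i j) ∧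
      popc (qsT i ||| qsT j) = 6 ∧ qsT i ≠ qsT j ∧
      ∀ k < 24, (qsO i j).testBit k = true → (28637 : ℕ).testBit k = false →
        (2129952 : ℕ).testBit k = true := by
  have hc := allB_spec (allB_spec qsO_chk i hi) j hj
  simp only [Bool.or_eq_true, beq_iff_eq, Bool.and_eq_true, decide_eq_true_eq, bne_iff_ne] at hc
  rcases hc with hc | hc
  · exact absurd hc hij
  obtain ⟨⟨⟨⟨⟨⟨⟨h1, h2⟩, h3⟩, h4⟩, h5⟩, h6⟩, h7⟩, h8⟩ := hc
  refine ⟨⟨setOf_mem_golaySupports h3 h1, by rw [card_setOf]; exact h2⟩, setOf_subset_of_and h4,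
    setOf_subset_of_and h5, h6, h7, ?_⟩
  intro k hk hk1 hk2
  have h9 := allB_spec h8 k hk
  rw [hk1, hk2] at h9
  simpa using h9

/-- The three special points of the base pair. -/
theorem quartR_base (p : Cfsg.GolayPt) :
    p ∈ quartR baseDod (denQ (qObj 0)) ↔ p ∈ Cfsg.Agent.Lib.Helper7.setOf 2129952 := by
  constructor
  · rintro ⟨hpd, t, ht, u, hu, htu, o, ho, hto, huo, hpo⟩
    obtain ⟨i, hi, rfl⟩ := (mem_denQ _ _).mp ht
    obtain ⟨j, hj, rfl⟩ := (mem_denQ _ _).mp hu
    have hij : i ≠ j := fun e => htu (by rw [e])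
    obtain ⟨ho', h4, h5, h6, -, h8⟩ := qsO_facts hi hj hij
    have hsub : Cfsg.Agent.Lib.Helper7.setOf (qsT i ||| qsT j)
        ⊆ o ∩ Cfsg.Agent.Lib.Helper7.setOf (qsO i j) := by
      rw [Finset.subset_inter_iff, setOf_union]
      exact ⟨Finset.union_subset hto huo, Finset.union_subset h4 h5⟩
    have h5' : 5 ≤ (o ∩ Cfsg.Agent.Lib.Helper7.setOf (qsO i j)).card := by
      have h9 := Finset.card_le_card hsub
      rw [card_setOf, h6] at h9
      omega
    have heq := octad_eq_of_inter_ge ho ho' h5'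
    rw [heq, mem_setOf] at hpo
    rw [mem_setOf] at hpd ⊢
    exact h8 _ (idx_lt p) hpo (by simpa using hpd)
  · intro hp
    rw [mem_setOf] at hp
    have hc := allB_spec qsR_chk (idx p) (idx_lt p)
    rw [hp] at hc
    simp only [Bool.not_true, Bool.false_or, Bool.and_eq_true, Bool.not_eq_true', anyB_iff,
      bne_iff_ne] at hc
    obtain ⟨h1, i, hi, j, hj, hij, h2⟩ := hc
    obtain ⟨ho', h4, h5, -, h7, -⟩ := qsO_facts hi hj hij
    refine ⟨?_, _, (mem_denQ _ _).mpr ⟨i, hi, rfl⟩, _, (mem_denQ _ _).mpr ⟨j, hj, rfl⟩, ?_,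
      _, ho', h4, h5, ?_⟩
    · rw [mem_setOf, h1]
      exact Bool.false_ne_true
    · intro e
      exact h7 (setOf_injective (qf_lt _ _) (qf_lt _ _) e)
    · rw [mem_setOf]
      exact h2

/-! ### The labelling of the nine points -/

/-- The number of a vector of the plane. -/
def wnum (v : V2) : ℕ := (v 0).val + 3 * (v 1).val

/-- The vector of the plane with a given number. -/
def wof (a : ℕ) : V2 := ![(a : ZMod 3), ((a / 3 : ℕ) : ZMod 3)]

theorem wnum_lt : ∀ v : V2, wnum v < 9 := by decide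

theorem wnum_inj : ∀ u v : V2, wnum u = wnum v → u = v := by decide

theorem wnum_third : ∀ u v : V2, wnum (-(u + v)) = thr (wnum u) (wnum v) := by decide

theorem wof_facts : ∀ a < 9, wnum (wof a) = a := by decide

theorem V2_third_ne : ∀ u v : V2, u ≠ v → -(u + v) ≠ u ∧ -(u + v) ≠ v := by decide

/-- The labelling of the nine points of the base pair by the plane. -/
def ellB (v : V2) : Cfsg.GolayPt := pt (lptB (wnum v))

theorem lpt_chk : allB (fun a => decide (lptB a < 24) && !(28637 : ℕ).testBit (lptB a) &&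
    !(2129952 : ℕ).testBit (lptB a) && allB (fun b => (a == b) || (lptB a != lptB b)) 9) 9
      = true := by
  decide +kernel

theorem cover_chk : allB (fun k => (28637 : ℕ).testBit k || (2129952 : ℕ).testBit k ||
    anyB (fun a => lptB a == k) 9) 24 = true := by
  decide +kernel

theorem line_chk : allB (fun a => allB (fun b => (a == b) ||
    (isCode (lineO a b) && (popc (lineO a b) == 8) && decide (lineO a b < 16777216) &&
      (2129952 &&& lineO a b == 2129952) && (lineO a b).testBit (lptB a) &&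
      (lineO a b).testBit (lptB b) && (lineO a b).testBit (lptB (thr a b)) &&
      allB (fun c => !(lineO a b).testBit (lptB c) || (c == a) || (c == b) ||
        (c == thr a b)) 9)) 9) 9 = true := by
  decide +kernel

theorem lpt_facts {a : ℕ} (ha : a < 9) : lptB a < 24 ∧ (28637 : ℕ).testBit (lptB a) = false ∧
    (2129952 : ℕ).testBit (lptB a) = false ∧ ∀ b < 9, lptB a = lptB b → a = b := by
  have hc := allB_spec lpt_chk a ha
  simp only [Bool.and_eq_true, decide_eq_true_eq, Bool.not_eq_true'] at hc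
  obtain ⟨⟨⟨h1, h2⟩, h3⟩, h4⟩ := hc
  refine ⟨h1, h2, h3, ?_⟩
  intro b hb e
  have h5 := allB_spec h4 b hb
  simp only [Bool.or_eq_true, beq_iff_eq, bne_iff_ne] at h5
  rcases h5 with h5 | h5
  · exact h5
  · exact absurd e h5

theorem idx_ellB (v : V2) : idx (ellB v) = lptB (wnum v) :=
  idx_pt (lpt_facts (wnum_lt v)).1

theorem ellB_inj : Function.Injective ellB := by
  intro u v e
  have h1 := congrArg idx e
  rw [idx_ellB, idx_ellB] at h1
  exact wnum_inj u v ((lpt_facts (wnum_lt u)).2.2.2 _ (wnum_lt v) h1)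

theorem ellB_notR (v : V2) : ellB v ∉ Cfsg.Agent.Lib.Helper7.setOf 2129952 := by
  rw [mem_setOf, idx_ellB, (lpt_facts (wnum_lt v)).2.2.1]
  exact Bool.false_ne_true

theorem line_facts {a b : ℕ} (ha : a < 9) (hb : b < 9) (hab : a ≠ b) :
    Cfsg.Agent.Lib.Helper7.setOf (lineO a b) ∈ Cfsg.octads ∧
      Cfsg.Agent.Lib.Helper7.setOf 2129952 ⊆ Cfsg.Agent.Lib.Helper7.setOf (lineO a b) ∧
      (lineO a b).testBit (lptB a) = true ∧ (lineO a b).testBit (lptB b) = true ∧
      (lineO a b).testBit (lptB (thr a b)) = true ∧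
      ∀ c < 9, (lineO a b).testBit (lptB c) = true → c = a ∨ c = b ∨ c = thr a b := by
  have hc := allB_spec (allB_spec line_chk a ha) b hb
  simp only [Bool.or_eq_true, beq_iff_eq, Bool.and_eq_true, decide_eq_true_eq] at hc
  rcases hc with hc | hc
  · exact absurd hc hab
  obtain ⟨⟨⟨⟨⟨⟨⟨h1, h2⟩, h3⟩, h4⟩, h5⟩, h6⟩, h7⟩, h8⟩ := hc
  refine ⟨⟨setOf_mem_golaySupports h3 h1, by rw [card_setOf]; exact h2⟩, setOf_subset_of_and h4,
    h5, h6, h7, ?_⟩
  intro c hc hc1
  have h9 := allB_spec h8 c hc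
  rw [hc1] at h9
  simpa [or_assoc] using h9

/-- The base pair with its labelling of the nine points. -/
theorem aff_base : AffProp baseDod (denQ (qObj 0)) ellB where
  inj := ellB_inj
  out := fun v => by
    rw [mem_setOf, idx_ellB, (lpt_facts (wnum_lt v)).2.1]
    exact Bool.false_ne_true
  notR := fun v => by
    rw [quartR_base]
    exact ellB_notR v
  cover := fun p hp hpR => by
    rw [quartR_base] at hpR
    rw [mem_setOf] at hp hpR
    have hc := allB_spec cover_chk (idx p) (idx_lt p)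
    simp only [Bool.or_eq_true, anyB_iff, beq_iff_eq] at hc
    rcases hc with (hc | hc) | ⟨a, ha, hc⟩
    · exact absurd hc hp
    · exact absurd hc hpR
    · refine ⟨wof a, ?_⟩
      unfold ellB
      rw [wof_facts a ha, hc, pt_idx]
  line := fun u v w huv => by
    have hab : wnum u ≠ wnum v := fun e => huv (wnum_inj u v e)
    obtain ⟨ho', hR', hu', hv', ht', hall⟩ := line_facts (wnum_lt u) (wnum_lt v) hab
    constructor
    · rintro ⟨hwu, hwv, o, ho, hR, hxu, hxv, hxw⟩
      have hsub : insert (ellB u) (insert (ellB v) (Cfsg.Agent.Lib.Helper7.setOf 2129952))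
          ⊆ o ∩ Cfsg.Agent.Lib.Helper7.setOf (lineO (wnum u) (wnum v)) := by
        intro p hp
        rw [Finset.mem_insert, Finset.mem_insert] at hp
        rw [Finset.mem_inter]
        rcases hp with rfl | rfl | hp
        · exact ⟨hxu, by rw [mem_setOf, idx_ellB]; exact hu'⟩
        · exact ⟨hxv, by rw [mem_setOf, idx_ellB]; exact hv'⟩
        · exact ⟨hR p ((quartR_base p).mpr hp), hR' hp⟩
      have hcard : (insert (ellB u) (insert (ellB v)
          (Cfsg.Agent.Lib.Helper7.setOf 2129952))).card = 5 := by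
        rw [Finset.card_insert_of_notMem, Finset.card_insert_of_notMem (ellB_notR v), card_setOf]
        · rfl
        · rw [Finset.mem_insert]
          rintro (e | e)
          · exact huv (ellB_inj e)
          · exact ellB_notR u e
      have h5 : 5 ≤ (o ∩ Cfsg.Agent.Lib.Helper7.setOf (lineO (wnum u) (wnum v))).card := by
        rw [← hcard]
        exact Finset.card_le_card hsub
      have heq := octad_eq_of_inter_ge ho ho' h5
      rw [heq, mem_setOf, idx_ellB] at hxw
      rcases hall _ (wnum_lt w) hxw with e | e | e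
      · exact absurd (congrArg ellB (wnum_inj w u e)) hwu
      · exact absurd (congrArg ellB (wnum_inj w v e)) hwv
      · rw [← wnum_third] at e
        exact wnum_inj _ _ e
    · rintro rfl
      obtain ⟨h1, h2⟩ := V2_third_ne u v huv
      refine ⟨fun e => h1 (ellB_inj e), fun e => h2 (ellB_inj e), _, ho', ?_, ?_, ?_, ?_⟩
      · intro p hp
        exact hR' ((quartR_base p).mp hp)
      · rw [mem_setOf, idx_ellB]
        exact hu'
      · rw [mem_setOf, idx_ellB]
        exact hv'
      · rw [mem_setOf, idx_ellB, wnum_third]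
        exact ht'

/-! ### Transitivity on the points of the base dodecad -/

/-- The points of the base dodecad. -/
def ptObj (i : ℕ) : ℕ := qsPts.getD i 0

/-- The image of a point under the inverse of the permutation of a table. -/
def actP (t c : ℕ) : ℕ := nlane (invT t) (min c 23)

theorem pt_chk : allB (stepOK actP (fun a b => a == b) qhTinv 12 ptObj (fun _ => 0)
    (fun i => qsPar.getD i 0) (fun i => qsGen.getD i 0) (fun i => qsDep.getD i 0)
    (fun _ => 0)) 12 = true := by
  decide +kernel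

theorem pts_chk : allB (fun k => !(28637 : ℕ).testBit k || anyB (fun i => ptObj i == k) 12) 24
    = true := by
  decide +kernel

theorem point_trans_base : ∀ i < 12, ∀ j < 12,
    ∃ u ∈ dqH, u • pt (ptObj i) = pt (ptObj j) := by
  intro i hi j hj
  exact cert_trans dqH pt actP (fun a b => a == b)
    (fun σ _ t c hR => by
      show σ (pt c) = pt (nlane (invT t) (min c 23))
      have h1 : RepT σ (invT t) := by
        have h2 := hR.inv
        rwa [inv_inv] at h2
      rw [← pt_min c, h1.apply_pt (by omega)])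
    (fun a b h => by
      rw [beq_iff_eq] at h
      rw [h]) qhGens_rep qhGens_mem 12 ptObj (fun _ => 0) _ _ _ (fun _ => 0) pt_chk i hi j hj rfl

theorem base_pt {p : Cfsg.GolayPt} (hp : p ∈ baseDod) : ∃ i < 12, p = pt (ptObj i) := by
  rw [mem_setOf] at hp
  have hc := allB_spec pts_chk (idx p) (idx_lt p)
  rw [hp] at hc
  simp only [Bool.not_true, Bool.false_or, anyB_iff, beq_iff_eq] at hc
  obtain ⟨i, hi, e⟩ := hc
  exact ⟨i, hi, by rw [e, pt_idx]⟩

/-- The stabiliser of a dodecad and one of its quartets is transitive on the dodecad. -/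
theorem point_transitive {d : Finset Cfsg.GolayPt} (hd : d ∈ Cfsg.dodecads)
    {Q : Finset (Finset Cfsg.GolayPt)} (hQ : Q ∈ Cfsg.quartets d) :
    ∀ p ∈ d, ∀ q ∈ d, ∃ g ∈ (MulAction.stabilizer (↥Cfsg.M24) d ⊓
      MulAction.stabilizer (↥Cfsg.M24) Q), ((g : ↥Cfsg.M24) : Equiv.Perm Cfsg.GolayPt) p = q := by
  obtain ⟨g, hg, rfl, rfl⟩ := exists_base_quartet hd hQ
  intro p hp q hq
  have hp' : g⁻¹ p ∈ baseDod := by
    have h1 : g⁻¹ • p ∈ g⁻¹ • (g • baseDod) := Finset.smul_mem_smul_finset hp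
    rwa [inv_smul_smul] at h1
  have hq' : g⁻¹ q ∈ baseDod := by
    have h1 : g⁻¹ • q ∈ g⁻¹ • (g • baseDod) := Finset.smul_mem_smul_finset hq
    rwa [inv_smul_smul] at h1
  obtain ⟨i, hi, hpi⟩ := base_pt hp'
  obtain ⟨j, hj, hqj⟩ := base_pt hq'
  obtain ⟨u, hu, huij⟩ := point_trans_base i hi j hj
  have hu1 : u • baseDod = baseDod := hu.1.2
  have hu2 : u • denQ (qObj 0) = denQ (qObj 0) := hu.2
  have huij' : u (pt (ptObj i)) = pt (ptObj j) := huij
  refine ⟨⟨g * u * g⁻¹, Cfsg.M24.mul_mem (Cfsg.M24.mul_mem hg hu.1.1) (Cfsg.M24.inv_mem hg)⟩,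
    ⟨?_, ?_⟩, ?_⟩
  · show (g * u * g⁻¹) • g • baseDod = g • baseDod
    rw [mul_smul, inv_smul_smul, mul_smul, hu1]
  · show (g * u * g⁻¹) • g • denQ (qObj 0) = g • denQ (qObj 0)
    rw [mul_smul, inv_smul_smul, mul_smul, hu2]
  · show g (u (g⁻¹ p)) = q
    rw [hpi, huij', ← hqj, perm_apply_inv]

/-- Every dodecad with one of its quartets has a labelling of the nine points by the plane. -/
theorem aff_quartet {d : Finset Cfsg.GolayPt} (hd : d ∈ Cfsg.dodecads)
    {Q : Finset (Finset Cfsg.GolayPt)} (hQ : Q ∈ Cfsg.quartets d) :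
    ∃ l : V2 → Cfsg.GolayPt, AffProp d Q l := by
  obtain ⟨g, hg, rfl, rfl⟩ := exists_base_quartet hd hQ
  exact ⟨_, aff_base.smul hg⟩

end Cfsg.Agent.Lib.Helper26
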