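import Cfsg.Agent.Lib.Helper26.SxStr

set_option autoImplicit false

open scoped Pointwise

namespace Cfsg.Agent.Lib.Helper26

open Cfsg.Agent.Lib.Helper7 Cfsg.Agent.Lib.Helper93

/-- The tetrads of the base sextet. -/
def tet (i : ℕ) : ℕ := sxTet.getD i 0

theorem tet_facts : allB (fun i => relS 15 (tet i) && decide (tet i < 2 ^ 24) &&
    allB (fun j => i == j || !(tet i == tet j)) 6) 6 = true := by
  decide +kernel

theorem setOf_tet_mem {i : ℕ} (hi : i < 6) :
    Cfsg.Agent.Lib.Helper7.setOf (tet i) ∈ baseSx := by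
  have h := allB_spec tet_facts i hi
  simp only [Bool.and_eq_true] at h
  have h1 : denS 15 = denS (tet i) := relS_sound _ _ h.1.1
  show _ ∈ denS 15
  rw [h1]
  exact self_mem_sextetOf _

theorem baseSx_mem : baseSx ∈ Cfsg.sextets := denS_mem (by decide)

theorem mem_baseSx_iff (t : Finset Cfsg.GolayPt) :
    t ∈ baseSx ↔ ∃ i < 6, t = Cfsg.Agent.Lib.Helper7.setOf (tet i) := by
  classical
  constructor
  · intro ht
    have hsub : (Finset.range 6).image (fun i => Cfsg.Agent.Lib.Helper7.setOf (tet i)) ⊆ baseSx := by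
      intro u hu
      obtain ⟨i, hi, rfl⟩ := Finset.mem_image.mp hu
      exact setOf_tet_mem (Finset.mem_range.mp hi)
    have hcard : ((Finset.range 6).image (fun i => Cfsg.Agent.Lib.Helper7.setOf (tet i))).card = 6 := by
      rw [Finset.card_image_of_injOn, Finset.card_range]
      intro i hi j hj hij
      have hi' := Finset.mem_range.mp (Finset.mem_coe.mp hi)
      have hj' := Finset.mem_range.mp (Finset.mem_coe.mp hj)
      have h1 := allB_spec tet_facts i hi'
      have h2 := allB_spec tet_facts j hj'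
      simp only [Bool.and_eq_true, decide_eq_true_eq] at h1 h2
      have h3 := allB_spec h1.2 j hj'
      have h4 : tet i = tet j := setOf_injective h1.1.2 h2.1.2 hij
      simp only [Bool.or_eq_true, beq_iff_eq, Bool.not_eq_true', beq_eq_false_iff_ne] at h3
      rcases h3 with h3 | h3
      · exact h3
      · exact absurd h4 h3
    have heq := Finset.eq_of_subset_of_card_le hsub (by rw [hcard, baseSx_mem.1])
    rw [← heq] at ht
    obtain ⟨i, hi, rfl⟩ := Finset.mem_image.mp ht
    exact ⟨i, Finset.mem_range.mp hi, rfl⟩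
  · rintro ⟨i, hi, rfl⟩
    exact setOf_tet_mem hi

theorem getD_words_mem (ws : List (List ℕ)) (n : ℕ) :
    (ws.map (evalW letters2)).getD n 1 ∈ Cfsg.M24 := by
  induction ws generalizing n with
  | nil =>
    rw [List.map_nil, List.getD_nil]
    exact Cfsg.M24.one_mem
  | cons w ws ih =>
    cases n with
    | zero =>
      rw [List.map_cons, List.getD_cons_zero]
      exact evalW_mem _ letters2_mem_M24 w
    | succ n =>
      rw [List.map_cons, List.getD_cons_succ]
      exact ih n

/-! ### Swaps of the tetrads of the base sextet -/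

theorem swTinv_eq : swWords.map (fun w => invT (evalT ltabs2 w)) = swTinv := by
  decide +kernel

/-- The tabulated elements swap the tetrads. -/
def swOK : Bool := allB (fun i => allB (fun j =>
  permT (swTinv.getD (6 * i + j) idT) (tet i) == tet j &&
  permT (swTinv.getD (6 * i + j) idT) (tet j) == tet i &&
  allB (fun k => k == i || k == j || permT (swTinv.getD (6 * i + j) idT) (tet k) == tet k) 6) 6) 6

theorem swOK_eq : swOK = true := by
  decide +kernel

theorem swapProp_base : SwapProp baseSx := by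
  intro a ha b hb
  obtain ⟨i, hi, rfl⟩ := (mem_baseSx_iff a).mp ha
  obtain ⟨j, hj, rfl⟩ := (mem_baseSx_iff b).mp hb
  have hrep := repInv_getD (rep_inv_words swWords) (6 * i + j)
  rw [swTinv_eq] at hrep
  have h := allB_spec (allB_spec swOK_eq i hi) j hj
  simp only [Bool.and_eq_true, beq_iff_eq] at h
  obtain ⟨⟨h1, h2⟩, h3⟩ := h
  refine ⟨_, getD_words_mem swWords (6 * i + j), ?_, ?_, ?_⟩
  · rw [smul_setOf hrep, h1]
  · rw [smul_setOf hrep, h2]
  · intro t ht hta htb
    obtain ⟨k, hk, rfl⟩ := (mem_baseSx_iff t).mp ht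
    have h4 := allB_spec h3 k hk
    simp only [Bool.or_eq_true, beq_iff_eq] at h4
    rcases h4 with (h4 | h4) | h4
    · exact absurd (by rw [h4]) hta
    · exact absurd (by rw [h4]) htb
    · rw [smul_setOf hrep, h4]

theorem swapProp_sextet {S : Finset (Finset Cfsg.GolayPt)} (hS : S ∈ Cfsg.sextets) :
    SwapProp S := by
  rw [← orbit_baseSx] at hS
  obtain ⟨g, rfl⟩ := hS
  exact swapProp_base.smul g.2

/-! ### Translations of the tetrads of the base sextet -/

theorem pair_eq_setOf {x y : Cfsg.GolayPt} :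
    ({x, y} : Finset Cfsg.GolayPt) = Cfsg.Agent.Lib.Helper7.setOf (2 ^ idx x ||| 2 ^ idx y) := by
  ext p
  rw [mem_setOf, Nat.testBit_or, Nat.testBit_two_pow, Nat.testBit_two_pow, Finset.mem_insert,
    Finset.mem_singleton, Bool.or_eq_true, decide_eq_true_eq, decide_eq_true_eq]
  constructor
  · rintro (rfl | rfl)
    · exact Or.inl rfl
    · exact Or.inr rfl
  · rintro (h | h)
    · exact Or.inl (idx_injective h.symm)
    · exact Or.inr (idx_injective h.symm)

theorem setOf_xor_sub {m d : ℕ}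
    (h : Cfsg.Agent.Lib.Helper7.setOf d ⊆ Cfsg.Agent.Lib.Helper7.setOf m) :
    Cfsg.Agent.Lib.Helper7.setOf (m ^^^ d)
      = Cfsg.Agent.Lib.Helper7.setOf m \ Cfsg.Agent.Lib.Helper7.setOf d := by
  ext p
  have hp := @h p
  rw [mem_setOf, mem_setOf] at hp
  rw [mem_setOf, Nat.testBit_xor, Finset.mem_sdiff, mem_setOf, mem_setOf]
  cases hm : m.testBit (idx p) <;> cases hd : d.testBit (idx p) <;> simp_all

/-- The tabulated permutation preserves the splittings of a tetrad into two pairs. -/
def pairOK (t m : ℕ) : Bool :=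
  allB (fun i => allB (fun j => !(decide (i < j) && m.testBit i && m.testBit j) ||
    (permT t (2 ^ i ||| 2 ^ j) == (2 ^ i ||| 2 ^ j) ||
      permT t (2 ^ i ||| 2 ^ j) == m ^^^ (2 ^ i ||| 2 ^ j))) 24) 24

/-- The tabulated permutation preserves the splittings of the tetrads of the base sextet. -/
def inNT (t : ℕ) : Bool := allB (fun a => pairOK t (tet a)) 6

theorem inN_of_table {g : Equiv.Perm Cfsg.GolayPt} {t : ℕ} (hrep : RepT g⁻¹ t)
    (h : inNT t = true) : InN baseSx g := by
  intro u hu d hd hd2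
  obtain ⟨a, ha, rfl⟩ := (mem_baseSx_iff u).mp hu
  obtain ⟨x, y, hlt, rfl⟩ : ∃ x y, idx x < idx y ∧ d = {x, y} := by
    obtain ⟨x, y, hxy, rfl⟩ := Finset.card_eq_two.mp hd2
    rcases lt_or_gt_of_ne (fun h => hxy (idx_injective h)) with h1 | h1
    · exact ⟨x, y, h1, rfl⟩
    · exact ⟨y, x, h1, Finset.pair_comm x y⟩
  have hx : (tet a).testBit (idx x) = true :=
    (mem_setOf _ _).mp (hd (Finset.mem_insert_self x _))
  have hy : (tet a).testBit (idx y) = true :=
    (mem_setOf _ _).mp (hd (Finset.mem_insert_of_mem (Finset.mem_singleton_self y)))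
  have h1 := allB_spec (allB_spec (allB_spec h a ha) (idx x) (idx_lt x)) (idx y) (idx_lt y)
  rw [hx, hy, decide_eq_true hlt] at h1
  simp only [Bool.and_self, Bool.not_true, Bool.false_or, Bool.or_eq_true, beq_iff_eq] at h1
  rw [pair_eq_setOf] at hd ⊢
  rw [smul_setOf hrep]
  rcases h1 with h1 | h1
  · left
    rw [h1]
  · right
    rw [h1, setOf_xor_sub hd]

theorem nTinv_eq : nWords.map (fun w => invT (evalT ltabs2 w)) = nTinv := by
  decide +kernel

/-- Number of points of a bitmask below a position. -/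
def rk (m i : ℕ) : ℕ := popc (m % 2 ^ i)

/-- The tabulated translations carry the three base points to any three points of the first
three tetrads. -/
def nOK : Bool := allB (fun i => allB (fun j => allB (fun k =>
  !((tet 0).testBit i && (tet 1).testBit j && (tet 2).testBit k) ||
  (nlane (nTinv.getD (16 * rk (tet 0) i + 4 * rk (tet 1) j + rk (tet 2) k) idT) i == 0 &&
   nlane (nTinv.getD (16 * rk (tet 0) i + 4 * rk (tet 1) j + rk (tet 2) k) idT) j == 4 &&
   nlane (nTinv.getD (16 * rk (tet 0) i + 4 * rk (tet 1) j + rk (tet 2) k) idT) k == 8 &&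
   inNT (nTinv.getD (16 * rk (tet 0) i + 4 * rk (tet 1) j + rk (tet 2) k) idT))) 24) 24) 24

set_option maxRecDepth 1000000 in
theorem nOK_eq : nOK = true := by
  decide +kernel

theorem tet_bits : (tet 0).testBit 0 = true ∧ (tet 1).testBit 4 = true ∧
    (tet 2).testBit 8 = true ∧ tet 0 ≠ tet 1 ∧ tet 2 ≠ tet 0 ∧ tet 2 ≠ tet 1 ∧
    tet 0 < 2 ^ 24 ∧ tet 1 < 2 ^ 24 ∧ tet 2 < 2 ^ 24 := by
  decide +kernel

theorem nTrans_base : NTrans baseSx := by
  obtain ⟨b0, b1, b2, n01, n20, n21, l0, l1, l2⟩ := tet_bits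
  refine ⟨Cfsg.Agent.Lib.Helper7.setOf (tet 0), setOf_tet_mem (by norm_num),
    Cfsg.Agent.Lib.Helper7.setOf (tet 1), setOf_tet_mem (by norm_num),
    Cfsg.Agent.Lib.Helper7.setOf (tet 2), setOf_tet_mem (by norm_num),
    fun h => n01 (setOf_injective l0 l1 h), fun h => n20 (setOf_injective l2 l0 h),
    fun h => n21 (setOf_injective l2 l1 h),
    pt 0, ?_, pt 4, ?_, pt 8, ?_, ?_⟩
  · rw [mem_setOf, idx_pt (by norm_num)]
    exact b0
  · rw [mem_setOf, idx_pt (by norm_num)]
    exact b1
  · rw [mem_setOf, idx_pt (by norm_num)]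
    exact b2
  intro x₁ hx₁ x₂ hx₂ x₃ hx₃
  rw [mem_setOf] at hx₁ hx₂ hx₃
  have h := allB_spec (allB_spec (allB_spec nOK_eq (idx x₁) (idx_lt x₁)) (idx x₂) (idx_lt x₂))
    (idx x₃) (idx_lt x₃)
  rw [hx₁, hx₂, hx₃] at h
  simp only [Bool.and_self, Bool.not_true, Bool.false_or, Bool.and_eq_true, beq_iff_eq] at h
  obtain ⟨⟨⟨h1, h2⟩, h3⟩, h4⟩ := h
  have hrep := repInv_getD (rep_inv_words nWords)
    (16 * rk (tet 0) (idx x₁) + 4 * rk (tet 1) (idx x₂) + rk (tet 2) (idx x₃))
  rw [nTinv_eq] at hrep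
  refine ⟨_, getD_words_mem nWords _, inN_of_table hrep h4, ?_, ?_, ?_⟩
  · have e := hrep x₁
    rw [h1] at e
    rw [← e, perm_apply_inv]
  · have e := hrep x₂
    rw [h2] at e
    rw [← e, perm_apply_inv]
  · have e := hrep x₃
    rw [h3] at e
    rw [← e, perm_apply_inv]

theorem nTrans_sextet {S : Finset (Finset Cfsg.GolayPt)} (hS : S ∈ Cfsg.sextets) :
    NTrans S := by
  rw [← orbit_baseSx] at hS
  obtain ⟨g, rfl⟩ := hS
  exact nTrans_base.smul g.2

end Cfsg.Agent.Lib.Helper26
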