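import Cfsg.Agent.Lib.Helper26.Cert2

set_option autoImplicit false

namespace Cfsg.Agent.Lib.Helper26

/-- The three octads of the base trio, as bitmasks. -/
def trOct : List ℕ := [5279, 1009728, 15762208]

/-- The tetrads of the seven sextets refining the base trio, indexed by the nonzero vectors of the space of dimension three over the field of two elements. -/
def fanoTet : List (List ℕ) := [[0, 0, 0, 0, 0, 0], [1031, 4248, 458816, 550912, 6291744, 9470464], [4107, 1172, 206848, 802880, 1049376, 14712832], [147, 5132, 272448, 737280, 7340544, 8421664], [29, 5250, 346112, 663616, 5275680, 10486528], [4229, 1050, 149568, 860160, 3178752, 12583456], [1161, 4118, 417792, 591936, 4227840, 11534368], [5137, 142, 90176, 919552, 2130464, 13631744]]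

/-- Words of elements swapping two octads of the base trio (position `3 * i + j`). -/
def tswWords : List (List ℕ) := [[], [17, 12, 1, 17, 12, 14, 14, 5, 4, 6, 10, 8, 7], [1, 3, 3, 11, 6, 6, 23, 8, 7], [17, 12, 1, 17, 12, 14, 14, 5, 4, 6, 10, 8, 7], [], [1, 0, 0, 1, 2, 0, 10, 2, 5, 4, 11, 6, 10, 9, 8, 7], [1, 3, 3, 11, 6, 6, 23, 8, 7], [1, 0, 0, 1, 2, 0, 10, 2, 5, 4, 11, 6, 10, 9, 8, 7], []]

/-- Packed tables of the inverses of these elements. -/
def tswTinv : List ℕ := [984818244535754528103549039458486304, 219718246887678249529023402169776651, 1429171076365663806085429474272983, 219718246887678249529023402169776651, 984818244535754528103549039458486304, 810746828120846511261857765647288641, 1429171076365663806085429474272983, 810746828120846511261857765647288641, 984818244535754528103549039458486304]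

end Cfsg.Agent.Lib.Helper26
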