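import Cfsg.Agent.Lib.Helper26.TrHom
import Cfsg.Agent.Lib.Helper26.SxStrBase
import Cfsg.Agent.Lib.Helper26.TrStrData

set_option autoImplicit false

open scoped Pointwise

namespace Cfsg.Agent.Lib.Helper26

open Cfsg.Agent.Lib.Helper7 Cfsg.Agent.Lib.Helper93

/-- Some index below the bound satisfies the test. -/
def anyB (f : ℕ → Bool) : ℕ → Bool
  | 0 => false
  | n + 1 => f n || anyB f n

theorem anyB_iff {f : ℕ → Bool} {n : ℕ} : anyB f n = true ↔ ∃ i < n, f i = true := by
  induction n with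
  | zero => simp [anyB]
  | succ n ih =>
    simp only [anyB, Bool.or_eq_true, ih]
    constructor
    · rintro (h | ⟨i, hi, h⟩)
      · exact ⟨n, Nat.lt_succ_self n, h⟩
      · exact ⟨i, Nat.lt_succ_of_lt hi, h⟩
    · rintro ⟨i, hi, h⟩
      rcases Nat.lt_succ_iff_lt_or_eq.mp hi with hi' | rfl
      · exact Or.inr ⟨i, hi', h⟩
      · exact Or.inl h

/-! ### The octads of the base trio -/

/-- The octads of the base trio. -/
def toct (i : ℕ) : ℕ := trOct.getD i 0

theorem toct_eq : toct 0 = lo trBase ∧ toct 1 = hi trBase ∧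
    toct 2 = third (lo trBase) (hi trBase) := by
  decide +kernel

theorem mem_baseT_iff (o : Finset Cfsg.GolayPt) :
    o ∈ baseT ↔ ∃ i < 3, o = Cfsg.Agent.Lib.Helper7.setOf (toct i) := by
  obtain ⟨e0, e1, e2⟩ := toct_eq
  show o ∈ trioSet _ _ ↔ _
  rw [mem_trioSet, ← setOf_third, ← e2, ← e0, ← e1]
  constructor
  · rintro (h | h | h)
    · exact ⟨0, by norm_num, h⟩
    · exact ⟨1, by norm_num, h⟩
    · exact ⟨2, by norm_num, h⟩
  · rintro ⟨i, hi, h⟩
    interval_cases i
    · exact Or.inl h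
    · exact Or.inr (Or.inl h)
    · exact Or.inr (Or.inr h)

theorem baseT_mem : baseT ∈ Cfsg.trios := denT_mem trBase_good

/-! ### Swaps of the octads of the base trio -/

theorem tswTinv_eq : tswWords.map (fun w => invT (evalT ltabs2 w)) = tswTinv := by
  decide +kernel

/-- The tabulated elements swap the octads. -/
def tswOK : Bool := allB (fun i => allB (fun j =>
  permT (tswTinv.getD (3 * i + j) idT) (toct i) == toct j &&
  permT (tswTinv.getD (3 * i + j) idT) (toct j) == toct i &&
  allB (fun k => k == i || k == j || permT (tswTinv.getD (3 * i + j) idT) (toct k) == toct k) 3)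
    3) 3

theorem tswOK_eq : tswOK = true := by
  decide +kernel

theorem swapProp_baseT : SwapProp baseT := by
  intro a ha b hb
  obtain ⟨i, hi, rfl⟩ := (mem_baseT_iff a).mp ha
  obtain ⟨j, hj, rfl⟩ := (mem_baseT_iff b).mp hb
  have hrep := repInv_getD (rep_inv_words tswWords) (3 * i + j)
  rw [tswTinv_eq] at hrep
  have h := allB_spec (allB_spec tswOK_eq i hi) j hj
  simp only [Bool.and_eq_true, beq_iff_eq] at h
  obtain ⟨⟨h1, h2⟩, h3⟩ := h
  refine ⟨_, getD_words_mem tswWords (3 * i + j), ?_, ?_, ?_⟩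
  · rw [smul_setOf hrep, h1]
  · rw [smul_setOf hrep, h2]
  · intro t ht hta htb
    obtain ⟨k, hk, rfl⟩ := (mem_baseT_iff t).mp ht
    have h4 := allB_spec h3 k hk
    simp only [Bool.or_eq_true, beq_iff_eq] at h4
    rcases h4 with (h4 | h4) | h4
    · exact absurd (by rw [h4]) hta
    · exact absurd (by rw [h4]) htb
    · rw [smul_setOf hrep, h4]

theorem swapProp_trio {T : Finset (Finset Cfsg.GolayPt)} (hT : T ∈ Cfsg.trios) :
    SwapProp T := by
  rw [← orbit_baseT] at hT
  obtain ⟨g, rfl⟩ := hT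
  exact swapProp_baseT.smul g.2

/-! ### The seven sextets refining the base trio -/

/-- The tetrads of the seven sextets. -/
def ft (a i : ℕ) : ℕ := (fanoTet.getD a []).getD i 0

/-- The number of a vector. -/
def vnum (v : V3) : ℕ := (v 0).val + 2 * (v 1).val + 4 * (v 2).val

/-- The vector of a number. -/
def vof (a : ℕ) : V3 := ![(a : ZMod 2), ((a / 2 : ℕ) : ZMod 2), ((a / 4 : ℕ) : ZMod 2)]

theorem vnum_lt : ∀ v : V3, vnum v < 8 := by decide

theorem vnum_ne : ∀ v : V3, v ≠ 0 → vnum v ≠ 0 := by decide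

theorem vnum_inj : ∀ u v : V3, vnum u = vnum v → u = v := by decide

theorem vnum_add : ∀ u v : V3, vnum (u + v) = vnum u ^^^ vnum v := by decide

theorem vof_facts : ∀ a < 8, a ≠ 0 → vof a ≠ 0 ∧ vnum (vof a) = a := by decide

/-- The sextet of the base trio labelled by a vector. -/
noncomputable def sxB (v : V3) : Finset (Finset Cfsg.GolayPt) := denS (ft (vnum v) 0)

theorem ft_facts : allB (fun a => a == 0 || (goodS (ft a 0) &&
    allB (fun i => relS (ft a 0) (ft a i) && decide (ft a i < 2 ^ 24) &&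
      allB (fun j => i == j || !(ft a i == ft a j)) 6) 6)) 8 = true := by
  decide +kernel

theorem mem_denS_iff {L : ℕ → ℕ} (hg : goodS (L 0) = true)
    (hL : allB (fun i => relS (L 0) (L i) && decide (L i < 2 ^ 24) &&
      allB (fun j => i == j || !(L i == L j)) 6) 6 = true) (t : Finset Cfsg.GolayPt) :
    t ∈ denS (L 0) ↔ ∃ i < 6, t = Cfsg.Agent.Lib.Helper7.setOf (L i) := by
  classical
  have hmem : ∀ i < 6, Cfsg.Agent.Lib.Helper7.setOf (L i) ∈ denS (L 0) := by
    intro i hi
    have h := allB_spec hL i hi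
    simp only [Bool.and_eq_true] at h
    rw [relS_sound _ _ h.1.1]
    exact self_mem_sextetOf _
  constructor
  · intro ht
    have hsub : (Finset.range 6).image (fun i => Cfsg.Agent.Lib.Helper7.setOf (L i))
        ⊆ denS (L 0) := by
      intro u hu
      obtain ⟨i, hi, rfl⟩ := Finset.mem_image.mp hu
      exact hmem i (Finset.mem_range.mp hi)
    have hcard : ((Finset.range 6).image (fun i => Cfsg.Agent.Lib.Helper7.setOf (L i))).card
        = 6 := by
      rw [Finset.card_image_of_injOn, Finset.card_range]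
      intro i hi j hj hij
      have hi' := Finset.mem_range.mp (Finset.mem_coe.mp hi)
      have hj' := Finset.mem_range.mp (Finset.mem_coe.mp hj)
      have h1 := allB_spec hL i hi'
      have h2 := allB_spec hL j hj'
      simp only [Bool.and_eq_true, decide_eq_true_eq] at h1 h2
      have h3 := allB_spec h1.2 j hj'
      have h4 : L i = L j := setOf_injective h1.1.2 h2.1.2 hij
      simp only [Bool.or_eq_true, beq_iff_eq, Bool.not_eq_true', beq_eq_false_iff_ne] at h3
      rcases h3 with h3 | h3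
      · exact h3
      · exact absurd h4 h3
    have heq := Finset.eq_of_subset_of_card_le hsub (by rw [hcard, (denS_mem hg).1])
    rw [← heq] at ht
    obtain ⟨i, hi, rfl⟩ := Finset.mem_image.mp ht
    exact ⟨i, Finset.mem_range.mp hi, rfl⟩
  · rintro ⟨i, hi, rfl⟩
    exact hmem i hi

theorem ft_good {a : ℕ} (ha : a < 8) (ha0 : a ≠ 0) : goodS (ft a 0) = true := by
  have h := allB_spec ft_facts a ha
  simp only [Bool.or_eq_true, beq_iff_eq, Bool.and_eq_true] at h
  rcases h with h | h
  · exact absurd h ha0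
  · exact h.1

theorem ft_lt {a : ℕ} (ha : a < 8) (ha0 : a ≠ 0) {i : ℕ} (hi : i < 6) : ft a i < 2 ^ 24 := by
  have h := allB_spec ft_facts a ha
  simp only [Bool.or_eq_true, beq_iff_eq, Bool.and_eq_true] at h
  rcases h with h | h
  · exact absurd h ha0
  · have h1 := allB_spec h.2 i hi
    simp only [Bool.and_eq_true, decide_eq_true_eq] at h1
    exact h1.1.2

theorem mem_ft_iff {a : ℕ} (ha : a < 8) (ha0 : a ≠ 0) (t : Finset Cfsg.GolayPt) :
    t ∈ denS (ft a 0) ↔ ∃ i < 6, t = Cfsg.Agent.Lib.Helper7.setOf (ft a i) := by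
  have h := allB_spec ft_facts a ha
  simp only [Bool.or_eq_true, beq_iff_eq, Bool.and_eq_true] at h
  rcases h with h | h
  · exact absurd h ha0
  · exact mem_denS_iff (L := ft a) h.1 h.2 t

theorem mem_sxB_iff {v : V3} (hv : v ≠ 0) (t : Finset Cfsg.GolayPt) :
    t ∈ sxB v ↔ ∃ i < 6, t = Cfsg.Agent.Lib.Helper7.setOf (ft (vnum v) i) :=
  mem_ft_iff (vnum_lt v) (vnum_ne v hv) t

theorem setOf_xor (a b : ℕ) : Cfsg.Agent.Lib.Helper7.setOf (a ^^^ b)
    = symmDiff (Cfsg.Agent.Lib.Helper7.setOf a) (Cfsg.Agent.Lib.Helper7.setOf b) := by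
  ext p
  rw [Finset.mem_symmDiff, mem_setOf, mem_setOf, mem_setOf, Nat.testBit_xor]
  cases a.testBit (idx p) <;> cases b.testBit (idx p) <;> simp

theorem setOf_subset_of_and {a m : ℕ} (h : a &&& m = a) :
    Cfsg.Agent.Lib.Helper7.setOf a ⊆ Cfsg.Agent.Lib.Helper7.setOf m := by
  intro p hp
  rw [mem_setOf] at hp ⊢
  rw [← h, Nat.testBit_and, Bool.and_eq_true] at hp
  exact hp.2

/-- Some tetrads of the first two sextets have symmetric difference a tetrad of the third. -/
def colB (a b c : ℕ) : Bool :=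
  anyB (fun i => anyB (fun j => anyB (fun k => ft a i ^^^ ft b j == ft c k) 6) 6) 6

theorem col_chk : allB (fun a => allB (fun b => allB (fun c =>
    a == 0 || b == 0 || c == 0 || (colB a b c == (a ^^^ b == c))) 8) 8) 8 = true := by
  decide +kernel

/-- The sextets separate the points of each octad. -/
def sepOK : Bool := allB (fun n => allB (fun i => allB (fun j =>
  !((toct n).testBit i && (toct n).testBit j && !(i == j)) ||
  anyB (fun a => !(a == 0) && anyB (fun k => (ft a k).testBit i && !(ft a k).testBit j) 6) 8)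
    24) 24) 3

set_option maxRecDepth 1000000 in
theorem sepOK_eq : sepOK = true := by
  decide +kernel

/-- The sextets refine the trio. -/
def refOK : Bool := allB (fun a => a == 0 ||
  allB (fun k => anyB (fun n => ft a k &&& toct n == ft a k) 3) 6) 8

theorem refOK_eq : refOK = true := by
  decide +kernel

theorem fano_base : FanoProp baseT sxB where
  inj := by
    intro v w hv hw h
    have h1 := denS_inj (ft_good (vnum_lt v) (vnum_ne v hv)) (ft_good (vnum_lt w) (vnum_ne w hw)) h
    have h2 : ∀ a < 8, ∀ b < 8, a ≠ 0 → b ≠ 0 → ft a 0 = ft b 0 → a = b := by decide +kernel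
    exact vnum_inj v w (h2 _ (vnum_lt v) _ (vnum_lt w) (vnum_ne v hv) (vnum_ne w hw) h1)
  col := by
    intro u v w hu hv hw
    have hchk := allB_spec (allB_spec (allB_spec col_chk (vnum u) (vnum_lt u)) (vnum v)
      (vnum_lt v)) (vnum w) (vnum_lt w)
    simp only [Bool.or_eq_true, beq_iff_eq, vnum_ne u hu, vnum_ne v hv, vnum_ne w hw,
      false_or] at hchk
    have hcol : Col (sxB u) (sxB v) (sxB w) ↔ colB (vnum u) (vnum v) (vnum w) = true := by
      unfold colB
      rw [anyB_iff]
      constructor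
      · rintro ⟨t, ht, t', ht', h3⟩
        obtain ⟨i, hi, rfl⟩ := (mem_sxB_iff hu t).mp ht
        obtain ⟨j, hj, rfl⟩ := (mem_sxB_iff hv t').mp ht'
        rw [← setOf_xor] at h3
        obtain ⟨k, hk, h4⟩ := (mem_sxB_iff hw _).mp h3
        refine ⟨i, hi, anyB_iff.mpr ⟨j, hj, anyB_iff.mpr ⟨k, hk, ?_⟩⟩⟩
        rw [beq_iff_eq]
        exact setOf_injective (Nat.xor_lt_two_pow (ft_lt (vnum_lt u) (vnum_ne u hu) hi)
          (ft_lt (vnum_lt v) (vnum_ne v hv) hj)) (ft_lt (vnum_lt w) (vnum_ne w hw) hk) h4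
      · rintro ⟨i, hi, h⟩
        obtain ⟨j, hj, h⟩ := anyB_iff.mp h
        obtain ⟨k, hk, h⟩ := anyB_iff.mp h
        rw [beq_iff_eq] at h
        refine ⟨_, (mem_sxB_iff hu _).mpr ⟨i, hi, rfl⟩, _, (mem_sxB_iff hv _).mpr ⟨j, hj, rfl⟩, ?_⟩
        rw [← setOf_xor, h]
        exact (mem_sxB_iff hw _).mpr ⟨k, hk, rfl⟩
    rw [hcol]
    constructor
    · intro h
      rw [h] at hchk
      have h1 : (vnum u ^^^ vnum v == vnum w) = true := hchk.symm
      rw [beq_iff_eq, ← vnum_add] at h1
      exact vnum_inj _ _ h1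
    · intro h
      have h1 : (vnum u ^^^ vnum v == vnum w) = true := by
        rw [beq_iff_eq, ← vnum_add, h]
      rw [h1] at hchk
      exact hchk
  sep := by
    intro o ho x hx y hy hxy
    obtain ⟨n, hn, rfl⟩ := (mem_baseT_iff o).mp ho
    rw [mem_setOf] at hx hy
    have h := allB_spec (allB_spec (allB_spec sepOK_eq n hn) (idx x) (idx_lt x)) (idx y)
      (idx_lt y)
    have hne : (idx x == idx y) = false := by
      rw [beq_eq_false_iff_ne]
      exact fun e => hxy (idx_injective e)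
    rw [hx, hy, hne] at h
    simp only [Bool.and_self, Bool.not_false, Bool.not_true, Bool.false_or] at h
    obtain ⟨a, ha, h⟩ := anyB_iff.mp h
    rw [Bool.and_eq_true] at h
    obtain ⟨ha0, h⟩ := h
    obtain ⟨k, hk, h⟩ := anyB_iff.mp h
    rw [Bool.and_eq_true] at h
    have ha0' : a ≠ 0 := by
      intro e
      rw [e] at ha0
      simp at ha0
    obtain ⟨hv0, hva⟩ := vof_facts a ha ha0'
    refine ⟨vof a, hv0, Cfsg.Agent.Lib.Helper7.setOf (ft a k), ?_, ?_, ?_⟩
    · rw [mem_sxB_iff hv0, hva]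
      exact ⟨k, hk, rfl⟩
    · rw [mem_setOf]
      exact h.1
    · rw [mem_setOf]
      have h2 := h.2
      simp only [Bool.not_eq_true'] at h2
      rw [h2]
      exact Bool.false_ne_true
  sext := fun v hv => denS_mem (ft_good (vnum_lt v) (vnum_ne v hv))
  ref := by
    intro v hv t ht
    obtain ⟨k, hk, rfl⟩ := (mem_sxB_iff hv t).mp ht
    have h := allB_spec refOK_eq (vnum v) (vnum_lt v)
    simp only [Bool.or_eq_true, beq_iff_eq, vnum_ne v hv, false_or] at h
    obtain ⟨n, hn, h1⟩ := anyB_iff.mp (allB_spec h k hk)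
    rw [beq_iff_eq] at h1
    exact ⟨_, (mem_baseT_iff _).mpr ⟨n, hn, rfl⟩, setOf_subset_of_and h1⟩

theorem fano_trio {T : Finset (Finset Cfsg.GolayPt)} (hT : T ∈ Cfsg.trios) :
    ∃ sx : V3 → Finset (Finset Cfsg.GolayPt), FanoProp T sx := by
  rw [← orbit_baseT] at hT
  obtain ⟨g, rfl⟩ := hT
  exact ⟨_, fano_base.smul g.2⟩

end Cfsg.Agent.Lib.Helper26
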