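import Cfsg.Agent.Lib.Helper26.DodPair
import Cfsg.Agent.Lib.Helper26.OrbLev
import Cfsg.Agent.Lib.Helper26.TrStrBase

set_option autoImplicit false

open scoped Pointwise

namespace Cfsg.Agent.Lib.Helper26

open Cfsg.Agent.Lib.Helper7 Cfsg.Agent.Lib.Helper93

/-! ### Quartets of a dodecad: equivariance -/

theorem hexadsOn_smul {g : Equiv.Perm Cfsg.GolayPt} (hg : g ∈ Cfsg.M24)
    {d h : Finset Cfsg.GolayPt} (hh : h ∈ Cfsg.hexadsOn d) : g • h ∈ Cfsg.hexadsOn (g • d) := by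
  obtain ⟨hc, o, ho, hod⟩ := hh
  refine ⟨by rw [Finset.card_smul_finset, hc], g • o, smul_mem_octads hg ho, ?_⟩
  rw [← Finset.smul_finset_inter, hod]

theorem quartets_smul {g : Equiv.Perm Cfsg.GolayPt} (hg : g ∈ Cfsg.M24)
    {d : Finset Cfsg.GolayPt} {Q : Finset (Finset Cfsg.GolayPt)} (hQ : Q ∈ Cfsg.quartets d) :
    g • Q ∈ Cfsg.quartets (g • d) := by
  obtain ⟨h4, h3, hh⟩ := hQ
  refine ⟨by rw [Finset.card_smul_finset, h4], ?_, ?_⟩
  · intro t ht
    obtain ⟨t', ht', rfl⟩ := Finset.mem_smul_finset.mp ht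
    exact ⟨by rw [Finset.card_smul_finset, (h3 t' ht').1],
      Finset.smul_finset_subset_smul_finset (h3 t' ht').2⟩
  · intro t ht u hu hne
    obtain ⟨t', ht', rfl⟩ := Finset.mem_smul_finset.mp ht
    obtain ⟨u', hu', rfl⟩ := Finset.mem_smul_finset.mp hu
    rw [← Finset.smul_finset_union]
    exact hexadsOn_smul hg (hh t' ht' u' hu' (fun e => hne (by rw [e])))

theorem quartet_disjoint {d : Finset Cfsg.GolayPt} {Q : Finset (Finset Cfsg.GolayPt)}
    (hQ : Q ∈ Cfsg.quartets d) {t u : Finset Cfsg.GolayPt} (ht : t ∈ Q) (hu : u ∈ Q)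
    (hne : t ≠ u) : Disjoint t u := by
  have h6 : (t ∪ u).card = 6 := (hQ.2.2 t ht u hu hne).1
  have h1 := Finset.card_union_add_card_inter t u
  rw [h6, (hQ.2.1 t ht).1, (hQ.2.1 u hu).1] at h1
  rw [Finset.disjoint_iff_inter_eq_empty, ← Finset.card_eq_zero]
  omega

/-! ### Codes of quartets -/

/-- Field number `k` (24 bits) of a code. -/
def qf (c k : ℕ) : ℕ := Nat.mod (Nat.div c (Nat.pow 2 (Nat.mul 24 k))) 16777216

/-- The code with four given fields. -/
def pack4 (a b c e : ℕ) : ℕ := a + 16777216 * (b + 16777216 * (c + 16777216 * e))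

theorem qf_lt (c k : ℕ) : qf c k < 2 ^ 24 := Nat.mod_lt _ (by norm_num)

theorem qf_pack4 {a b c e : ℕ} (ha : a < 16777216) (hb : b < 16777216) (hc : c < 16777216)
    (he : e < 16777216) : qf (pack4 a b c e) 0 = a ∧ qf (pack4 a b c e) 1 = b ∧
      qf (pack4 a b c e) 2 = c ∧ qf (pack4 a b c e) 3 = e := by
  unfold qf pack4
  refine ⟨?_, ?_, ?_, ?_⟩
  · show (a + 16777216 * (b + 16777216 * (c + 16777216 * e))) / 1 % 16777216 = a
    omega
  · show (a + 16777216 * (b + 16777216 * (c + 16777216 * e))) / 16777216 % 16777216 = b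
    omega
  · show (a + 16777216 * (b + 16777216 * (c + 16777216 * e))) / 281474976710656 % 16777216 = c
    omega
  · show (a + 16777216 * (b + 16777216 * (c + 16777216 * e))) / 4722366482869645213696
      % 16777216 = e
    omega

theorem pack4_qf {c : ℕ} (h : c < 79228162514264337593543950336) :
    c = pack4 (qf c 0) (qf c 1) (qf c 2) (qf c 3) := by
  unfold qf pack4
  show c = c / 1 % 16777216 + 16777216 * (c / 16777216 % 16777216 + 16777216 *
    (c / 281474976710656 % 16777216 + 16777216 * (c / 4722366482869645213696 % 16777216)))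
  omega

/-- The set of four sets of points of a code. -/
noncomputable def denQ (c : ℕ) : Finset (Finset Cfsg.GolayPt) :=
  (Finset.range 4).image (fun k => Cfsg.Agent.Lib.Helper7.setOf (qf c k))

theorem mem_denQ (c : ℕ) (t : Finset Cfsg.GolayPt) :
    t ∈ denQ c ↔ ∃ k < 4, t = Cfsg.Agent.Lib.Helper7.setOf (qf c k) := by
  unfold denQ
  rw [Finset.mem_image]
  constructor
  · rintro ⟨k, hk, rfl⟩
    exact ⟨k, Finset.mem_range.mp hk, rfl⟩
  · rintro ⟨k, hk, rfl⟩
    exact ⟨k, Finset.mem_range.mpr hk, rfl⟩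

/-- Image of a code under the permutation with a given inverse table. -/
def actQ (t c : ℕ) : ℕ :=
  pack4 (permT t (qf c 0)) (permT t (qf c 1)) (permT t (qf c 2)) (permT t (qf c 3))

theorem qf_actQ (t c : ℕ) {k : ℕ} (hk : k < 4) : qf (actQ t c) k = permT t (qf c k) := by
  have h := qf_pack4 (permT_lt t (qf c 0)) (permT_lt t (qf c 1)) (permT_lt t (qf c 2))
    (permT_lt t (qf c 3))
  unfold actQ
  interval_cases k
  · exact h.1
  · exact h.2.1
  · exact h.2.2.1
  · exact h.2.2.2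

theorem smul_denQ {σ : Equiv.Perm Cfsg.GolayPt} {t : ℕ} (h : RepT σ⁻¹ t) (c : ℕ) :
    σ • denQ c = denQ (actQ t c) := by
  unfold denQ
  rw [Finset.smul_finset_def, Finset.image_image]
  refine Finset.image_congr ?_
  intro k hk
  have hk' : k < 4 := Finset.mem_range.mp (Finset.mem_coe.mp hk)
  show σ • Cfsg.Agent.Lib.Helper7.setOf (qf c k)
    = Cfsg.Agent.Lib.Helper7.setOf (qf (actQ t c) k)
  rw [smul_setOf h, qf_actQ t c hk']

/-- Two codes have the same four fields, up to order. -/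
def relQ (c c' : ℕ) : Bool :=
  allB (fun k => anyB (fun j => qf c k == qf c' j) 4) 4 &&
    allB (fun j => anyB (fun k => qf c k == qf c' j) 4) 4

theorem relQ_sound (c c' : ℕ) (h : relQ c c' = true) : denQ c = denQ c' := by
  unfold relQ at h
  rw [Bool.and_eq_true] at h
  ext t
  rw [mem_denQ, mem_denQ]
  constructor
  · rintro ⟨k, hk, rfl⟩
    obtain ⟨j, hj, e⟩ := anyB_iff.mp (allB_spec h.1 k hk)
    rw [beq_iff_eq] at e
    exact ⟨j, hj, by rw [e]⟩
  · rintro ⟨j, hj, rfl⟩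
    obtain ⟨k, hk, e⟩ := anyB_iff.mp (allB_spec h.2 j hj)
    rw [beq_iff_eq] at e
    exact ⟨k, hk, by rw [e]⟩

/-- A code in normal form: fields strictly increasing. -/
def sortedQ (c : ℕ) : Bool :=
  decide (c < 79228162514264337593543950336) && decide (qf c 0 < qf c 1) &&
    decide (qf c 1 < qf c 2) && decide (qf c 2 < qf c 3)

theorem denQ_inj {c c' : ℕ} (h : sortedQ c = true) (h' : sortedQ c' = true)
    (e : denQ c = denQ c') : c = c' := by
  unfold sortedQ at h h'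
  simp only [Bool.and_eq_true, decide_eq_true_eq] at h h'
  obtain ⟨⟨⟨hc, h01⟩, h12⟩, h23⟩ := h
  obtain ⟨⟨⟨hc', h01'⟩, h12'⟩, h23'⟩ := h'
  have key : ∀ a a' : ℕ, denQ a = denQ a' → ∀ k < 4,
      qf a k = qf a' 0 ∨ qf a k = qf a' 1 ∨ qf a k = qf a' 2 ∨ qf a k = qf a' 3 := by
    intro a a' ea k hk
    have h1 : Cfsg.Agent.Lib.Helper7.setOf (qf a k) ∈ denQ a' := by
      rw [← ea, mem_denQ]
      exact ⟨k, hk, rfl⟩
    obtain ⟨j, hj, h2⟩ := (mem_denQ _ _).mp h1
    have h3 := setOf_injective (qf_lt a k) (qf_lt a' j) h2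
    interval_cases j
    · exact Or.inl h3
    · exact Or.inr (Or.inl h3)
    · exact Or.inr (Or.inr (Or.inl h3))
    · exact Or.inr (Or.inr (Or.inr h3))
  have a0 := key c c' e 0 (by norm_num)
  have a1 := key c c' e 1 (by norm_num)
  have a2 := key c c' e 2 (by norm_num)
  have a3 := key c c' e 3 (by norm_num)
  have b0 := key c' c e.symm 0 (by norm_num)
  have b1 := key c' c e.symm 1 (by norm_num)
  have b2 := key c' c e.symm 2 (by norm_num)
  have b3 := key c' c e.symm 3 (by norm_num)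
  have e0 : qf c 0 = qf c' 0 := by omega
  have e3 : qf c 3 = qf c' 3 := by omega
  have e1 : qf c 1 = qf c' 1 := by omega
  have e2 : qf c 2 = qf c' 2 := by omega
  rw [pack4_qf hc, pack4_qf hc', e0, e1, e2, e3]

theorem setOf_union (a b : ℕ) : Cfsg.Agent.Lib.Helper7.setOf (a ||| b)
    = Cfsg.Agent.Lib.Helper7.setOf a ∪ Cfsg.Agent.Lib.Helper7.setOf b := by
  ext p
  rw [Finset.mem_union, mem_setOf, mem_setOf, mem_setOf, Nat.testBit_or, Bool.or_eq_true]

theorem setOf_zero : Cfsg.Agent.Lib.Helper7.setOf 0 = ∅ := by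
  ext p
  rw [mem_setOf, Nat.zero_testBit]
  simp

theorem and_eq_of_subset {a m : ℕ} (ha : a < 2 ^ 24)
    (h : Cfsg.Agent.Lib.Helper7.setOf a ⊆ Cfsg.Agent.Lib.Helper7.setOf m) : m &&& a = a := by
  apply setOf_injective (Nat.and_lt_two_pow m ha) ha
  rw [← setOf_inter]
  exact Finset.inter_eq_right.mpr h

/-! ### Transport of the level-set structure by conjugation -/

theorem OrbLev.conj {G α : Type*} [Group G] [MulAction G α] {H H' : Subgroup G}
    {Ω Ω' : Set α} {c : α → ℕ} {J : Finset ℕ} {n : ℕ → ℕ} (g : G)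
    (hH : ∀ h ∈ H, g * h * g⁻¹ ∈ H') (h1 : ∀ y ∈ Ω, g • y ∈ Ω') (h2 : ∀ y ∈ Ω', g⁻¹ • y ∈ Ω)
    (hinv : ∀ k ∈ H', ∀ y ∈ Ω', k • y ∈ Ω') (h : OrbLev ↥H Ω c J n) :
    OrbLev ↥H' Ω' (fun y => c (g⁻¹ • y)) J n where
  fin := by
    apply (h.fin.image (fun z => g • z)).subset
    intro y hy
    exact ⟨g⁻¹ • y, h2 y hy, smul_inv_smul g y⟩
  inv := fun k y hy => hinv k.1 k.2 y hy
  trans := by
    intro y hy z hz hyz
    obtain ⟨u, huy⟩ := h.trans _ (h2 y hy) _ (h2 z hz) hyz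
    have huy' : u.1 • g⁻¹ • y = g⁻¹ • z := huy
    refine ⟨⟨g * u.1 * g⁻¹, hH u.1 u.2⟩, ?_⟩
    show (g * u.1 * g⁻¹) • y = z
    rw [mul_smul, mul_smul, huy', smul_inv_smul]
  mem := fun y hy => h.mem _ (h2 y hy)
  card := by
    intro i hi
    rw [← h.card i hi]
    have hset : {y | y ∈ Ω' ∧ c (g⁻¹ • y) = i} = (fun z => g • z) '' {z | z ∈ Ω ∧ c z = i} := by
      ext y
      constructor
      · rintro ⟨hy, hcy⟩
        exact ⟨g⁻¹ • y, ⟨h2 y hy, hcy⟩, smul_inv_smul g y⟩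
      · rintro ⟨z, ⟨hz, hcz⟩, rfl⟩
        refine ⟨h1 z hz, ?_⟩
        show c (g⁻¹ • g • z) = i
        rw [inv_smul_smul]
        exact hcz
    rw [hset, Set.ncard_image_of_injective _ (MulAction.injective g)]

end Cfsg.Agent.Lib.Helper26
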