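import Cfsg.Agent.Lib.Helper26.SextetData
import Cfsg.Agent.Lib.Helper26.SubOrb
import Cfsg.Agent.Lib.Helper26.SetTrans
import Cfsg.Agent.Lib.Helper26.OctOrb
import Cfsg.Agent.Lib.Helper93.Sextets

set_option autoImplicit false

open scoped Pointwise

namespace Cfsg.Agent.Lib.Helper26

open Cfsg.Agent.Lib.Helper7 Cfsg.Agent.Lib.Helper93

/-- Tetrad (through the first point) of the sextet at a position of the table. -/
def sxObj (i : ℕ) : ℕ := fld sxBig 80 0 48 i

/-- Class of the sextet at a position of the table. -/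
def sxLab (i : ℕ) : ℕ := fld sxBig 80 48 3 i

/-- Parent of a position of the table. -/
def sxPar (i : ℕ) : ℕ := fld sxBig 80 51 13 i

/-- Generator leading to a position of the table. -/
def sxGen (i : ℕ) : ℕ := fld sxBig 80 64 4 i

/-- Depth of a position of the table. -/
def sxDep (i : ℕ) : ℕ := fld sxBig 80 68 8 i

/-- Root position of a class. -/
def sxRoot (l : ℕ) : ℕ := sxRoots.getD l 0

/-- The sextet of the tetrad with a given bitmask. -/
noncomputable def denS (m : ℕ) : Finset (Finset Cfsg.GolayPt) :=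
  sextetOf (Cfsg.Agent.Lib.Helper7.setOf m)

/-- Two bitmasks are equal, or are disjoint tetrads with union an octad. -/
def relS (a b : ℕ) : Bool :=
  (a == b) || (popc a == 4 && (a &&& b == 0) && decide (a ||| b < 2 ^ 24) && isCode (a ||| b)
    && popc (a ||| b) == 8)

/-- A tetrad through the first point. -/
def goodS (m : ℕ) : Bool := popc m == 4 && m.testBit 0 && decide (m < 2 ^ 24)

theorem smul_sextetOf {g : Equiv.Perm Cfsg.GolayPt} (hg : g ∈ Cfsg.M24)
    (t : Finset Cfsg.GolayPt) : g • sextetOf t = sextetOf (g • t) := by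
  ext u
  rw [← Finset.inv_smul_mem_iff, mem_sextetOf, mem_sextetOf]
  constructor
  · rintro (h | ⟨o, ho, hto, h⟩)
    · left
      rw [← h, smul_inv_smul]
    · right
      refine ⟨g • o, smul_mem_octads hg ho, Finset.smul_finset_subset_smul_finset hto, ?_⟩
      rw [← Finset.smul_finset_sdiff, h, smul_inv_smul]
  · rintro (h | ⟨o, ho, hto, h⟩)
    · left
      rw [h, inv_smul_smul]
    · right
      refine ⟨g⁻¹ • o, smul_mem_octads (Cfsg.M24.inv_mem hg) ho, ?_, ?_⟩
      · rw [Finset.subset_smul_finset_iff, inv_inv]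
        exact hto
      · rw [← h, Finset.smul_finset_sdiff, inv_smul_smul]

theorem relS_sound (a b : ℕ) (h : relS a b = true) : denS a = denS b := by
  unfold relS at h
  rw [Bool.or_eq_true] at h
  rcases h with h | h
  · rw [beq_iff_eq] at h
    rw [h]
  · simp only [Bool.and_eq_true, beq_iff_eq, decide_eq_true_eq] at h
    obtain ⟨⟨⟨⟨h4, hab⟩, hlt⟩, hcode⟩, h8⟩ := h
    have ht : (Cfsg.Agent.Lib.Helper7.setOf a).card = 4 := by rw [card_setOf, h4]
    have ho : Cfsg.Agent.Lib.Helper7.setOf (a ||| b) ∈ Cfsg.octads :=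
      ⟨setOf_mem_golaySupports hlt hcode, by rw [card_setOf, h8]⟩
    have hsub : Cfsg.Agent.Lib.Helper7.setOf a ⊆ Cfsg.Agent.Lib.Helper7.setOf (a ||| b) := by
      intro p hp
      rw [mem_setOf] at hp ⊢
      rw [Nat.testBit_or, hp]
      rfl
    have hdiff : Cfsg.Agent.Lib.Helper7.setOf (a ||| b) \ Cfsg.Agent.Lib.Helper7.setOf a
        = Cfsg.Agent.Lib.Helper7.setOf b := by
      ext p
      rw [Finset.mem_sdiff, mem_setOf, mem_setOf, mem_setOf, Nat.testBit_or]
      have hz : (a &&& b).testBit (idx p) = false := by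
        rw [hab]
        exact Nat.zero_testBit _
      rw [Nat.testBit_and] at hz
      cases ha : a.testBit (idx p) <;> cases hb : b.testBit (idx p) <;> simp_all
    have hb : Cfsg.Agent.Lib.Helper7.setOf b ∈ sextetOf (Cfsg.Agent.Lib.Helper7.setOf a) :=
      mem_sextetOf.mpr (Or.inr ⟨_, ho, hsub, hdiff⟩)
    exact sextet_eq_sextetOf (sextetOf_mem ht) hb

theorem denS_mem {m : ℕ} (h : goodS m = true) : denS m ∈ Cfsg.sextets := by
  unfold goodS at h
  simp only [Bool.and_eq_true, beq_iff_eq, decide_eq_true_eq] at h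
  exact sextetOf_mem (by rw [card_setOf, h.1.1])

theorem denS_inj {a b : ℕ} (ha : goodS a = true) (hb : goodS b = true) (h : denS a = denS b) :
    a = b := by
  unfold goodS at ha hb
  simp only [Bool.and_eq_true, beq_iff_eq, decide_eq_true_eq] at ha hb
  obtain ⟨⟨ha4, ha0⟩, halt⟩ := ha
  obtain ⟨⟨hb4, hb0⟩, hblt⟩ := hb
  have hmem : Cfsg.Agent.Lib.Helper7.setOf b ∈ sextetOf (Cfsg.Agent.Lib.Helper7.setOf a) := by
    have h1 : Cfsg.Agent.Lib.Helper7.setOf b ∈ denS b := self_mem_sextetOf _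
    rw [← h] at h1
    exact h1
  rcases mem_sextetOf.mp hmem with h1 | ⟨o, -, -, h1⟩
  · exact (setOf_injective hblt halt h1).symm
  · exfalso
    have hp : pt 0 ∈ Cfsg.Agent.Lib.Helper7.setOf b := by
      rw [mem_setOf, idx_pt (by norm_num)]
      exact hb0
    rw [← h1, Finset.mem_sdiff] at hp
    apply hp.2
    rw [mem_setOf, idx_pt (by norm_num)]
    exact ha0

/-- The base sextet. -/
noncomputable abbrev baseSx : Finset (Finset Cfsg.GolayPt) := denS 15

/-- The stabiliser of the base sextet in the group of the code. -/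
noncomputable def sxS : Subgroup (Equiv.Perm Cfsg.GolayPt) :=
  Cfsg.M24 ⊓ MulAction.stabilizer (Equiv.Perm Cfsg.GolayPt) baseSx

theorem sxTinv_eq : sxWords.map (fun w => invT (evalT ltabs2 w)) = sxTinv := by
  decide +kernel

/-- Elements of the stabiliser of the base sextet. -/
noncomputable def sxGens : List (Equiv.Perm Cfsg.GolayPt) := sxWords.map (evalW letters2)

theorem sxGens_rep : List.Forall₂ (fun σ t => RepT σ⁻¹ t) sxGens sxTinv := by
  rw [← sxTinv_eq]
  exact rep_inv_words sxWords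

theorem sxTinv_fix : sxTinv.all (fun t => relS (permT t 15) 15) = true := by
  decide +kernel

theorem sxGens_mem : ∀ σ ∈ sxGens, σ ∈ sxS := by
  intro σ hσ
  have hM : σ ∈ Cfsg.M24 := words_mem_M24 sxWords σ hσ
  refine ⟨hM, ?_⟩
  obtain ⟨t, ht, hR⟩ := forall₂_mem_left sxGens_rep hσ
  show σ • baseSx = baseSx
  have h1 := List.all_eq_true.mp sxTinv_fix t ht
  rw [baseSx, denS, smul_sextetOf hM, smul_setOf hR]
  exact relS_sound _ _ h1

theorem sx_hact : ∀ σ ∈ sxS, ∀ (t c : ℕ), RepT σ⁻¹ t → σ • denS c = denS (permT t c) := by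
  intro σ hσ t c hR
  rw [denS, smul_sextetOf hσ.1, smul_setOf hR]
  rfl

set_option maxRecDepth 1000000 in
theorem sxChk : allB (stepOK permT relS sxTinv 1771 sxObj sxLab sxPar sxGen sxDep sxRoot) 1771
    = true := by
  decide +kernel

set_option maxRecDepth 1000000 in
theorem sxGood : allB (fun i => goodS (sxObj i)) 1771 = true := by
  decide +kernel

set_option maxRecDepth 1000000 in
theorem sxSorted : allB (fun i => decide (sxObj i < sxObj (i + 1))) (1771 - 1) = true := by
  decide +kernel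

set_option maxRecDepth 1000000 in
theorem sxLabs : allB (fun i => decide (sxLab i < 4)) 1771 = true := by
  decide +kernel

set_option maxRecDepth 1000000 in
theorem sxCounts : cntL (fun i => sxLab i == 0) 1771 = 1 ∧ cntL (fun i => sxLab i == 1) 1771 = 90 ∧
    cntL (fun i => sxLab i == 2) 1771 = 240 ∧ cntL (fun i => sxLab i == 3) 1771 = 1440 := by
  refine ⟨?_, ?_, ?_, ?_⟩ <;> decide +kernel

theorem smul_mem_sextets {g : Equiv.Perm Cfsg.GolayPt} (hg : g ∈ Cfsg.M24)
    {S : Finset (Finset Cfsg.GolayPt)} (hS : S ∈ Cfsg.sextets) : g • S ∈ Cfsg.sextets := by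
  obtain ⟨t, ht⟩ : ∃ t, t ∈ S := Finset.card_pos.mp (by rw [hS.1]; norm_num)
  rw [sextet_eq_sextetOf hS ht, smul_sextetOf hg]
  exact sextetOf_mem (by rw [Finset.card_smul_finset]; exact hS.2.1 t ht)

theorem orbit_baseSx : MulAction.orbit (↥Cfsg.M24) baseSx = Cfsg.sextets := by
  have h15 : (Cfsg.Agent.Lib.Helper7.setOf 15).card = 4 := by
    rw [card_setOf]
    decide
  ext S
  constructor
  · rintro ⟨g, rfl⟩
    exact smul_mem_sextets g.2 (sextetOf_mem h15)
  · intro hS
    obtain ⟨t, ht⟩ : ∃ t, t ∈ S := Finset.card_pos.mp (by rw [hS.1]; norm_num)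
    have ht4 := hS.2.1 t ht
    obtain ⟨g, hg, -, hgt⟩ := M24_pair_transport (s := ∅)
      (y := Cfsg.Agent.Lib.Helper7.setOf 15) (z := t) (h15.trans ht4.symm) (by simp)
      (by simp [h15])
    refine ⟨⟨g, hg⟩, ?_⟩
    show g • baseSx = S
    rw [baseSx, denS, smul_sextetOf hg, hgt]
    exact (sextet_eq_sextetOf hS ht).symm

/-- Sizes of the orbits of a sextet stabiliser on sextets. -/
def nSx (i : ℕ) : ℕ :=
  if i = 0 then 1 else if i = 1 then 90 else if i = 2 then 240 else if i = 3 then 1440 else 0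

theorem subOrb_baseSx : ∃ c : Finset (Finset Cfsg.GolayPt) → ℕ,
    SubOrb (↥Cfsg.M24) baseSx Cfsg.sextets c (Finset.range 4) nSx := by
  have hgood : ∀ i < 1771, goodS (sxObj i) = true := allB_spec sxGood
  have hinj : ∀ i < 1771, ∀ j < 1771, denS (sxObj i) = denS (sxObj j) → i = j := by
    intro i hi j hj h
    exact inj_of_sorted sxSorted i hi j hj (denS_inj (hgood i hi) (hgood j hj) h)
  have htr := cert_trans sxS denS permT relS sx_hact relS_sound sxGens_rep sxGens_mem 1771
    sxObj sxLab sxPar sxGen sxDep sxRoot sxChk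
  obtain ⟨c, -, hsub⟩ := subOrb_of_labels (G := ↥Cfsg.M24) baseSx Cfsg.sextets orbit_baseSx 1771
    (fun i => denS (sxObj i)) sxLab (fun i hi => denS_mem (hgood i hi)) ncard_sextets
    (Set.toFinite _) hinj
    (fun i hi j hj hij => by
      obtain ⟨u, hu, huij⟩ := htr i hi j hj hij
      exact ⟨⟨u, hu.1⟩, hu.2, huij⟩)
    (Finset.range 4) (fun i hi => Finset.mem_range.mpr (by simpa using allB_spec sxLabs i hi))
  refine ⟨c, hsub.congr_n ?_⟩
  intro j hj
  rw [cntL_eq']
  obtain ⟨h0, h1, h2, h3⟩ := sxCounts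
  rw [Finset.mem_range] at hj
  interval_cases j
  · exact h0
  · exact h1
  · exact h2
  · exact h3

/-- The orbits of the stabiliser of a sextet on sextets. -/
theorem subOrb_sextet {S : Finset (Finset Cfsg.GolayPt)} (hS : S ∈ Cfsg.sextets) :
    ∃ c : Finset (Finset Cfsg.GolayPt) → ℕ,
      SubOrb (↥Cfsg.M24) S Cfsg.sextets c (Finset.range 4) nSx := by
  obtain ⟨c, h⟩ := subOrb_baseSx
  rw [← orbit_baseSx] at hS
  obtain ⟨g, rfl⟩ := hS
  exact ⟨_, h.smul g⟩

end Cfsg.Agent.Lib.Helper26
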