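import Cfsg.Agent.Lib.Helper26.TrStr

set_option autoImplicit false

open scoped Pointwise

namespace Cfsg.Agent.Lib.Helper26

open Cfsg.Agent.Lib.Helper7 Cfsg.Agent.Lib.Helper93

variable {T : Finset (Finset Cfsg.GolayPt)} {sx : V3 → Finset (Finset Cfsg.GolayPt)}

/-- The permutation of the labels induced by an element of the stabiliser of the trio. -/
noncomputable def lperm (hF : FanoProp T sx) (hT : T ∈ Cfsg.trios)
    (h : ↥(MulAction.stabilizer (↥Cfsg.M24) T)) (v : V3) : V3 :=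
  if hv : v = 0 then 0 else Classical.choose (hF.perm hT h hv)

theorem lperm_zero (hF : FanoProp T sx) (hT : T ∈ Cfsg.trios)
    (h : ↥(MulAction.stabilizer (↥Cfsg.M24) T)) : lperm hF hT h 0 = 0 := dif_pos rfl

theorem lperm_spec (hF : FanoProp T sx) (hT : T ∈ Cfsg.trios)
    (h : ↥(MulAction.stabilizer (↥Cfsg.M24) T)) {v : V3} (hv : v ≠ 0) :
    lperm hF hT h v ≠ 0 ∧
      ((h : ↥Cfsg.M24) : Equiv.Perm Cfsg.GolayPt) • sx v = sx (lperm hF hT h v) := by
  unfold lperm
  rw [dif_neg hv]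
  exact Classical.choose_spec (hF.perm hT h hv)

theorem lperm_unique (hF : FanoProp T sx) (hT : T ∈ Cfsg.trios)
    (h : ↥(MulAction.stabilizer (↥Cfsg.M24) T)) {v w : V3} (hv : v ≠ 0) (hw : w ≠ 0)
    (e : ((h : ↥Cfsg.M24) : Equiv.Perm Cfsg.GolayPt) • sx v = sx w) : lperm hF hT h v = w :=
  hF.inj _ _ (lperm_spec hF hT h hv).1 hw ((lperm_spec hF hT h hv).2.symm.trans e)

theorem V3_add_self (v : V3) : v + v = 0 := by
  funext i
  exact CharTwo.add_self_eq_zero (v i)

theorem lperm_add (hF : FanoProp T sx) (hT : T ∈ Cfsg.trios)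
    (h : ↥(MulAction.stabilizer (↥Cfsg.M24) T)) (u v : V3) :
    lperm hF hT h (u + v) = lperm hF hT h u + lperm hF hT h v := by
  by_cases hu : u = 0
  · rw [hu, zero_add, lperm_zero, zero_add]
  by_cases hv : v = 0
  · rw [hv, add_zero, lperm_zero, add_zero]
  by_cases huv : u + v = 0
  · have e : u = v := add_right_cancel (huv.trans (V3_add_self v).symm)
    rw [huv, lperm_zero, e, V3_add_self]
  · obtain ⟨hu', eu⟩ := lperm_spec hF hT h hu
    obtain ⟨hv', ev⟩ := lperm_spec hF hT h hv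
    obtain ⟨hw', ew⟩ := lperm_spec hF hT h huv
    have hc : Col (sx u) (sx v) (sx (u + v)) := (hF.col u v (u + v) hu hv huv).mpr rfl
    have hc' := hc.smul ((h : ↥Cfsg.M24) : Equiv.Perm Cfsg.GolayPt)
    rw [eu, ev, ew] at hc'
    exact ((hF.col _ _ _ hu' hv' hw').mp hc').symm

theorem lperm_mul (hF : FanoProp T sx) (hT : T ∈ Cfsg.trios)
    (h h' : ↥(MulAction.stabilizer (↥Cfsg.M24) T)) (v : V3) :
    lperm hF hT (h * h') v = lperm hF hT h (lperm hF hT h' v) := by
  by_cases hv : v = 0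
  · rw [hv, lperm_zero, lperm_zero, lperm_zero]
  · obtain ⟨h1, e1⟩ := lperm_spec hF hT h' hv
    obtain ⟨h2, e2⟩ := lperm_spec hF hT h h1
    apply lperm_unique hF hT (h * h') hv h2
    show (((h : ↥Cfsg.M24) : Equiv.Perm Cfsg.GolayPt) *
      ((h' : ↥Cfsg.M24) : Equiv.Perm Cfsg.GolayPt)) • sx v = _
    rw [mul_smul, e1, e2]

theorem lperm_one (hF : FanoProp T sx) (hT : T ∈ Cfsg.trios) (v : V3) :
    lperm hF hT 1 v = v := by
  by_cases hv : v = 0
  · rw [hv, lperm_zero]
  · exact lperm_unique hF hT 1 hv hv (one_smul _ _)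

/-- The action of the stabiliser of the trio on the labels, by additive maps. -/
noncomputable def lhom (hF : FanoProp T sx) (hT : T ∈ Cfsg.trios) :
    ↥(MulAction.stabilizer (↥Cfsg.M24) T) →* AddMonoid.End V3 where
  toFun h := AddMonoidHom.mk' (lperm hF hT h) (lperm_add hF hT h)
  map_one' := AddMonoidHom.ext fun v => lperm_one hF hT v
  map_mul' h h' := AddMonoidHom.ext fun v => lperm_mul hF hT h h' v

theorem lhom_apply (hF : FanoProp T sx) (hT : T ∈ Cfsg.trios)
    (h : ↥(MulAction.stabilizer (↥Cfsg.M24) T)) (v : V3) :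
    lhom hF hT h v = lperm hF hT h v := rfl

/-- The matrix of an additive map of the space of dimension three over the field of two
elements. -/
noncomputable def matHom : AddMonoid.End V3 →* Matrix (Fin 3) (Fin 3) (ZMod 2) where
  toFun f := LinearMap.toMatrix' (AddMonoidHom.toZModLinearMap 2 f)
  map_one' := by
    have e : AddMonoidHom.toZModLinearMap 2 (1 : AddMonoid.End V3) = LinearMap.id :=
      LinearMap.ext fun _ => rfl
    rw [e, LinearMap.toMatrix'_id]
  map_mul' f g := by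
    have e : AddMonoidHom.toZModLinearMap 2 (f * g)
        = (AddMonoidHom.toZModLinearMap 2 f) ∘ₗ (AddMonoidHom.toZModLinearMap 2 g) :=
      LinearMap.ext fun _ => rfl
    rw [e, LinearMap.toMatrix'_comp]

theorem matHom_injective : Function.Injective matHom := fun _ _ h =>
  AddMonoidHom.toZModLinearMap_injective 2 (LinearMap.toMatrix'.injective h)

theorem card_GL32 : Nat.card (GL (Fin 3) (ZMod 2)) = 168 := by
  rw [Matrix.card_GL_field]
  simp [Fin.prod_univ_three]

/-- The structure of the stabiliser of a trio with a plane of seven sextets. -/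
theorem trio_structure (hF : FanoProp T sx) (hT : T ∈ Cfsg.trios)
    (hcard : Nat.card ↥(MulAction.stabilizer (↥Cfsg.M24) T) = 64512)
    (φ : ↥(MulAction.stabilizer (↥Cfsg.M24) T) →* Equiv.Perm (Fin 3))
    (hφ : ∀ g, φ g = 1 → ∀ o ∈ T, ((g : ↥Cfsg.M24) : Equiv.Perm Cfsg.GolayPt) • o = o) :
    ∃ (N : Subgroup ↥(MulAction.stabilizer (↥Cfsg.M24) T)) (_ : N.Normal), Nat.card N = 64 ∧
      (∀ x ∈ N, x * x = 1) ∧
      Nonempty (↥(MulAction.stabilizer (↥Cfsg.M24) T) ⧸ N ≃*
        GL (Fin 3) (ZMod 2) × Equiv.Perm (Fin 3)) := by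
  classical
  let ρ : ↥(MulAction.stabilizer (↥Cfsg.M24) T) →* GL (Fin 3) (ZMod 2) :=
    (matHom.comp (lhom hF hT)).toHomUnits
  let ψ : ↥(MulAction.stabilizer (↥Cfsg.M24) T) →* GL (Fin 3) (ZMod 2) × Equiv.Perm (Fin 3) :=
    ρ.prod φ
  have hker : ∀ g ∈ ψ.ker, InK T sx ((g : ↥Cfsg.M24) : Equiv.Perm Cfsg.GolayPt) := by
    intro g hg
    rw [MonoidHom.mem_ker] at hg
    have hg' : (ρ g, φ g) = 1 := hg
    rw [Prod.mk_eq_one] at hg'
    obtain ⟨h1, h2⟩ := hg'
    refine ⟨hφ g h2, ?_⟩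
    intro v hv
    have h3 : matHom (lhom hF hT g) = 1 := by
      have h4 := congrArg Units.val h1
      exact h4
    have h4 : lhom hF hT g = 1 := matHom_injective (h3.trans matHom.map_one.symm)
    have h5 : lperm hF hT g v = v := by
      rw [← lhom_apply, h4]
      rfl
    have h6 := (lperm_spec hF hT g hv).2
    rw [h5] at h6
    exact h6
  have hle : Nat.card ψ.ker ≤ 64 := card_le_of_InK hF hT ψ.ker hker
  have h1 := Subgroup.card_mul_index ψ.ker
  rw [Subgroup.index_ker, hcard] at h1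
  have htot : Nat.card (GL (Fin 3) (ZMod 2) × Equiv.Perm (Fin 3)) = 1008 := by
    rw [Nat.card_prod, card_GL32, Nat.card_perm, Nat.card_eq_fintype_card, Fintype.card_fin]
    rfl
  have hle2 : Nat.card ψ.range ≤ 1008 := by
    rw [← htot]
    exact Subgroup.card_le_card_group _
  have hk64 : Nat.card ψ.ker = 64 := by
    by_contra hne
    have hlt : Nat.card ψ.ker ≤ 63 := by omega
    have h2 := Nat.mul_le_mul hlt hle2
    omega
  have hr : Nat.card ψ.range = 1008 := by
    rw [hk64] at h1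
    omega
  have hsurj : Function.Surjective ψ := by
    rw [← MonoidHom.range_eq_top]
    exact Subgroup.eq_top_of_card_eq _ (hr.trans htot.symm)
  refine ⟨ψ.ker, MonoidHom.normal_ker ψ, hk64, ?_, ⟨QuotientGroup.quotientKerEquivOfSurjective ψ hsurj⟩⟩
  intro x hx
  exact Subtype.ext (Subtype.ext (InK.sq hF hT (hker x hx)))

end Cfsg.Agent.Lib.Helper26
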