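import Cfsg.Agent.Lib.Helper26.TrioOrb
import Cfsg.Agent.Lib.Helper26.SxStr
import Cfsg.Agent.S5612

set_option autoImplicit false

open scoped Pointwise

namespace Cfsg.Agent.Lib.Helper26

open Cfsg.Agent.Lib.Helper7 Cfsg.Agent.Lib.Helper93

/-! ### Trios: basic facts -/

theorem trio_cover {T : Finset (Finset Cfsg.GolayPt)} (hT : T ∈ Cfsg.trios)
    (x : Cfsg.GolayPt) : ∃ o ∈ T, x ∈ o := by
  classical
  have hcard : (T.biUnion id).card = 24 := by
    rw [Finset.card_biUnion]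
    · have h8 : ∀ o ∈ T, (id o).card = 8 := fun o ho => (hT.2.1 o ho).2
      rw [Finset.sum_congr rfl h8]
      simp [hT.1]
    · intro o ho o' ho' h
      exact hT.2.2 o ho o' ho' h
  have huniv : T.biUnion id = Finset.univ :=
    Finset.eq_univ_of_card _ (by rw [hcard, card_golayPt])
  have hx : x ∈ T.biUnion id := by
    rw [huniv]
    exact Finset.mem_univ x
  obtain ⟨o, ho, hxo⟩ := Finset.mem_biUnion.mp hx
  exact ⟨o, ho, hxo⟩

theorem trio_eq_of_mem {T : Finset (Finset Cfsg.GolayPt)} (hT : T ∈ Cfsg.trios)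
    {o o' : Finset Cfsg.GolayPt} (ho : o ∈ T) (ho' : o' ∈ T) {x : Cfsg.GolayPt} (hx : x ∈ o)
    (hx' : x ∈ o') : o = o' := by
  by_contra h
  exact Finset.disjoint_left.mp (hT.2.2 o ho o' ho' h) hx hx'

/-- The tetrads of a sextet inside an octad are a tetrad and its complement in the octad. -/
theorem sextet_two_in_octad {s : Finset (Finset Cfsg.GolayPt)} (hs : s ∈ Cfsg.sextets)
    {o : Finset Cfsg.GolayPt} (ho : o.card = 8) {t t' : Finset Cfsg.GolayPt} (ht : t ∈ s)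
    (ht' : t' ∈ s) (hto : t ⊆ o) (hto' : t' ⊆ o) : t' = t ∨ t' = o \ t := by
  by_cases h : t' = t
  · exact Or.inl h
  · right
    have hd := sextet_disjoint hs ht' ht h
    apply Finset.eq_of_subset_of_card_le
    · intro x hx
      exact Finset.mem_sdiff.mpr ⟨hto' hx, fun hxt => Finset.disjoint_left.mp hd hx hxt⟩
    · rw [Finset.card_sdiff_of_subset hto, ho, hs.2.1 t ht, hs.2.1 t' ht']

/-- With the swapping property, every permutation of the members is induced by the stabiliser. -/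
theorem induce_of_swap {S : Finset (Finset Cfsg.GolayPt)} (hsw : SwapProp S)
    (e : Equiv.Perm ↥S) : ∃ g ∈ MulAction.stabilizer (↥Cfsg.M24) S, ∀ t : ↥S,
      (g : Equiv.Perm Cfsg.GolayPt) • (t : Finset Cfsg.GolayPt)
        = ((e t : ↥S) : Finset Cfsg.GolayPt) := by
  classical
  induction e using Equiv.Perm.swap_induction_on with
  | one => exact ⟨1, Subgroup.one_mem _, fun t => one_smul _ _⟩
  | swap_mul f x y hxy ih =>
    obtain ⟨g, hg, hgf⟩ := ih
    obtain ⟨h, hh, hxy', hyx', hfix⟩ := hsw x x.2 y y.2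
    have hst : (⟨h, hh⟩ : ↥Cfsg.M24) ∈ MulAction.stabilizer (↥Cfsg.M24) S :=
      smul_eq_of_swap x.2 y.2 hxy' hyx' hfix
    refine ⟨⟨h, hh⟩ * g, Subgroup.mul_mem _ hst hg, fun t => ?_⟩
    show (h * (g : Equiv.Perm Cfsg.GolayPt)) • (t : Finset Cfsg.GolayPt) = _
    rw [mul_smul, hgf t, Equiv.Perm.mul_apply]
    by_cases h1 : f t = x
    · rw [h1, Equiv.swap_apply_left]
      exact hxy'
    · by_cases h2 : f t = y
      · rw [h2, Equiv.swap_apply_right]
        exact hyx'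
      · rw [Equiv.swap_apply_of_ne_of_ne h1 h2]
        exact hfix _ (f t).2 (fun h => h1 (Subtype.ext h)) (fun h => h2 (Subtype.ext h))

/-! ### The plane of the seven sextets refining a trio -/

/-- The space of dimension three over the field of two elements. -/
abbrev V3 : Type := Fin 3 → ZMod 2

/-- Some tetrads of the first two sextets have symmetric difference a tetrad of the third. -/
def Col (s s' s'' : Finset (Finset Cfsg.GolayPt)) : Prop :=
  ∃ t ∈ s, ∃ t' ∈ s', symmDiff t t' ∈ s''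

theorem Col.smul (σ : Equiv.Perm Cfsg.GolayPt) {s s' s'' : Finset (Finset Cfsg.GolayPt)}
    (h : Col s s' s'') : Col (σ • s) (σ • s') (σ • s'') := by
  obtain ⟨t, ht, t', ht', h3⟩ := h
  refine ⟨σ • t, Finset.smul_mem_smul_finset ht, σ • t', Finset.smul_mem_smul_finset ht', ?_⟩
  rw [← Finset.smul_finset_symmDiff]
  exact Finset.smul_mem_smul_finset h3

/-- Seven sextets refining the trio `T`, labelled by the nonzero vectors so that the lines of
the plane are detected by symmetric differences of tetrads, and separating the points of each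
octad. -/
structure FanoProp (T : Finset (Finset Cfsg.GolayPt))
    (sx : V3 → Finset (Finset Cfsg.GolayPt)) : Prop where
  inj : ∀ v w, v ≠ 0 → w ≠ 0 → sx v = sx w → v = w
  col : ∀ u v w, u ≠ 0 → v ≠ 0 → w ≠ 0 → (Col (sx u) (sx v) (sx w) ↔ u + v = w)
  sep : ∀ o ∈ T, ∀ x ∈ o, ∀ y ∈ o, x ≠ y → ∃ v, v ≠ 0 ∧ ∃ t ∈ sx v, x ∈ t ∧ y ∉ t
  sext : ∀ v, v ≠ 0 → sx v ∈ Cfsg.sextets
  ref : ∀ v, v ≠ 0 → ∀ t ∈ sx v, ∃ o ∈ T, t ⊆ o

theorem FanoProp.smul {T : Finset (Finset Cfsg.GolayPt)}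
    {sx : V3 → Finset (Finset Cfsg.GolayPt)} (h : FanoProp T sx)
    {σ : Equiv.Perm Cfsg.GolayPt} (hσ : σ ∈ Cfsg.M24) :
    FanoProp (σ • T) (fun v => σ • sx v) where
  inj := fun v w hv hw e => h.inj v w hv hw (smul_left_cancel σ e)
  col := by
    intro u v w hu hv hw
    rw [← h.col u v w hu hv hw]
    constructor
    · intro hc
      have h1 := hc.smul σ⁻¹
      simp only [inv_smul_smul] at h1
      exact h1
    · intro hc
      exact hc.smul σ
  sep := by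
    intro o ho x hx y hy hxy
    obtain ⟨o', ho', rfl⟩ := Finset.mem_smul_finset.mp ho
    obtain ⟨v, hv, t, ht, hxt, hyt⟩ := h.sep o' ho' (σ⁻¹ x) (Finset.inv_smul_mem_iff.mpr hx)
      (σ⁻¹ y) (Finset.inv_smul_mem_iff.mpr hy) (fun e => hxy (σ⁻¹.injective e))
    refine ⟨v, hv, σ • t, Finset.smul_mem_smul_finset ht, Finset.inv_smul_mem_iff.mp hxt, ?_⟩
    intro hy'
    exact hyt (Finset.inv_smul_mem_iff.mpr hy')
  sext := fun v hv => smul_mem_sextets hσ (h.sext v hv)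
  ref := by
    intro v hv t ht
    obtain ⟨t', ht', rfl⟩ := Finset.mem_smul_finset.mp ht
    obtain ⟨o, ho, hto⟩ := h.ref v hv t' ht'
    exact ⟨σ • o, Finset.smul_mem_smul_finset ho, Finset.smul_finset_subset_smul_finset hto⟩

theorem ncard_V3_ne_zero : ({v : V3 | v ≠ 0} : Set V3).ncard = 7 := by
  rw [Set.ncard_eq_toFinset_card']
  decide

/-- The stabiliser of the trio permutes the seven sextets. -/
theorem FanoProp.perm {T : Finset (Finset Cfsg.GolayPt)}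
    {sx : V3 → Finset (Finset Cfsg.GolayPt)} (hF : FanoProp T sx) (hT : T ∈ Cfsg.trios)
    (h : ↥(MulAction.stabilizer (↥Cfsg.M24) T)) {v : V3} (hv : v ≠ 0) :
    ∃ w, w ≠ 0 ∧ ((h : ↥Cfsg.M24) : Equiv.Perm Cfsg.GolayPt) • sx v = sx w := by
  classical
  let R : Set (Finset (Finset Cfsg.GolayPt)) :=
    {s | s ∈ Cfsg.sextets ∧ ∀ t ∈ s, ∃ o ∈ T, t ⊆ o}
  have hRinv : ∀ (k : ↥(MulAction.stabilizer (↥Cfsg.M24) T)) (s : Finset (Finset Cfsg.GolayPt)),
      s ∈ R → k • s ∈ R := by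
    rintro k s ⟨hs, href⟩
    refine ⟨smul_mem_sextets k.1.2 hs, ?_⟩
    intro t ht
    obtain ⟨t', ht', rfl⟩ := Finset.mem_smul_finset.mp ht
    obtain ⟨o, ho, hto⟩ := href t' ht'
    refine ⟨((k : ↥Cfsg.M24) : Equiv.Perm Cfsg.GolayPt) • o, ?_,
      Finset.smul_finset_subset_smul_finset hto⟩
    have hk : ((k : ↥Cfsg.M24) : Equiv.Perm Cfsg.GolayPt) • T = T := k.2
    have h1 := Finset.smul_mem_smul_finset (a := ((k : ↥Cfsg.M24) : Equiv.Perm Cfsg.GolayPt)) ho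
    rwa [hk] at h1
  obtain ⟨o₁, ho₁⟩ : ∃ o, o ∈ T := Finset.card_pos.mp (by rw [hT.1]; norm_num)
  have h8 : o₁.card = 8 := (hT.2.1 o₁ ho₁).2
  obtain ⟨x₀, hx₀⟩ : ∃ x, x ∈ o₁ := Finset.card_pos.mp (by rw [h8]; norm_num)
  let f : Finset (Finset Cfsg.GolayPt) → Finset Cfsg.GolayPt := fun s =>
    if hs : s ∈ Cfsg.sextets then Classical.choose (sextet_cover hs x₀) else ∅
  have hf : ∀ s (hs : s ∈ Cfsg.sextets), f s ∈ s ∧ x₀ ∈ f s := by
    intro s hs
    have h1 := Classical.choose_spec (sextet_cover hs x₀)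
    simp only [f, dif_pos hs]
    exact h1
  have hRcard : R.ncard ≤ 70 := by
    have h70 : ((Finset.powersetCard 4 o₁ : Finset (Finset Cfsg.GolayPt)) :
        Set (Finset Cfsg.GolayPt)).ncard = 70 := by
      rw [Set.ncard_coe_finset, Finset.card_powersetCard, h8]
      rfl
    rw [← h70]
    refine Set.ncard_le_ncard_of_injOn f ?_ ?_ (Finset.finite_toSet _)
    · rintro s ⟨hs, href⟩
      obtain ⟨hfs, hx⟩ := hf s hs
      obtain ⟨o, ho, hto⟩ := href _ hfs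
      have e : o = o₁ := trio_eq_of_mem hT ho ho₁ (hto hx) hx₀
      rw [Finset.mem_coe, Finset.mem_powersetCard]
      exact ⟨e ▸ hto, hs.2.1 _ hfs⟩
    · rintro s ⟨hs, -⟩ s' ⟨hs', -⟩ hss
      rw [sextet_eq_sextetOf hs (hf s hs).1, sextet_eq_sextetOf hs' (hf s' hs').1, hss]
  obtain ⟨Y₁, -, Y₂, -, Y₃, -, Y₄, -, n1, n2, n3, n4, hU⟩ := (Cfsg.Agent.S5612.result T hT).2
  have key : ∀ s ∈ R, s ∈ MulAction.orbit ↥(MulAction.stabilizer (↥Cfsg.M24) T) Y₁ := by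
    intro s hsR
    have hsub : MulAction.orbit ↥(MulAction.stabilizer (↥Cfsg.M24) T) s ⊆ R := by
      rintro _ ⟨k, rfl⟩
      exact hRinv k s hsR
    have hle : (MulAction.orbit ↥(MulAction.stabilizer (↥Cfsg.M24) T) s).ncard ≤ 70 :=
      (Set.ncard_le_ncard hsub (Set.toFinite R)).trans hRcard
    have hs : s ∈ Cfsg.sextets := hsR.1
    rw [hU] at hs
    rcases hs with ((hs | hs) | hs) | hs
    · exact hs
    · rw [MulAction.orbit_eq_iff.mpr hs, n2] at hle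
      omega
    · rw [MulAction.orbit_eq_iff.mpr hs, n3] at hle
      omega
    · rw [MulAction.orbit_eq_iff.mpr hs, n4] at hle
      omega
  have himg : sx '' {v : V3 | v ≠ 0} = MulAction.orbit ↥(MulAction.stabilizer (↥Cfsg.M24) T) Y₁ := by
    apply Set.eq_of_subset_of_ncard_le
    · rintro _ ⟨w, hw, rfl⟩
      exact key _ ⟨hF.sext w hw, hF.ref w hw⟩
    · rw [n1, Set.InjOn.ncard_image, ncard_V3_ne_zero]
      intro v hv w hw hvw
      exact hF.inj v w hv hw hvw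
    · exact Set.toFinite _
  have hmem : h • sx v ∈ MulAction.orbit ↥(MulAction.stabilizer (↥Cfsg.M24) T) Y₁ := by
    obtain ⟨k, hk⟩ := key _ ⟨hF.sext v hv, hF.ref v hv⟩
    refine ⟨h * k, ?_⟩
    show (h * k) • Y₁ = h • sx v
    rw [mul_smul]
    exact congrArg (h • ·) hk
  rw [← himg] at hmem
  obtain ⟨w, hw, hws⟩ := hmem
  exact ⟨w, hw, hws.symm⟩

/-! ### Elements fixing the octads and the seven sextets -/

/-- The permutation fixes each octad of the trio and each of the seven sextets. -/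
def InK (T : Finset (Finset Cfsg.GolayPt)) (sx : V3 → Finset (Finset Cfsg.GolayPt))
    (h : Equiv.Perm Cfsg.GolayPt) : Prop :=
  (∀ o ∈ T, h • o = o) ∧ ∀ v, v ≠ 0 → h • sx v = sx v

theorem InK.mul {T : Finset (Finset Cfsg.GolayPt)} {sx : V3 → Finset (Finset Cfsg.GolayPt)}
    {h k : Equiv.Perm Cfsg.GolayPt} (hh : InK T sx h) (hk : InK T sx k) : InK T sx (h * k) :=
  ⟨fun o ho => by rw [mul_smul, hk.1 o ho, hh.1 o ho],
    fun v hv => by rw [mul_smul, hk.2 v hv, hh.2 v hv]⟩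

theorem InK.inv {T : Finset (Finset Cfsg.GolayPt)} {sx : V3 → Finset (Finset Cfsg.GolayPt)}
    {h : Equiv.Perm Cfsg.GolayPt} (hh : InK T sx h) : InK T sx h⁻¹ :=
  ⟨fun o ho => by rw [inv_smul_eq_iff, hh.1 o ho],
    fun v hv => by rw [inv_smul_eq_iff, hh.2 v hv]⟩

theorem InK.tet {T : Finset (Finset Cfsg.GolayPt)} {sx : V3 → Finset (Finset Cfsg.GolayPt)}
    (hF : FanoProp T sx) (hT : T ∈ Cfsg.trios) {h : Equiv.Perm Cfsg.GolayPt}
    (hh : InK T sx h) {v : V3} (hv : v ≠ 0) {t : Finset Cfsg.GolayPt} (ht : t ∈ sx v)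
    {o : Finset Cfsg.GolayPt} (ho : o ∈ T) (hto : t ⊆ o) : h • t = t ∨ h • t = o \ t := by
  have h1 : h • t ∈ sx v := by
    have h2 := Finset.smul_mem_smul_finset (a := h) ht
    rwa [hh.2 v hv] at h2
  have h2 : h • t ⊆ o := by
    have h3 := Finset.smul_finset_subset_smul_finset (a := h) hto
    rwa [hh.1 o ho] at h3
  exact sextet_two_in_octad (hF.sext v hv) (hT.2.1 o ho).2 ht h1 hto h2

theorem InK.apply_mem {T : Finset (Finset Cfsg.GolayPt)}
    {sx : V3 → Finset (Finset Cfsg.GolayPt)} {h : Equiv.Perm Cfsg.GolayPt}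
    (hh : InK T sx h) {o : Finset Cfsg.GolayPt} (ho : o ∈ T) {x : Cfsg.GolayPt} (hx : x ∈ o) :
    h x ∈ o := by
  have h1 : h x ∈ h • o := Finset.smul_mem_smul_finset hx
  rwa [hh.1 o ho] at h1

theorem InK.fix {T : Finset (Finset Cfsg.GolayPt)} {sx : V3 → Finset (Finset Cfsg.GolayPt)}
    (hF : FanoProp T sx) (hT : T ∈ Cfsg.trios) {h : Equiv.Perm Cfsg.GolayPt}
    (hh : InK T sx h) {o : Finset Cfsg.GolayPt} (ho : o ∈ T) {x : Cfsg.GolayPt} (hx : x ∈ o)
    (hhx : h x = x) {y : Cfsg.GolayPt} (hy : y ∈ o) : h y = y := by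
  by_contra hne
  have hy' : h y ∈ o := hh.apply_mem ho hy
  obtain ⟨v, hv, t, ht, hyt, hnt⟩ := hF.sep o ho y hy (h y) hy' (Ne.symm hne)
  obtain ⟨o', ho', hto'⟩ := hF.ref v hv t ht
  have e1 : o' = o := trio_eq_of_mem hT ho' ho (hto' hyt) hy
  rw [e1] at hto'
  obtain ⟨tx, htx, hxtx⟩ := sextet_cover (hF.sext v hv) x
  obtain ⟨o'', ho'', htxo⟩ := hF.ref v hv tx htx
  have e2 : o'' = o := trio_eq_of_mem hT ho'' ho (htxo hxtx) hx
  rw [e2] at htxo
  have h1 : h • tx = tx := by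
    rcases hh.tet hF hT hv htx ho htxo with h1 | h1
    · exact h1
    · exfalso
      have h2 : h x ∈ h • tx := Finset.smul_mem_smul_finset hxtx
      rw [hhx, h1] at h2
      exact (Finset.mem_sdiff.mp h2).2 hxtx
  have h2 : h • t = t := by
    rcases sextet_two_in_octad (hF.sext v hv) (hT.2.1 o ho).2 htx ht htxo hto' with h2 | h2
    · rw [h2]
      exact h1
    · rw [h2, Finset.smul_finset_sdiff, hh.1 o ho, h1]
  have h3 : h y ∈ h • t := Finset.smul_mem_smul_finset hyt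
  rw [h2] at h3
  exact hnt h3

theorem InK.sq {T : Finset (Finset Cfsg.GolayPt)} {sx : V3 → Finset (Finset Cfsg.GolayPt)}
    (hF : FanoProp T sx) (hT : T ∈ Cfsg.trios) {h : Equiv.Perm Cfsg.GolayPt}
    (hh : InK T sx h) : h * h = 1 := by
  refine Equiv.ext fun x => ?_
  show h (h x) = x
  obtain ⟨o, ho, hx⟩ := trio_cover hT x
  by_contra hne
  have hx2 : h (h x) ∈ o := hh.apply_mem ho (hh.apply_mem ho hx)
  obtain ⟨v, hv, t, ht, hxt, hnt⟩ := hF.sep o ho x hx (h (h x)) hx2 (Ne.symm hne)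
  obtain ⟨o', ho', hto'⟩ := hF.ref v hv t ht
  have e1 : o' = o := trio_eq_of_mem hT ho' ho (hto' hxt) hx
  rw [e1] at hto'
  have a1 : h x ∈ h • t := Finset.smul_mem_smul_finset hxt
  rcases hh.tet hF hT hv ht ho hto' with h1 | h1
  · rw [h1] at a1
    have a2 : h (h x) ∈ h • t := Finset.smul_mem_smul_finset a1
    rw [h1] at a2
    exact hnt a2
  · rw [h1] at a1
    have a2 : h (h x) ∈ h • (o \ t) := Finset.smul_mem_smul_finset a1
    rw [Finset.smul_finset_sdiff, hh.1 o ho, h1, Finset.sdiff_sdiff_eq_self hto'] at a2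
    exact hnt a2

/-- A subgroup of elements fixing the octads and the seven sextets has order at most 64. -/
theorem card_le_of_InK {T : Finset (Finset Cfsg.GolayPt)}
    {sx : V3 → Finset (Finset Cfsg.GolayPt)} (hF : FanoProp T sx) (hT : T ∈ Cfsg.trios)
    (N : Subgroup ↥(MulAction.stabilizer (↥Cfsg.M24) T))
    (hN : ∀ g ∈ N, InK T sx ((g : ↥Cfsg.M24) : Equiv.Perm Cfsg.GolayPt)) : Nat.card N ≤ 64 := by
  classical
  obtain ⟨o₁, ho₁, o₂, ho₂, hne⟩ := Finset.one_lt_card.mp (by rw [hT.1]; norm_num)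
  have h8₁ : o₁.card = 8 := (hT.2.1 o₁ ho₁).2
  have h8₂ : o₂.card = 8 := (hT.2.1 o₂ ho₂).2
  obtain ⟨x₁, hx₁⟩ : ∃ x, x ∈ o₁ := Finset.card_pos.mp (by rw [h8₁]; norm_num)
  obtain ⟨x₂, hx₂⟩ : ∃ x, x ∈ o₂ := Finset.card_pos.mp (by rw [h8₂]; norm_num)
  let f : ↥N → ↥o₁ × ↥o₂ := fun g =>
    (⟨g.1.1.1 x₁, (hN g.1 g.2).apply_mem ho₁ hx₁⟩, ⟨g.1.1.1 x₂, (hN g.1 g.2).apply_mem ho₂ hx₂⟩)
  have hinj : Function.Injective f := by
    intro g g' hgg
    have e1 : g.1.1.1 x₁ = g'.1.1.1 x₁ := congrArg (fun z => (z.1 : Cfsg.GolayPt)) hgg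
    have e2 : g.1.1.1 x₂ = g'.1.1.1 x₂ := congrArg (fun z => (z.2 : Cfsg.GolayPt)) hgg
    have hk : InK T sx ((g.1.1.1)⁻¹ * g'.1.1.1) := (hN g.1 g.2).inv.mul (hN g'.1 g'.2)
    have f1 : ((g.1.1.1)⁻¹ * g'.1.1.1) x₁ = x₁ := by
      show (g.1.1.1)⁻¹ (g'.1.1.1 x₁) = x₁
      rw [← e1, perm_inv_apply]
    have f2 : ((g.1.1.1)⁻¹ * g'.1.1.1) x₂ = x₂ := by
      show (g.1.1.1)⁻¹ (g'.1.1.1 x₂) = x₂
      rw [← e2, perm_inv_apply]
    have hx2 : x₂ ∉ o₁ := fun h => Finset.disjoint_left.mp (hT.2.2 o₁ ho₁ o₂ ho₂ hne) h hx₂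
    have hmem : (g.1.1.1)⁻¹ * g'.1.1.1 ∈ Cfsg.M24 ⊓
        fixingSubgroup (Equiv.Perm Cfsg.GolayPt) ((o₁ : Finset Cfsg.GolayPt) : Set Cfsg.GolayPt) := by
      refine ⟨Cfsg.M24.mul_mem (Cfsg.M24.inv_mem g.1.1.2) g'.1.1.2, ?_⟩
      show (g.1.1.1)⁻¹ * g'.1.1.1 ∈ fixingSubgroup (Equiv.Perm Cfsg.GolayPt)
        ((o₁ : Finset Cfsg.GolayPt) : Set Cfsg.GolayPt)
      rw [mem_fixingSubgroup_iff]
      intro q hq
      exact hk.fix hF hT ho₁ hx₁ f1 (Finset.mem_coe.mp hq)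
    have h1 := Cfsg.Agent.S1554.pointwise_free (hT.2.1 o₁ ho₁) hmem hx2 f2
    have h2 : g.1.1.1 = g'.1.1.1 := by
      rw [← mul_right_inj (g.1.1.1)⁻¹, inv_mul_cancel, h1]
    exact Subtype.ext (Subtype.ext (Subtype.ext h2))
  calc Nat.card N ≤ Nat.card (↥o₁ × ↥o₂) := Nat.card_le_card_of_injective f hinj
    _ = 64 := by
      rw [Nat.card_prod, Nat.card_eq_fintype_card, Nat.card_eq_fintype_card, Fintype.card_coe,
        Fintype.card_coe, h8₁, h8₂]

end Cfsg.Agent.Lib.Helper26
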