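import Cfsg.Agent.Lib.Helper26.TrioData
import Cfsg.Agent.Lib.Helper26.SubOrb
import Cfsg.Agent.Lib.Helper26.OctOrb
import Cfsg.Agent.Lib.Helper93.Trios
import Cfsg.Agent.S1556

set_option autoImplicit false

open scoped Pointwise

namespace Cfsg.Agent.Lib.Helper26

open Cfsg.Agent.Lib.Helper7 Cfsg.Agent.Lib.Helper93

/-- Code (two octads) of the trio at a position of the table. -/
def trObj (i : ℕ) : ℕ := fld trBig 80 0 48 i

/-- Class of the trio at a position of the table. -/
def trLab (i : ℕ) : ℕ := fld trBig 80 48 3 i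

/-- Parent of a position of the table. -/
def trPar (i : ℕ) : ℕ := fld trBig 80 51 13 i

/-- Generator leading to a position of the table. -/
def trGen (i : ℕ) : ℕ := fld trBig 80 64 4 i

/-- Depth of a position of the table. -/
def trDep (i : ℕ) : ℕ := fld trBig 80 68 8 i

/-- Root position of a class. -/
def trRoot (l : ℕ) : ℕ := trRoots.getD l 0

/-- The trio determined by two of its octads. -/
def trioSet (A B : Finset Cfsg.GolayPt) : Finset (Finset Cfsg.GolayPt) := {A, B, (A ∪ B)ᶜ}

/-- The bitmask of the complement of the union of two bitmasks. -/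
def third (a b : ℕ) : ℕ := Nat.xor 16777215 (Nat.lor a b)

/-- First bitmask of a code. -/
def lo (c : ℕ) : ℕ := Nat.mod c 16777216

/-- Second bitmask of a code. -/
def hi (c : ℕ) : ℕ := Nat.div c 16777216

/-- The trio of a code. -/
noncomputable def denT (c : ℕ) : Finset (Finset Cfsg.GolayPt) :=
  trioSet (Cfsg.Agent.Lib.Helper7.setOf (lo c)) (Cfsg.Agent.Lib.Helper7.setOf (hi c))

/-- Image of a code under the permutation with a given inverse table. -/
def actT (t c : ℕ) : ℕ := Nat.add (permT t (lo c)) (Nat.mul 16777216 (permT t (hi c)))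

/-- Two codes give the same three bitmasks. -/
def relT (c c' : ℕ) : Bool :=
  (Nat.land (lo c) (hi c) == 0) &&
    ((lo c' == lo c && hi c' == hi c) || (lo c' == hi c && hi c' == lo c) ||
     (lo c' == lo c && hi c' == third (lo c) (hi c)) ||
     (lo c' == third (lo c) (hi c) && hi c' == lo c) ||
     (lo c' == hi c && hi c' == third (lo c) (hi c)) ||
     (lo c' == third (lo c) (hi c) && hi c' == hi c))

/-- A code of two disjoint octads in normal form. -/
def goodT (c : ℕ) : Bool :=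
  (lo c).testBit 0 && isCode (lo c) && (popc (lo c) == 8) && isCode (hi c) && (popc (hi c) == 8) &&
    (Nat.land (lo c) (hi c) == 0) && decide (hi c < third (lo c) (hi c)) &&
    decide (hi c < 16777216)

theorem lo_lt (c : ℕ) : lo c < 2 ^ 24 := Nat.mod_lt _ (by norm_num)

theorem setOf_third (a b : ℕ) : Cfsg.Agent.Lib.Helper7.setOf (third a b)
    = (Cfsg.Agent.Lib.Helper7.setOf a ∪ Cfsg.Agent.Lib.Helper7.setOf b)ᶜ := by
  ext p
  rw [Finset.mem_compl, Finset.mem_union, mem_setOf, mem_setOf, mem_setOf]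
  show (16777215 ^^^ (a ||| b)).testBit (idx p) = true ↔ _
  rw [Nat.testBit_xor, testBit_allOnes (idx_lt p), Nat.testBit_or]
  cases a.testBit (idx p) <;> cases b.testBit (idx p) <;> simp

theorem third_lt {a b : ℕ} (ha : a < 2 ^ 24) (hb : b < 2 ^ 24) : third a b < 2 ^ 24 :=
  Nat.xor_lt_two_pow (by norm_num) (Nat.or_lt_two_pow ha hb)

theorem disjoint_setOf {a b : ℕ} (h : a &&& b = 0) :
    Disjoint (Cfsg.Agent.Lib.Helper7.setOf a) (Cfsg.Agent.Lib.Helper7.setOf b) := by
  rw [Finset.disjoint_iff_inter_eq_empty, setOf_inter, h]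
  ext p
  simp [mem_setOf]

theorem trioSet_comm (A B : Finset Cfsg.GolayPt) : trioSet B A = trioSet A B := by
  unfold trioSet
  rw [Finset.union_comm, Finset.insert_comm]

theorem trioSet_third {A B : Finset Cfsg.GolayPt} (h : Disjoint A B) :
    trioSet A (A ∪ B)ᶜ = trioSet A B := by
  unfold trioSet
  have h1 : (A ∪ (A ∪ B)ᶜ)ᶜ = B := by
    ext p
    simp only [Finset.mem_compl, Finset.mem_union, not_or]
    constructor
    · rintro ⟨h1, h2⟩
      by_contra hpB
      exact h2 ⟨h1, hpB⟩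
    · intro hp
      exact ⟨fun hA => Finset.disjoint_left.mp h hA hp, fun h3 => h3.2 hp⟩
  rw [h1, Finset.pair_comm]

theorem relT_sound (c c' : ℕ) (h : relT c c' = true) : denT c = denT c' := by
  unfold relT at h
  simp only [Bool.and_eq_true, Bool.or_eq_true, beq_iff_eq] at h
  obtain ⟨hd, h⟩ := h
  have hdisj : Disjoint (Cfsg.Agent.Lib.Helper7.setOf (lo c))
      (Cfsg.Agent.Lib.Helper7.setOf (hi c)) := disjoint_setOf hd
  unfold denT
  rcases h with ((((⟨h1, h2⟩ | ⟨h1, h2⟩) | ⟨h1, h2⟩) | ⟨h1, h2⟩) | ⟨h1, h2⟩) | ⟨h1, h2⟩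
  · rw [h1, h2]
  · rw [h1, h2]
    exact (trioSet_comm _ _).symm
  · rw [h1, h2, setOf_third]
    exact (trioSet_third hdisj).symm
  · rw [h1, h2, setOf_third]
    exact ((trioSet_comm _ _).trans (trioSet_third hdisj)).symm
  · rw [h1, h2, setOf_third, Finset.union_comm]
    exact ((trioSet_third hdisj.symm).trans (trioSet_comm _ _)).symm
  · rw [h1, h2, setOf_third, Finset.union_comm]
    exact ((trioSet_comm _ _).trans ((trioSet_third hdisj.symm).trans (trioSet_comm _ _))).symm

theorem smul_compl_perm (σ : Equiv.Perm Cfsg.GolayPt) (e : Finset Cfsg.GolayPt) :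
    σ • eᶜ = (σ • e)ᶜ := by
  ext p
  rw [Finset.mem_compl, ← Finset.inv_smul_mem_iff, ← Finset.inv_smul_mem_iff, Finset.mem_compl]

theorem smul_trioSet (σ : Equiv.Perm Cfsg.GolayPt) (A B : Finset Cfsg.GolayPt) :
    σ • trioSet A B = trioSet (σ • A) (σ • B) := by
  unfold trioSet
  rw [Finset.smul_finset_insert, Finset.smul_finset_insert, Finset.smul_finset_singleton,
    smul_compl_perm, Finset.smul_finset_union]

theorem lo_actT (t c : ℕ) : lo (actT t c) = permT t (lo c) := by
  show (permT t (lo c) + 16777216 * permT t (hi c)) % 16777216 = _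
  rw [Nat.add_mul_mod_self_left]
  exact Nat.mod_eq_of_lt (by have := permT_lt t (lo c); norm_num at this; exact this)

theorem hi_actT (t c : ℕ) : hi (actT t c) = permT t (hi c) := by
  show (permT t (lo c) + 16777216 * permT t (hi c)) / 16777216 = _
  rw [Nat.add_mul_div_left _ _ (by norm_num),
    Nat.div_eq_of_lt (by have := permT_lt t (lo c); norm_num at this; exact this), zero_add]

theorem tr_hact (S : Subgroup (Equiv.Perm Cfsg.GolayPt)) :
    ∀ σ ∈ S, ∀ (t c : ℕ), RepT σ⁻¹ t → σ • denT c = denT (actT t c) := by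
  intro σ _ t c hR
  unfold denT
  rw [smul_trioSet, smul_setOf hR, smul_setOf hR, lo_actT, hi_actT]

theorem good_facts {c : ℕ} (h : goodT c = true) :
    Cfsg.Agent.Lib.Helper7.setOf (lo c) ∈ Cfsg.octads ∧
      Cfsg.Agent.Lib.Helper7.setOf (hi c) ∈ Cfsg.octads ∧
      Disjoint (Cfsg.Agent.Lib.Helper7.setOf (lo c)) (Cfsg.Agent.Lib.Helper7.setOf (hi c)) ∧
      pt 0 ∈ Cfsg.Agent.Lib.Helper7.setOf (lo c) ∧ hi c < 2 ^ 24 ∧
      hi c < third (lo c) (hi c) := by
  unfold goodT at h
  simp only [Bool.and_eq_true, beq_iff_eq, decide_eq_true_eq] at h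
  obtain ⟨⟨⟨⟨⟨⟨⟨ha0, hac⟩, ha8⟩, hbc⟩, hb8⟩, hab⟩, hbz⟩, hblt⟩ := h
  have hblt' : hi c < 2 ^ 24 := by norm_num; exact hblt
  refine ⟨⟨setOf_mem_golaySupports (lo_lt c) hac, by rw [card_setOf, ha8]⟩,
    ⟨setOf_mem_golaySupports hblt' hbc, by rw [card_setOf, hb8]⟩, disjoint_setOf hab, ?_, hblt',
    hbz⟩
  rw [mem_setOf, idx_pt (by norm_num)]
  exact ha0

theorem denT_mem {c : ℕ} (h : goodT c = true) : denT c ∈ Cfsg.trios := by
  obtain ⟨hA, hB, hd, -, -, -⟩ := good_facts h
  exact trio_of_disjoint hA hB hd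

theorem mem_trioSet (A B X : Finset Cfsg.GolayPt) :
    X ∈ trioSet A B ↔ X = A ∨ X = B ∨ X = (A ∪ B)ᶜ := by
  unfold trioSet
  simp

theorem denT_inj {c c' : ℕ} (hc : goodT c = true) (hc' : goodT c' = true)
    (h : denT c = denT c') : c = c' := by
  obtain ⟨hA, hB, hdAB, hp, hblt, hbz⟩ := good_facts hc
  obtain ⟨hA', hB', hdAB', hp', hblt', hbz'⟩ := good_facts hc'
  have hBne : (Cfsg.Agent.Lib.Helper7.setOf (hi c)).Nonempty := octad_ne_empty hB
  have hB'ne : (Cfsg.Agent.Lib.Helper7.setOf (hi c')).Nonempty := octad_ne_empty hB'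
  unfold denT at h
  have hAeq : Cfsg.Agent.Lib.Helper7.setOf (lo c) = Cfsg.Agent.Lib.Helper7.setOf (lo c') := by
    have h1 : Cfsg.Agent.Lib.Helper7.setOf (lo c) ∈ trioSet (Cfsg.Agent.Lib.Helper7.setOf (lo c'))
        (Cfsg.Agent.Lib.Helper7.setOf (hi c')) := by
      rw [← h]
      exact (mem_trioSet _ _ _).mpr (Or.inl rfl)
    rcases (mem_trioSet _ _ _).mp h1 with h2 | h2 | h2
    · exact h2
    · exfalso
      rw [h2] at hp
      exact Finset.disjoint_left.mp hdAB' hp' hp
    · exfalso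
      rw [h2, Finset.mem_compl, Finset.mem_union] at hp
      exact hp (Or.inl hp')
  have ha : lo c = lo c' := setOf_injective (lo_lt c) (lo_lt c') hAeq
  have hb : hi c = hi c' := by
    have hBmem : Cfsg.Agent.Lib.Helper7.setOf (hi c) ∈
        trioSet (Cfsg.Agent.Lib.Helper7.setOf (lo c')) (Cfsg.Agent.Lib.Helper7.setOf (hi c')) := by
      rw [← h]
      exact (mem_trioSet _ _ _).mpr (Or.inr (Or.inl rfl))
    have hB'mem : Cfsg.Agent.Lib.Helper7.setOf (hi c') ∈
        trioSet (Cfsg.Agent.Lib.Helper7.setOf (lo c)) (Cfsg.Agent.Lib.Helper7.setOf (hi c)) := by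
      rw [h]
      exact (mem_trioSet _ _ _).mpr (Or.inr (Or.inl rfl))
    rcases (mem_trioSet _ _ _).mp hBmem with h1 | h1 | h1
    · exfalso
      obtain ⟨q, hq⟩ := hBne
      exact Finset.disjoint_left.mp hdAB (by rw [hAeq, ← h1]; exact hq) hq
    · exact setOf_injective hblt hblt' h1
    · rcases (mem_trioSet _ _ _).mp hB'mem with h2 | h2 | h2
      · exfalso
        obtain ⟨q, hq⟩ := hB'ne
        exact Finset.disjoint_left.mp hdAB' (by rw [← hAeq, ← h2]; exact hq) hq
      · exact (setOf_injective hblt' hblt h2).symm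
      · exfalso
        rw [← setOf_third] at h1 h2
        have e1 : hi c = third (lo c') (hi c') :=
          setOf_injective hblt (third_lt (lo_lt c') hblt') h1
        have e2 : hi c' = third (lo c) (hi c) :=
          setOf_injective hblt' (third_lt (lo_lt c) hblt) h2
        omega
  have e := Nat.mod_add_div c 16777216
  have e' := Nat.mod_add_div c' 16777216
  have ha' : c % 16777216 = c' % 16777216 := ha
  have hb' : c / 16777216 = c' / 16777216 := hb
  omega

/-- The base trio. -/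
noncomputable abbrev baseT : Finset (Finset Cfsg.GolayPt) := denT trBase

/-- The stabiliser of the base trio in the group of the code. -/
noncomputable def trS : Subgroup (Equiv.Perm Cfsg.GolayPt) :=
  Cfsg.M24 ⊓ MulAction.stabilizer (Equiv.Perm Cfsg.GolayPt) baseT

theorem trTinv_eq : trWords.map (fun w => invT (evalT ltabs2 w)) = trTinv := by
  decide +kernel

/-- Elements of the stabiliser of the base trio. -/
noncomputable def trGens : List (Equiv.Perm Cfsg.GolayPt) := trWords.map (evalW letters2)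

theorem trGens_rep : List.Forall₂ (fun σ t => RepT σ⁻¹ t) trGens trTinv := by
  rw [← trTinv_eq]
  exact rep_inv_words trWords

theorem trTinv_fix : trTinv.all (fun t => relT (actT t trBase) trBase) = true := by
  decide +kernel

theorem trGens_mem : ∀ σ ∈ trGens, σ ∈ trS := by
  intro σ hσ
  have hM : σ ∈ Cfsg.M24 := words_mem_M24 trWords σ hσ
  refine ⟨hM, ?_⟩
  obtain ⟨t, ht, hR⟩ := forall₂_mem_left trGens_rep hσ
  show σ • baseT = baseT
  have h1 := List.all_eq_true.mp trTinv_fix t ht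
  rw [baseT, tr_hact ⊤ σ (Subgroup.mem_top σ) t trBase hR]
  exact relT_sound _ _ h1

set_option maxRecDepth 1000000 in
theorem trChk : allB (stepOK actT relT trTinv 3795 trObj trLab trPar trGen trDep trRoot) 3795
    = true := by
  decide +kernel

set_option maxRecDepth 1000000 in
theorem trGood : allB (fun i => goodT (trObj i)) 3795 = true := by
  decide +kernel

set_option maxRecDepth 1000000 in
theorem trSorted : allB (fun i => decide (trObj i < trObj (i + 1))) (3795 - 1) = true := by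
  decide +kernel

set_option maxRecDepth 1000000 in
theorem trLabs : allB (fun i => decide (trLab i < 5)) 3795 = true := by
  decide +kernel

set_option maxRecDepth 1000000 in
theorem trCounts : cntL (fun i => trLab i == 0) 3795 = 1 ∧ cntL (fun i => trLab i == 1) 3795 = 42 ∧
    cntL (fun i => trLab i == 2) 3795 = 56 ∧ cntL (fun i => trLab i == 3) 3795 = 1008 ∧
    cntL (fun i => trLab i == 4) 3795 = 2688 := by
  refine ⟨?_, ?_, ?_, ?_, ?_⟩ <;> decide +kernel

theorem trBase_good : goodT trBase = true := by decide +kernel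

theorem disjoint_smul (g : Equiv.Perm Cfsg.GolayPt) {A B : Finset Cfsg.GolayPt}
    (h : Disjoint A B) : Disjoint (g • A) (g • B) := by
  rw [Finset.disjoint_iff_inter_eq_empty] at h ⊢
  rw [← Finset.smul_finset_inter, h, Finset.smul_finset_empty]

theorem orbit_baseT : MulAction.orbit (↥Cfsg.M24) baseT = Cfsg.trios := by
  obtain ⟨hA, hB, hd, -, -, -⟩ := good_facts trBase_good
  ext T
  constructor
  · rintro ⟨g, rfl⟩
    show (g : Equiv.Perm Cfsg.GolayPt) • baseT ∈ Cfsg.trios
    rw [baseT, denT, smul_trioSet]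
    exact trio_of_disjoint (smul_mem_octads g.2 hA) (smul_mem_octads g.2 hB) (disjoint_smul _ hd)
  · intro hT
    obtain ⟨o₁, ho₁, o₂, ho₂, hne⟩ := Finset.one_lt_card.mp (by rw [hT.1]; norm_num)
    have hT' := trio_eq hT ho₁ ho₂ hne
    have hoct₁ := hT.2.1 o₁ ho₁
    have hoct₂ := hT.2.1 o₂ ho₂
    have hd₂ := hT.2.2 o₁ ho₁ o₂ ho₂ hne
    obtain ⟨g₁, hg₁, hg₁A⟩ := octad_transitive hA hoct₁
    have hB₁ := smul_mem_octads hg₁ hB
    have hd₁ : Disjoint o₁ (g₁ • Cfsg.Agent.Lib.Helper7.setOf (hi trBase)) := by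
      rw [← hg₁A]
      exact disjoint_smul _ hd
    obtain ⟨g₂, hg₂, hg₂o, hg₂B⟩ := Cfsg.Agent.S1556.result o₁ _ o₂ hoct₁ hB₁ hoct₂ (by
      rw [Finset.disjoint_iff_inter_eq_empty.mp hd₁, Finset.disjoint_iff_inter_eq_empty.mp hd₂])
    refine ⟨⟨g₂ * g₁, Cfsg.M24.mul_mem hg₂ hg₁⟩, ?_⟩
    show (g₂ * g₁) • baseT = T
    rw [baseT, denT, smul_trioSet, mul_smul, mul_smul, hg₁A, hg₂o, hg₂B, hT']
    rfl

/-- Sizes of the orbits of a trio stabiliser on trios. -/
def nTr (i : ℕ) : ℕ :=
  if i = 0 then 1 else if i = 1 then 42 else if i = 2 then 56 else if i = 3 then 1008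
  else if i = 4 then 2688 else 0

theorem subOrb_baseT : ∃ c : Finset (Finset Cfsg.GolayPt) → ℕ,
    SubOrb (↥Cfsg.M24) baseT Cfsg.trios c (Finset.range 5) nTr := by
  have hgood : ∀ i < 3795, goodT (trObj i) = true := allB_spec trGood
  have hinj : ∀ i < 3795, ∀ j < 3795, denT (trObj i) = denT (trObj j) → i = j := by
    intro i hi j hj h
    exact inj_of_sorted trSorted i hi j hj (denT_inj (hgood i hi) (hgood j hj) h)
  have htr := cert_trans trS denT actT relT (tr_hact trS) relT_sound trGens_rep trGens_mem 3795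
    trObj trLab trPar trGen trDep trRoot trChk
  obtain ⟨c, -, hsub⟩ := subOrb_of_labels (G := ↥Cfsg.M24) baseT Cfsg.trios orbit_baseT 3795
    (fun i => denT (trObj i)) trLab (fun i hi => denT_mem (hgood i hi)) ncard_trios
    (Set.toFinite _) hinj
    (fun i hi j hj hij => by
      obtain ⟨u, hu, huij⟩ := htr i hi j hj hij
      exact ⟨⟨u, hu.1⟩, hu.2, huij⟩)
    (Finset.range 5) (fun i hi => Finset.mem_range.mpr (by simpa using allB_spec trLabs i hi))
  refine ⟨c, hsub.congr_n ?_⟩
  intro j hj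
  rw [cntL_eq']
  obtain ⟨h0, h1, h2, h3, h4⟩ := trCounts
  rw [Finset.mem_range] at hj
  interval_cases j
  · exact h0
  · exact h1
  · exact h2
  · exact h3
  · exact h4

/-- The orbits of the stabiliser of a trio on trios. -/
theorem subOrb_trio {T : Finset (Finset Cfsg.GolayPt)} (hT : T ∈ Cfsg.trios) :
    ∃ c : Finset (Finset Cfsg.GolayPt) → ℕ,
      SubOrb (↥Cfsg.M24) T Cfsg.trios c (Finset.range 5) nTr := by
  obtain ⟨c, h⟩ := subOrb_baseT
  rw [← orbit_baseT] at hT
  obtain ⟨g, rfl⟩ := hT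
  exact ⟨_, h.smul g⟩

end Cfsg.Agent.Lib.Helper26
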